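import Cfsg.Agent.Lib.SpFourResidual.Setup
import Cfsg.Agent.Lib.SL2.FpfThreeModule
import Cfsg.Agent.Lib.SL2.Card
import Cfsg.Agent.Lib.SmallDim.Descent

/-!
# Residual subgroups of `Sp₄(2^f)` are not isomorphic to `PSL₂(2^n)`

An element `y` of order three satisfies `y² + y + 1 = 0` either itself or after `g ↦ g*`. In that
representation of `SL₂(2^n)` the matrices span at most a four-dimensional algebra.
-/

set_option autoImplicit false
set_option linter.unusedSectionVars false

open Matrix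
open Cfsg.Lie (star4 altForm4 pairOf)
open CfsgLib.Parabolic.SpFour
open scoped MatrixGroups
open CfsgLib.TwoGroupTricks.SL2Natural (xM yM nM dM xM_add xM_zero yM_mul_nM nM_nM dM_one
  induction_xy)
open CfsgLib.SL2 (tr)

namespace CfsgLib.SpFourResidual

variable {F : Type*} [Field F] [CharP F 2]

local notation "M₄" => Matrix (Fin 4) (Fin 4) F

/-- The star of a symplectic element of order three with a fixed plane, in adapted coordinates. -/
theorem star4_fpf_of_adapted {N : M₄} (hN : Rel N) (c0 : ∀ i, N i 0 = (1 : M₄) i 0)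
    (c3 : ∀ i, N i 3 = (1 : M₄) i 3) (hmid : ∀ i, (N * N + N + 1) i 1 = 0 ∧ (N * N + N + 1) i 2 = 0) :
    star4 N * star4 N + star4 N + 1 = 0 := by
  have a00 : N 0 0 = 1 := by rw [c0]; simp
  have a10 : N 1 0 = 0 := by rw [c0]; simp
  have a20 : N 2 0 = 0 := by rw [c0]; simp
  have a30 : N 3 0 = 0 := by rw [c0]; simp
  have a03 : N 0 3 = 0 := by rw [c3]; simp
  have a13 : N 1 3 = 0 := by rw [c3]; simp
  have a23 : N 2 3 = 0 := by rw [c3]; simp
  have a33 : N 3 3 = 1 := by rw [c3]; simp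
  have a31 : N 3 1 = 0 := by
    have := hN.col 0 1
    simpa [a00, a10, a20, a30, anti, Fin.rev] using this
  have a32 : N 3 2 = 0 := by
    have := hN.col 0 2
    simpa [a00, a10, a20, a30, anti, Fin.rev] using this
  have a01 : N 0 1 = 0 := by
    have := hN.col 3 1
    simpa [a03, a13, a23, a33, anti, Fin.rev] using this
  have a02 : N 0 2 = 0 := by
    have := hN.col 3 2
    simpa [a03, a13, a23, a33, anti, Fin.rev] using this
  have hdet : N 1 1 * N 2 2 + N 2 1 * N 1 2 = 1 := by
    have := hN.col 1 2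
    simpa [a01, a02, a31, a32, anti, Fin.rev] using this
  have e11 := (hmid 1).1
  have e21 := (hmid 2).1
  have e12 := (hmid 1).2
  have e22 := (hmid 2).2
  simp [Matrix.mul_apply, Fin.sum_univ_four, a01, a02, a10, a13, a20, a23, a31, a32]
    at e11 e12 e21 e22
  have h2 : (2 : F) = 0 := CharTwo.two_eq_zero
  ext p r
  fin_cases p <;> fin_cases r <;>
    simp [star4, pairOf, Matrix.mul_apply, Fin.sum_univ_four, a00, a01, a02, a03, a10, a13, a20, a23,
      a30, a31, a32, a33] <;>
    first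
      | linear_combination e11
      | linear_combination e12
      | linear_combination e21
      | linear_combination e22

theorem altForm4_mulVec_self_adjoint {e : M₄} (he : eᵀ * anti = anti * e) (u v : Fin 4 → F) :
    altForm4 (e *ᵥ u) v = altForm4 u (e *ᵥ v) := by
  rw [altForm4_eq, altForm4_eq, dotProduct_comm, Matrix.dotProduct_mulVec, ← Matrix.mulVec_transpose,
    Matrix.mulVec_mulVec, he, dotProduct_comm, Matrix.mulVec_mulVec]

/-- A hyperbolic pair in the image of a self-adjoint idempotent. -/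
theorem exists_pair_of_idem {e : M₄} (he : eᵀ * anti = anti * e) (hi : e * e = e) (h0 : e ≠ 0) :
    ∃ u w : Fin 4 → F, e *ᵥ u = u ∧ e *ᵥ w = w ∧ altForm4 u w = 1 := by
  have hfix : ∀ x, e *ᵥ (e *ᵥ x) = e *ᵥ x := fun x => by rw [Matrix.mulVec_mulVec, hi]
  obtain ⟨u0, hu0⟩ : ∃ u0, e *ᵥ u0 ≠ 0 := by
    by_contra h
    exact h0 (Matrix.ext_of_mulVec_single fun i => by
      rw [Matrix.zero_mulVec]; exact not_not.1 fun h' => h ⟨_, h'⟩)
  obtain ⟨x, hx⟩ := (isSymplecticForm.nondegenerate _ hu0).2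
  set c := altForm4 (e *ᵥ u0) x with hc
  have hc0 : c ≠ 0 := hx
  refine ⟨e *ᵥ u0, c⁻¹ • (e *ᵥ x), hfix _, by rw [Matrix.mulVec_smul, hfix], ?_⟩
  rw [isSymplecticForm.bilinear.smul_right, ← altForm4_mulVec_self_adjoint he, hfix, ← hc,
    inv_mul_cancel₀ hc0]

/-- An element of order three satisfies `y² + y + 1 = 0` itself or after `g ↦ g*`. -/
theorem fpf_or_star {M : M₄} (hM : Rel M) (h3 : M * M * M = 1) (h1 : M ≠ 1) :
    M * M + M + 1 = 0 ∨ star4 M * star4 M + star4 M + 1 = 0 := by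
  refine or_iff_not_imp_left.2 fun h0 => ?_
  set e : M₄ := M * M + M + 1 with he
  have h2 : ∀ X : M₄, X + X = 0 := fun X => by
    ext i j; exact CharTwo.add_self_eq_zero _
  have h4 : M * M * (M * M) = M := by
    rw [← Matrix.mul_assoc, h3, Matrix.one_mul]
  have hadj : Mᵀ * anti = anti * (M * M) := by
    have h5 : anti * Mᵀ * anti * M = 1 := by
      rw [Matrix.mul_assoc, Matrix.mul_assoc, ← Matrix.mul_assoc _ anti, hM.1, anti_mul_self]
    have h6 : anti * Mᵀ * anti = M * M := by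
      calc anti * Mᵀ * anti = anti * Mᵀ * anti * (M * M * M) := by rw [h3, Matrix.mul_one]
        _ = anti * Mᵀ * anti * M * (M * M) := by noncomm_ring
        _ = M * M := by rw [h5, Matrix.one_mul]
    rw [← h6, ← Matrix.mul_assoc, ← Matrix.mul_assoc, anti_mul_self, Matrix.one_mul]
  have hadj2 : (M * M)ᵀ * anti = anti * M := by
    rw [Matrix.transpose_mul, Matrix.mul_assoc, hadj, ← Matrix.mul_assoc, hadj, Matrix.mul_assoc, h4]
  have hes : eᵀ * anti = anti * e := by
    rw [he, Matrix.transpose_add, Matrix.transpose_add, Matrix.transpose_one, add_mul, add_mul,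
      hadj, hadj2, Matrix.one_mul, mul_add, mul_add, Matrix.mul_one]
    abel
  have hee : e * e = e := by
    calc e * e = M * M * (M * M) + (M * M * M + M * M * M) + (M * M + M * M) + M * M + (M + M) + 1 := by
          rw [he]; noncomm_ring
      _ = e := by rw [h2, h2, h2, h4, he]; abel
  have hMe : M * e = e := by
    rw [he, mul_add, mul_add, Matrix.mul_one, ← Matrix.mul_assoc, h3]; abel
  set d : M₄ := e + 1 with hd
  have hds : dᵀ * anti = anti * d := by
    rw [hd, Matrix.transpose_add, Matrix.transpose_one, add_mul, mul_add, hes, Matrix.one_mul,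
      Matrix.mul_one]
  have hdd : d * d = d := by
    calc d * d = e * e + (e + e) + 1 := by rw [hd]; noncomm_ring
      _ = d := by rw [hee, h2, hd, add_zero]
  have hed : e * d = 0 := by rw [hd, mul_add, hee, Matrix.mul_one, h2]
  have hd0 : d ≠ 0 := by
    intro h
    have : e = 1 := by
      calc e = e + (1 + 1) := by rw [h2, add_zero]
        _ = d + 1 := by rw [hd]; abel
        _ = 1 := by rw [h, zero_add]
    rw [this, Matrix.mul_one] at hMe
    exact h1 hMe
  obtain ⟨u, w, hu, hw, huw⟩ := exists_pair_of_idem hes hee h0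
  obtain ⟨x, z, hx, hz, hxz⟩ := exists_pair_of_idem hds hdd hd0
  have hperp : ∀ {a b : Fin 4 → F}, e *ᵥ a = a → d *ᵥ b = b → altForm4 a b = 0 := fun {a b} ha hb => by
    rw [← ha, ← hb, altForm4_mulVec_self_adjoint hes, Matrix.mulVec_mulVec, hed, Matrix.zero_mulVec]
    simp [altForm4]
  have hperp' : ∀ {a b : Fin 4 → F}, d *ᵥ a = a → e *ᵥ b = b → altForm4 a b = 0 := fun ha hb => by
    rw [altForm4_comm]; exact hperp hb ha
  set cl : Fin 4 → Fin 4 → F := ![u, x, z, w] with hcl
  set B : M₄ := Matrix.of fun i j => cl j i with hB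
  have hcol : ∀ j, B *ᵥ Pi.single j 1 = cl j := fun j => by
    ext i; simp [hB, Matrix.mulVec_single]
  have hgram : Bᵀ * anti * B = (anti : M₄) := by
    ext i j
    have : (Bᵀ * (anti : M₄) * B) i j = altForm4 (cl i) (cl j) := by
      rw [altForm4_eq, Matrix.mul_assoc, Matrix.mul_apply]
      simp [dotProduct, Matrix.mulVec, Matrix.mul_apply, hB]
    rw [this]
    fin_cases i <;> fin_cases j <;>
      simp [hcl, anti, Fin.rev, altForm4_self, hperp hu hx, hperp hu hz, hperp hw hx, hperp hw hz,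
        hperp' hx hu, hperp' hz hu, hperp' hx hw, hperp' hz hw, huw, hxz, altForm4_comm w u,
        altForm4_comm z x]
  set Bi : M₄ := (anti : M₄) * Bᵀ * anti with hBi
  have hBiB : Bi * B = 1 := by
    rw [hBi, Matrix.mul_assoc, Matrix.mul_assoc, ← Matrix.mul_assoc _ anti, hgram, anti_mul_self]
  have hBBi : B * Bi = 1 := mul_eq_one_comm.1 hBiB
  have hBrel : Rel B := by
    refine ⟨hgram, ?_⟩
    calc B * anti * Bᵀ = B * Bi * anti := by
          rw [hBi]; simp only [Matrix.mul_assoc, anti_mul_self, Matrix.mul_one]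
      _ = anti := by rw [hBBi, Matrix.one_mul]
  have hBirel : Rel Bi := (rel_anti.mul hBrel.transpose).mul rel_anti
  set N : M₄ := Bi * M * B with hN
  have hNcol : ∀ j, e *ᵥ cl j = cl j → ∀ i, N i j = (1 : M₄) i j := by
    intro j hj i
    have h7 : M *ᵥ cl j = cl j := by rw [← hj, Matrix.mulVec_mulVec, hMe]
    have h8 : N *ᵥ Pi.single j 1 = (1 : M₄) *ᵥ Pi.single j 1 := by
      rw [hN, ← Matrix.mulVec_mulVec, hcol, ← Matrix.mulVec_mulVec, h7, ← hcol,
        Matrix.mulVec_mulVec, hBiB]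
    simpa [Matrix.mulVec_single, Matrix.one_apply] using congrFun h8 i
  have hpoly : N * N + N + 1 = Bi * e * B := by
    calc N * N + N + 1 = Bi * M * (B * Bi) * M * B + Bi * M * B + Bi * B := by
          rw [hN, hBiB]; noncomm_ring
      _ = Bi * e * B := by rw [hBBi, he]; noncomm_ring
  have hmid : ∀ j, d *ᵥ cl j = cl j → ∀ i, (N * N + N + 1) i j = 0 := by
    intro j hj i
    have h7 : e *ᵥ cl j = 0 := by rw [← hj, Matrix.mulVec_mulVec, hed, Matrix.zero_mulVec]
    have h8 : (N * N + N + 1) *ᵥ Pi.single j 1 = 0 := by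
      rw [hpoly, ← Matrix.mulVec_mulVec, hcol, ← Matrix.mulVec_mulVec, h7, Matrix.mulVec_zero]
    simpa [Matrix.mulVec_single] using congrFun h8 i
  have key := star4_fpf_of_adapted ((hBirel.mul hM).mul hBrel) (hNcol 0 hu) (hNcol 3 hw)
    (fun i => ⟨hmid 1 hx i, hmid 2 hz i⟩)
  have hMN : M = B * N * Bi := by
    calc M = B * Bi * M * (B * Bi) := by rw [hBBi, Matrix.one_mul, Matrix.mul_one]
      _ = B * N * Bi := by rw [hN]; noncomm_ring
  have hSS : star4 B * star4 Bi = 1 := by rw [← star4_mul hBrel hBirel, hBBi, star4_one]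
  have hSS' : star4 Bi * star4 B = 1 := by rw [← star4_mul hBirel hBrel, hBiB, star4_one]
  have hNrel : Rel N := (hBirel.mul hM).mul hBrel
  rw [hMN, star4_mul (hBrel.mul hNrel) hBirel, star4_mul hBrel hNrel]
  calc star4 B * star4 N * star4 Bi * (star4 B * star4 N * star4 Bi) +
        star4 B * star4 N * star4 Bi + 1
      = star4 B * star4 N * (star4 Bi * star4 B) * star4 N * star4 Bi +
        star4 B * star4 N * star4 Bi + star4 B * star4 Bi := by rw [hSS]; noncomm_ring
    _ = star4 B * (star4 N * star4 N + star4 N + 1) * star4 Bi := by rw [hSS']; noncomm_ring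
    _ = 0 := by rw [key, Matrix.mul_zero, Matrix.zero_mul]

/-- An absolutely irreducible group is not the image of a representation of `SL₂(2^n)` in which
elements of trace one act without fixed points. -/
theorem not_fpfRep {Q : Subgroup (GL (Fin 4) F)}
    (hirr : Cfsg.Geo.ActsAbsolutelyIrreducibly (Cfsg.Geo.matrixSet Q))
    {K : Type*} [Field K] [Fintype K] {ρ : SL(2, K) →* M₄}
    (hsurj : ∀ q ∈ Cfsg.Geo.matrixSet Q, ∃ g, ρ g = q)
    (H : CfsgLib.SL2.FpfThree.Rep ρ) : False := by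
  have hphi : ∀ t, ∃ c : F, H.phi t = c • (1 : M₄) := fun t =>
    hirr.2 _ fun s hs => by
      obtain ⟨g, rfl⟩ := hsurj s hs
      exact (H.phi_central t g).symm
  obtain ⟨-, hAn⟩ := H.xM_eq 1
  set A : M₄ := ρ (xM 1) + 1 with hA
  set n : M₄ := ρ (nM : SL(2, K)) with hn
  have hx2 : ρ (xM (1 : K)) * ρ (xM 1) = 1 := by
    rw [← map_mul, ← xM_add, CfsgLib.SL2.FpfThree.add_self H.two, xM_zero, map_one]
  have hA2 : A * A = 0 := by
    rw [hA, mul_add, add_mul, Matrix.mul_one, hx2, Matrix.one_mul]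
    calc (1 : M₄) + ρ (xM 1) + (ρ (xM 1) + 1) = (1 + 1) + (ρ (xM 1) + ρ (xM 1)) := by abel
      _ = 0 := by rw [H.add_self, H.add_self, add_zero]
  have hn2 : n * n = 1 := H.n_sq
  have hnA : n * A = 1 + A * n := by
    refine H.eq_of_add_eq_zero ?_
    calc n * A + (1 + A * n) = (A * n + n * A) + 1 := by abel
      _ = 0 := by rw [hAn, H.add_self]
  set W : Submodule F M₄ := Submodule.span F (Set.range ![1, A, n, A * n]) with hW
  have m1 : (1 : M₄) ∈ W := Submodule.subset_span ⟨0, rfl⟩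
  have mA : A ∈ W := Submodule.subset_span ⟨1, rfl⟩
  have mn : n ∈ W := Submodule.subset_span ⟨2, rfl⟩
  have mAn : A * n ∈ W := Submodule.subset_span ⟨3, rfl⟩
  have hclosed : ∀ L : M₄, L ∈ W → L * A ∈ W → L * n ∈ W → L * (A * n) ∈ W → ∀ s ∈ W, L * s ∈ W := by
    intro L l1 l2 l3 l4 s hs
    induction hs using Submodule.span_induction with
    | mem y hy =>
      obtain ⟨i, rfl⟩ := hy
      fin_cases i
      · simpa using l1
      · simpa using l2
      · simpa using l3
      · simpa using l4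
    | zero => simp
    | add y z _ _ hy hz => rw [mul_add]; exact W.add_mem hy hz
    | smul c y _ hy => rw [mul_smul_comm]; exact W.smul_mem c hy
  have hAW : ∀ s ∈ W, A * s ∈ W := hclosed A mA (by rw [hA2]; exact W.zero_mem) mAn
    (by rw [← Matrix.mul_assoc, hA2, Matrix.zero_mul]; exact W.zero_mem)
  have hnW : ∀ s ∈ W, n * s ∈ W := hclosed n mn (by rw [hnA]; exact W.add_mem m1 mAn)
    (by rw [hn2]; exact m1)
    (by rw [← Matrix.mul_assoc, hnA, add_mul, Matrix.one_mul, Matrix.mul_assoc, hn2, Matrix.mul_one]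
        exact W.add_mem mn mA)
  have hxW : ∀ u, ∀ s ∈ W, ρ (xM u) * s ∈ W := by
    intro u s hs
    obtain ⟨c, hc⟩ := hphi u
    have e := (H.xM_eq u).1
    rw [← hA, hc, smul_mul_assoc, Matrix.one_mul] at e
    have e' : ρ (xM u) = c • A + 1 := by
      rw [← e, add_assoc, H.add_self, add_zero]
    rw [e', add_mul, Matrix.one_mul, smul_mul_assoc]
    exact W.add_mem (W.smul_mem c (hAW s hs)) hs
  have hall : ∀ g, ∀ s ∈ W, ρ g * s ∈ W := by
    refine induction_xy hxW (fun u s hs => ?_) (fun g h hg hh s hs => ?_)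
    · have hnn : (nM : SL(2, K)) * nM = 1 := by
        rw [nM_nM, show (-1 : Kˣ) = 1 from Units.ext (by push_cast; linear_combination -H.two), dM_one]
      have e : yM u = nM * xM (-u) * nM := by rw [← yM_mul_nM, mul_assoc, hnn, mul_one]
      rw [e, map_mul, map_mul, Matrix.mul_assoc, Matrix.mul_assoc]
      exact hnW _ (hxW _ _ (hnW _ hs))
    · rw [map_mul, Matrix.mul_assoc]
      exact hg _ (hh _ hs)
  have hle : (⊤ : Submodule F M₄) ≤ W := by
    rw [← CfsgLib.SmallDim.span_eq_top_of_absIrred hirr, Submodule.span_le]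
    intro q hq
    obtain ⟨g, rfl⟩ := hsurj q hq
    simpa using hall g 1 m1
  have h16 : Module.finrank F M₄ = 16 := by
    rw [Module.finrank_matrix]; simp
  have h4 : Module.finrank F W ≤ 4 := by
    simpa [hW, Set.finrank] using finrank_range_le_card (R := F) ![(1 : M₄), A, n, A * n]
  rw [top_le_iff.1 hle, finrank_top, h16] at h4
  omega

variable [Finite F]

/-- A residual core is not isomorphic to `PSL₂(2^n)`. -/
theorem not_psl2_even {P : Subgroup (GL (Fin 4) F)} (G : Geom P) (hs : Geom (starP P))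
    {K : Type} [Field K] [Fintype K] (n : ℕ) (hn : Fintype.card K = 2 ^ n) (h4 : 4 ≤ Fintype.card K)
    (e : Matrix.ProjectiveSpecialLinearGroup (Fin 2) K ≃* P) : False := by
  have h2 : (2 : K) = 0 := by
    have h : ((2 ^ n : ℕ) : K) = 0 := by rw [← hn]; exact Nat.cast_card_eq_zero K
    push_cast at h
    exact eq_zero_of_pow_eq_zero h
  let φ : SL(2, K) →* P := e.toMonoidHom.comp
    (QuotientGroup.mk' (Subgroup.center (Matrix.SpecialLinearGroup (Fin 2) K)))
  have hφsurj : Function.Surjective φ := fun p => by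
    obtain ⟨g, hg⟩ := QuotientGroup.mk'_surjective _ (e.symm p)
    exact ⟨g, by show e (QuotientGroup.mk' _ g) = p; rw [hg]; exact e.apply_symm_apply p⟩
  have hφinj : Function.Injective φ := by
    refine e.injective.comp ((QuotientGroup.mk' _).ker_eq_bot_iff.1 ?_)
    rw [QuotientGroup.ker_mk', CfsgLib.SL2.center_eq_bot_of_two h2]
  let ρ : SL(2, K) →* M₄ := (Units.coeHom M₄).comp ((Subgroup.subtype P).comp φ)
  let ψ : SL(2, K) →* M₄ :=
    (Units.coeHom M₄).comp (starG.comp ((Subgroup.inclusion G.le).comp φ))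
  have hsurj : ∀ q ∈ Cfsg.Geo.matrixSet P, ∃ g, ρ g = q := by
    rintro _ ⟨p, hp, rfl⟩
    obtain ⟨g, hg⟩ := hφsurj ⟨p, hp⟩
    exact ⟨g, by show ((φ g : GL (Fin 4) F) : M₄) = _; rw [hg]⟩
  have hsurjψ : ∀ q ∈ Cfsg.Geo.matrixSet (starP P), ∃ g, ψ g = q := by
    rintro _ ⟨_, ⟨p, hp, rfl⟩, rfl⟩
    obtain ⟨g, hg⟩ := hφsurj ⟨(p : GL (Fin 4) F), hp⟩
    refine ⟨g, ?_⟩
    show ((starG (Subgroup.inclusion G.le (φ g)) : GL (Fin 4) F) : M₄) = _
    rw [hg]
    rfl
  have hmk : ∀ σ : SL(2, K) →* M₄, σ (CfsgLib.SL2.companion 1) * σ (CfsgLib.SL2.companion 1) +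
      σ (CfsgLib.SL2.companion 1) + 1 = 0 → CfsgLib.SL2.FpfThree.Rep σ := fun σ h0 =>
    { two := h2
      two' := by ext i j; simp [CharTwo.two_eq_zero, Matrix.ofNat_apply]
      four_le := h4
      rel := fun y hy => by
        have ht := CfsgLib.SL2.tr_companion (1 : K)
        obtain ⟨c, rfl⟩ := isConj_iff.1 (CfsgLib.SL2.FpfThree.isConj_tr h2
          (g := CfsgLib.SL2.companion 1) (g' := y) (by rw [ht]; exact one_ne_zero) (by rw [ht, hy]))
        have hcc : σ c⁻¹ * σ c = 1 := by rw [← map_mul, inv_mul_cancel, map_one]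
        have hcc' : σ c * σ c⁻¹ = 1 := by rw [← map_mul, mul_inv_cancel, map_one]
        simp only [map_mul]
        set Y := σ (CfsgLib.SL2.companion 1)
        calc σ c * Y * σ c⁻¹ * (σ c * Y * σ c⁻¹) + σ c * Y * σ c⁻¹ + 1
            = σ c * Y * (σ c⁻¹ * σ c) * Y * σ c⁻¹ + σ c * Y * σ c⁻¹ + σ c * σ c⁻¹ := by
              rw [hcc']; noncomm_ring
          _ = σ c * (Y * Y + Y + 1) * σ c⁻¹ := by rw [hcc]; noncomm_ring
          _ = 0 := by rw [h0, Matrix.mul_zero, Matrix.zero_mul] }
  set y : SL(2, K) := CfsgLib.SL2.companion 1 with hy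
  have hy3 : y * y * y = 1 := CfsgLib.SL2.FpfThree.cube_of_tr_one h2 (CfsgLib.SL2.tr_companion 1)
  have hy1 : y ≠ 1 := by
    intro h
    have := CfsgLib.SL2.tr_companion (1 : K)
    rw [← hy, h] at this
    simp [tr] at this
  have hR : Rel (ρ y) := mem_relGroup.1 (G.le (φ y).2)
  rcases fpf_or_star hR (by rw [← map_mul, ← map_mul, hy3, map_one]) (fun h => hy1 (hφinj
      (Subtype.ext (Units.ext (by rw [map_one]; exact h))))) with h | h
  · exact not_fpfRep G.absIrred (ρ := ρ) hsurj (hmk ρ h)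
  · exact not_fpfRep hs.absIrred (ρ := ψ) hsurjψ (hmk ψ h)

end CfsgLib.SpFourResidual
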