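import Cfsg.Agent.Lib.SpFourResidual.Setup
import Cfsg.Agent.Lib.SmallDim.Descent
import Cfsg.Agent.Lib.SLThreeResidual.AltFacts
import Cfsg.Agent.S0254

/-!
# `A₆` is not a residual core of `Sp₄(2^f)`, `f ≥ 2`

All traces lie in the prime field.  The only case needing an argument is an element of order five
whose trace is a primitive cube root of unity; it then has a fixed space of dimension two, and so
have all elements of order five.  For five-cycles `g`, `h` generating `A₆` with `g * h` a five-cycle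
the images of `g + 1` and `h + 1` are complementary, so a fixed vector of `g * h` is fixed by
everything.
-/

set_option autoImplicit false
set_option linter.unusedSectionVars false
set_option linter.style.haveILetI false

open Matrix
open CfsgLib.Parabolic.SpFour

namespace CfsgLib.SpFourResidual

namespace Six

variable {F : Type*} [Field F] [CharP F 2]

local notation "M₄" => Matrix (Fin 4) (Fin 4) F

theorem add_self (X : M₄) : X + X = 0 := by
  ext i j
  exact CharTwo.add_self_eq_zero _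

/-- The sum of a matrix and its symplectic adjoint. -/
def pm (M : M₄) : M₄ := M + anti * Mᵀ * anti

theorem pm_eq (M : M₄) : pm M =
    !![M 0 0 + M 3 3, M 0 1 + M 2 3, M 0 2 + M 1 3, 0;
      M 1 0 + M 3 2, M 1 1 + M 2 2, 0, M 0 2 + M 1 3;
      M 2 0 + M 3 1, 0, M 1 1 + M 2 2, M 0 1 + M 2 3;
      0, M 2 0 + M 3 1, M 1 0 + M 3 2, M 0 0 + M 3 3] := by
  ext i j
  fin_cases i <;> fin_cases j <;>
    simp [pm, anti, Matrix.mul_apply, Fin.sum_univ_four, Fin.rev, CharTwo.add_self_eq_zero, add_comm]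

/-- The sum satisfies its Pfaffian characteristic polynomial. -/
theorem pm_quad (M : M₄) : ∃ c : F, pm M * pm M + M.trace • pm M = c • (1 : M₄) := by
  refine ⟨(pm M * pm M + M.trace • pm M) 0 0, ?_⟩
  rw [pm_eq]
  ext i j
  fin_cases i <;> fin_cases j <;>
    simp [Fin.sum_univ_four, Matrix.trace] <;> ring_nf <;>
    simp [CharTwo.two_eq_zero, show (4 : F) = 0 from by
      linear_combination 2 * CharTwo.two_eq_zero (R := F)]

theorem pm_scalar {M : M₄} {k : F} (h : pm M = k • (1 : M₄)) : M.trace = 0 := by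
  rw [pm_eq] at h
  have h0 := congrFun (congrFun h 0) 0
  have h1 := congrFun (congrFun h 1) 1
  simp at h0 h1
  simp [Matrix.trace, Fin.sum_univ_four]
  linear_combination h0 + h1 + k * CharTwo.two_eq_zero (R := F)

/-- A nonzero translate of the sum has rank at least two. -/
theorem two_le_finrank {M : M₄} {t : F} (hne : pm M + t • (1 : M₄) ≠ 0) :
    2 ≤ Module.finrank F (LinearMap.range (toLin' (pm M + t • (1 : M₄)))) := by
  set N := pm M + t • (1 : M₄) with hN
  have hdiag : ∀ j, N (Fin.rev j) j = 0 := by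
    intro j
    rw [hN, pm_eq]
    fin_cases j <;> simp [Fin.rev]
  have hsymm : ∀ i j, N (Fin.rev i) j = N (Fin.rev j) i := by
    intro i j
    rw [hN, pm_eq]
    fin_cases i <;> fin_cases j <;> simp [Fin.rev]
  obtain ⟨i, j, hij⟩ : ∃ i j, N (Fin.rev i) j ≠ 0 := by
    by_contra hc
    refine hne (Matrix.ext fun i j => ?_)
    by_contra e
    exact hc ⟨Fin.rev i, j, by rwa [Fin.rev_rev]⟩
  have hli : LinearIndependent F ![N.col j, N.col i] := by
    rw [LinearIndependent.pair_iff]
    intro a b e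
    have e1 := congrFun e (Fin.rev i)
    have e2 := congrFun e (Fin.rev j)
    simp [Matrix.col, hdiag] at e1 e2
    exact ⟨e1.resolve_right hij, e2.resolve_right (by rw [hsymm]; exact hij)⟩
  have h2 := finrank_span_eq_card hli
  rw [Fintype.card_fin] at h2
  calc 2 = _ := h2.symm
    _ ≤ _ := Submodule.finrank_mono (Submodule.span_le.2 (by
      rintro _ ⟨k, rfl⟩
      fin_cases k
      · exact ⟨Pi.single j 1, by simp⟩
      · exact ⟨Pi.single i 1, by simp⟩))

theorem pm_eq_add_pow {g : GL (Fin 4) F} (hg : g ∈ relGroup F) (h5 : g ^ 5 = 1) :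
    pm (g : M₄) = (g : M₄) + (g : M₄) ^ 4 := by
  have h1 : (g : M₄) * (anti * (g : M₄)ᵀ * anti) = 1 := by
    rw [← Matrix.mul_assoc, ← Matrix.mul_assoc, (mem_relGroup.1 hg).2, anti_mul_self]
  have h2 : (g : M₄) ^ 4 * (g : M₄) = 1 := by
    rw [← pow_succ, ← Units.val_pow_eq_pow_val, h5, Units.val_one]
  rw [pm, left_inv_eq_right_inv h2 h1]

open Polynomial in
/-- An element of order five whose trace is not in the prime field fixes a vector, and the image
of `g + 1` is at most two-dimensional. -/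
theorem five_bad {g : GL (Fin 4) F} (hg : g ∈ relGroup F) (h5 : g ^ 5 = 1)
    (ht : (g : M₄).trace ^ 2 + (g : M₄).trace + 1 = 0) :
    (∃ v : Fin 4 → F, v ≠ 0 ∧ (g : M₄) *ᵥ v = v) ∧
      Module.finrank F (LinearMap.range (toLin' ((g : M₄) + 1))) ≤ 2 := by
  set M := (g : M₄) with hM
  set t := M.trace with hdt
  have hN := pm_eq_add_pow hg h5
  rw [← hM] at hN
  have hM5 : M ^ 5 = 1 := by rw [hM, ← Units.val_pow_eq_pow_val, h5, Units.val_one]
  set N := pm M with hdN
  have hid : (M + 1) * (N * N + N + 1) = 0 := by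
    have e : ((X : F[X]) + 1) * ((X + X ^ 4) * (X + X ^ 4) + (X + X ^ 4) + 1)
        = (X ^ 5 - 1) * (X ^ 4 + X ^ 3 + 1) := by
      linear_combination (X ^ 6 + X ^ 5 + X ^ 4 + X ^ 3 + X ^ 2 + X + 1) *
        CharTwo.two_eq_zero (R := F[X])
    have := congrArg (aeval M) e
    simpa [← hN, hM5] using this
  obtain ⟨c, hc⟩ := pm_quad M
  rw [← hdt, ← hdN] at hc
  have hNN : N * N = c • (1 : M₄) + t • N := by
    rw [← hc, add_assoc, add_self, add_zero]
  have hid' : (M + 1) * ((t + 1) • N + (c + 1) • (1 : M₄)) = 0 := by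
    rw [hNN] at hid
    rw [add_smul, add_smul, one_smul, one_smul]
    rw [← hid]; congr 1; abel
  have hcM : Commute M N := by
    rw [hN]; exact (Commute.refl M).add_right ((Commute.refl M).pow_right 4)
  have ht0 : t + 1 ≠ 0 := fun e => one_ne_zero (α := F) (by linear_combination ht - t * e)
  have htne : t ≠ 0 := fun e => one_ne_zero (α := F) (by linear_combination ht - (t + 1) * e)
  have hns : ∀ k : F, N ≠ k • (1 : M₄) := fun k e => htne (pm_scalar e)
  by_cases hc0 : c = 0
  · subst hc0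
    have hW : (M + 1) * (N + t • (1 : M₄)) = 0 := by
      rw [zero_add, one_smul] at hid'
      have e := congrArg (t • ·) hid'
      have htt : t * (t + 1) = 1 := by linear_combination ht - CharTwo.two_eq_zero (R := F)
      simp only [smul_zero] at e
      rwa [← Matrix.mul_smul, smul_add, smul_smul, htt, one_smul] at e
    have hne : N + t • (1 : M₄) ≠ 0 := fun e => hns (-t) (by rw [neg_smul]; exact eq_neg_of_add_eq_zero_left e)
    refine ⟨?_, ?_⟩
    · obtain ⟨i, j, hij⟩ : ∃ i j, (N + t • (1 : M₄)) i j ≠ 0 := by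
        by_contra hcon
        exact hne (Matrix.ext fun i j => not_not.1 fun e => hcon ⟨i, j, e⟩)
      refine ⟨(N + t • (1 : M₄)) *ᵥ Pi.single j 1,
        fun e => hij (by simpa [Matrix.mulVec_single_one] using congrFun e i), ?_⟩
      have e : M * (N + t • (1 : M₄)) = N + t • (1 : M₄) := by
        rw [add_mul, one_mul] at hW
        calc _ = _ := eq_neg_of_add_eq_zero_left hW
          _ = _ := neg_eq_of_add_eq_zero_left (add_self _)
      rw [Matrix.mulVec_mulVec, e]
    · have hW' : (N + t • (1 : M₄)) * (M + 1) = 0 := by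
        rw [← hW]
        exact (((hcM.symm.add_left ((Commute.one_left _).smul_left t))).add_right
          (Commute.one_right _)).eq
      have hle : LinearMap.range (toLin' (M + 1)) ≤ LinearMap.ker (toLin' (N + t • (1 : M₄))) := by
        rintro _ ⟨v, rfl⟩
        rw [LinearMap.mem_ker, toLin'_apply, toLin'_apply, Matrix.mulVec_mulVec, hW', Matrix.zero_mulVec]
      have h2 := two_le_finrank hne
      have h3 := LinearMap.finrank_range_add_finrank_ker (toLin' (N + t • (1 : M₄)))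
      have h4 := Submodule.finrank_mono hle
      rw [Module.finrank_fin_fun] at h3
      rw [hdN] at h3 h4
      omega
  · exfalso
    have hu : IsUnit N.det := by
      refine Matrix.isUnit_det_of_right_inverse (B := c⁻¹ • (N + t • (1 : M₄))) ?_
      rw [Matrix.mul_smul, mul_add, Matrix.mul_smul, mul_one, hNN, add_assoc, add_self, add_zero,
        smul_smul, inv_mul_cancel₀ hc0, one_smul]
    have hN' : N = M ^ 4 * ((M + 1) * (M + 1)) := by
      have e : (X : F[X]) + X ^ 4 =
          X ^ 4 * ((X + 1) * (X + 1)) + (X ^ 5 - 1) * (-X) := by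
        linear_combination (-X ^ 5) * CharTwo.two_eq_zero (R := F[X])
      have := congrArg (aeval M) e
      simpa [← hN, hM5] using this
    rw [hN', Matrix.det_mul, Matrix.det_mul] at hu
    have hu' : IsUnit (M + 1).det := (IsUnit.mul_iff.1 (IsUnit.mul_iff.1 hu).2).1
    have hD : (t + 1) • N + (c + 1) • (1 : M₄) = 0 := by
      calc _ = (M + 1)⁻¹ * ((M + 1) * ((t + 1) • N + (c + 1) • (1 : M₄))) := by
            rw [← Matrix.mul_assoc, Matrix.nonsing_inv_mul _ hu', one_mul]
        _ = 0 := by rw [hid', mul_zero]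
    refine hns ((t + 1)⁻¹ * -(c + 1)) ?_
    rw [mul_smul, eq_inv_smul_iff₀ ht0, neg_smul]
    exact eq_neg_of_add_eq_zero_left hD

theorem trace_sq (M : M₄) : (M * M).trace = M.trace ^ 2 := by
  simp [Matrix.trace, Matrix.mul_apply, Fin.sum_univ_four]
  ring_nf
  simp [CharTwo.two_eq_zero]

open Equiv Equiv.Perm
open CfsgLib.SLThreeResidual.Alt (a6 five_six three_six order_cases card_six)

/-- A three-cycle is a product of two transpositions with a common point. -/
theorem swap_mul_swap_of_three_cycle {α : Type*} [Fintype α] [DecidableEq α] {σ : Equiv.Perm α} (h : σ.IsThreeCycle) :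
    ∃ a b c, a ≠ b ∧ b ≠ c ∧ a ≠ c ∧ σ = Equiv.swap a b * Equiv.swap b c := by
  obtain ⟨a, ha⟩ := h.isCycle.nonempty_support
  have h1 : σ a ≠ a := Equiv.Perm.mem_support.1 ha
  have h3 : σ (σ (σ a)) = a := by
    have := pow_orderOf_eq_one σ
    rw [h.orderOf] at this
    simpa [pow_succ, Equiv.Perm.mul_apply] using congrArg (· a) this
  have hb : σ a ∈ σ.support := Equiv.Perm.apply_mem_support.2 ha
  have hc : σ (σ a) ∈ σ.support := Equiv.Perm.apply_mem_support.2 hb
  have hac : σ (σ a) ≠ a := fun e => h1 (by rw [e] at h3; exact h3)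
  have hbc : σ a ≠ σ (σ a) := fun e => h1 (σ.injective e.symm)
  refine ⟨a, σ a, σ (σ a), Ne.symm h1, hbc, Ne.symm hac, Equiv.ext fun y => ?_⟩
  rw [Equiv.Perm.mul_apply]
  have hsup : σ.support = {a, σ a, σ (σ a)} := by
    refine (Finset.eq_of_subset_of_card_le ?_ ?_).symm
    · intro x hx
      simp only [Finset.mem_insert, Finset.mem_singleton] at hx
      rcases hx with rfl | rfl | rfl <;> assumption
    · rw [h.card_support, Finset.card_eq_three.2 ⟨a, σ a, σ (σ a), Ne.symm h1, Ne.symm hac, hbc, rfl⟩]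
  by_cases hy : y ∈ σ.support
  · rw [hsup] at hy
    simp only [Finset.mem_insert, Finset.mem_singleton] at hy
    rcases hy with rfl | rfl | rfl
    · rw [Equiv.swap_apply_of_ne_of_ne (Ne.symm h1) (Ne.symm hac), Equiv.swap_apply_left]
    · rw [Equiv.swap_apply_left, Equiv.swap_apply_of_ne_of_ne hac (Ne.symm hbc)]
    · rw [Equiv.swap_apply_right, Equiv.swap_apply_right, h3]
  · have n1 : y ≠ a := fun e => hy (e ▸ ha)
    have n2 : y ≠ σ a := fun e => hy (e ▸ hb)
    have n3 : y ≠ σ (σ a) := fun e => hy (e ▸ hc)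
    rw [Equiv.swap_apply_of_ne_of_ne n2 n3, Equiv.swap_apply_of_ne_of_ne n1 n2,
      Equiv.Perm.notMem_support.1 hy]


/-- The second five-cycle. -/
def b5 : alternatingGroup (Fin 6) :=
  ⟨swap 1 2 * swap 2 4 * swap 4 3 * swap 3 5, mem_alternatingGroup.2 (by decide +kernel)⟩

/-- Words in `a6` and `b5` for the three-cycles. -/
def threeWords : List (List (Fin 2)) :=
  [
    [0, 1, 0, 0, 1, 1, 1], [1, 1, 1, 0, 1, 0, 0, 1], [0, 0, 1, 0, 1, 1, 0, 0], [1, 0, 0, 1, 1, 1, 0],
    [1, 1, 0, 1, 0, 0, 1, 1], [0, 1, 1, 1, 1, 0, 1, 0], [0, 1, 1, 0, 0, 1, 0, 0, 1], [1, 0, 0, 0, 1, 0, 1],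
    [0, 1, 0, 1, 1, 0, 0, 0], [1, 0, 1, 0, 0, 1, 1, 1], [0, 1, 0, 0, 1, 1, 1, 1], [0, 0, 0, 1, 0, 1, 1],
    [1, 1, 0, 0, 0, 1, 0], [1, 1, 1, 1, 0, 1, 0, 0], [1, 1, 1, 0, 1, 0, 0], [0, 0, 1, 1, 1, 0, 1],
    [0, 0, 0, 1, 0, 1, 1, 1, 1], [1, 1, 0, 1, 0, 0, 1], [1, 0, 1, 0, 0, 1, 1], [1, 0, 1, 1, 0, 0, 1, 0, 0],
    [1, 0, 1, 1, 0, 0, 0, 0], [1, 1, 1, 0, 1, 0, 0, 0, 0], [0, 0, 0, 0, 1, 0, 1, 1], [1, 0, 0, 1, 1, 1, 1, 0],
    [0, 0, 1, 0, 1, 1, 0], [1, 0, 0, 0, 0, 1, 0, 1], [0, 1, 1, 0, 0, 0, 1], [0, 1, 0, 1, 1, 0, 0, 1, 0],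
    [0, 1, 0, 0, 1, 1, 0, 1, 1], [0, 1, 1, 1, 0, 1, 0], [0, 0, 0, 1, 0, 1, 1, 0], [0, 0, 1, 0, 1, 1, 1, 1, 0],
    [0, 1, 0, 1, 1, 0, 0], [1, 0, 0, 1, 1, 0, 1, 1, 0], [1, 0, 1, 1, 0, 0, 0], [1, 1, 0, 0, 0, 0, 1, 0],
    [0, 1, 1, 0, 0, 0, 0, 1], [1, 0, 1, 0, 0, 1, 1, 0, 1], [0, 0, 1, 1, 1, 1, 0, 1], [1, 1, 0, 1, 0, 0, 0, 0, 1]]

/-- The value of a word. -/
def evalWord (w : List (Fin 2)) : alternatingGroup (Fin 6) :=
  (w.map fun i => if i = 0 then a6 else b5).prod

theorem threeWords_spec : ∀ a b c : Fin 6, a ≠ b → b ≠ c → a ≠ c →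
    swap a b * swap b c ∈ threeWords.map (fun w => (evalWord w : Perm (Fin 6))) := by
  decide +kernel

theorem closure_eq_top : Subgroup.closure ({a6, b5} : Set (alternatingGroup (Fin 6))) = ⊤ := by
  set H := Subgroup.closure ({a6, b5} : Set (alternatingGroup (Fin 6))) with hH
  refine eq_top_iff.2 fun x _ => ?_
  have hx : (x : Perm (Fin 6)) ∈ H.map (alternatingGroup (Fin 6)).subtype := by
    have h : Subgroup.closure {σ : Perm (Fin 6) | IsThreeCycle σ} ≤
        H.map (alternatingGroup (Fin 6)).subtype := by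
      refine (Subgroup.closure_le _).2 fun σ hσ => ?_
      obtain ⟨a, b, c, hab, hbc, hac, rfl⟩ := swap_mul_swap_of_three_cycle hσ
      obtain ⟨w, -, hw⟩ := List.mem_map.1 (threeWords_spec a b c hab hbc hac)
      refine ⟨evalWord w, list_prod_mem fun y hy => ?_, hw⟩
      obtain ⟨i, -, rfl⟩ := List.mem_map.1 hy
      apply Subgroup.subset_closure
      split_ifs <;> simp
    rw [closure_three_cycles_eq_alternating] at h
    exact h x.2
  obtain ⟨y, hy, hyx⟩ := hx
  rwa [← Subtype.ext (show (y : Perm (Fin 6)) = x from hyx)]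

/-- Elements of order five are conjugate to powers of one of them. -/
theorem five_conj {x : alternatingGroup (Fin 6)} (hx : x ^ 5 = 1) :
    ∃ (y : alternatingGroup (Fin 6)) (k : ℕ), k < 5 ∧ x = y * a6 ^ k * y⁻¹ := by
  haveI : Fact (5 : ℕ).Prime := ⟨by norm_num⟩
  have ha : a6 ^ 5 = 1 := by decide +kernel
  have hpg : ∀ z : alternatingGroup (Fin 6), z ^ 5 = 1 → IsPGroup 5 (Subgroup.zpowers z) := by
    rintro z hz ⟨w, j, rfl⟩
    refine ⟨1, Subtype.ext ?_⟩
    rw [SubmonoidClass.coe_pow, Subgroup.coe_one, pow_one, ← zpow_natCast, ← _root_.zpow_mul, mul_comm,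
      _root_.zpow_mul, zpow_natCast, hz, _root_.one_zpow]
  have hoa : orderOf a6 = 5 := orderOf_eq_prime ha (by decide +kernel)
  have hcard : Nat.card (Subgroup.zpowers a6) =
      5 ^ (Nat.card (alternatingGroup (Fin 6))).factorization 5 := by
    rw [Nat.card_zpowers, hoa, card_six, show (360 : ℕ) = 72 * 5 from rfl,
      Nat.factorization_mul (by norm_num) (by norm_num)]
    simp [Nat.factorization_eq_zero_of_not_dvd (show ¬ 5 ∣ 72 by norm_num),
      Nat.prime_five.factorization_self]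
  obtain ⟨Q, hQ⟩ := (hpg x hx).exists_le_sylow
  obtain ⟨y, hy⟩ := MulAction.exists_smul_eq (alternatingGroup (Fin 6)) (Sylow.ofCard _ hcard) Q
  have hx' : x ∈ ((y • Sylow.ofCard _ hcard : Sylow 5 _) : Subgroup (alternatingGroup (Fin 6))) := by
    rw [hy]; exact hQ (Subgroup.mem_zpowers x)
  rw [Sylow.coe_subgroup_smul, Subgroup.mem_pointwise_smul_iff_inv_smul_mem] at hx'
  obtain ⟨k, hk⟩ := Finset.mem_image.1 (mem_zpowers_iff_mem_range_orderOf.1 hx')
  rw [hoa, Finset.mem_range] at hk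
  simp only [MulAut.smul_def, ← map_inv, MulAut.conj_apply, inv_inv] at hk
  refine ⟨y, k, hk.1, ?_⟩
  rw [hk.2]; group

/-- The traces of a faithful absolutely irreducible symplectic image of `A₆`. -/
theorem traces (f : alternatingGroup (Fin 6) →* GL (Fin 4) F) (hrel : ∀ x, f x ∈ relGroup F)
    (hirr : ∀ W : Submodule F (Fin 4 → F), (∀ x, ∀ v ∈ W, (f x : M₄) *ᵥ v ∈ W) → W = ⊥ ∨ W = ⊤)
    (hne : f a6 ≠ 1) :
    ∀ x, (f x : M₄).trace = 0 ∨ (f x : M₄).trace = 1 := by
  have hconj : ∀ x y, (f (y * x * y⁻¹) : M₄).trace = (f x : M₄).trace := by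
    intro x y
    rw [map_mul, map_mul, map_inv]
    simp only [Units.val_mul]
    exact Matrix.trace_units_conj _ _
  have hsq : ∀ x, (f (x ^ 2) : M₄).trace = (f x : M₄).trace ^ 2 := fun x => by
    rw [sq, map_mul, Units.val_mul, trace_sq]
  have hidem : ∀ t : F, t ^ 2 = t → t = 0 ∨ t = 1 := fun t e => by
    have : t * (t - 1) = 0 := by linear_combination e
    exact (mul_eq_zero.1 this).imp id sub_eq_zero.1
  have hone : (f 1 : M₄).trace = 0 := by
    rw [map_one, Units.val_one, Matrix.trace_one, Fintype.card_fin]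
    exact (CharP.cast_eq_zero_iff F 2 4).2 (by norm_num)
  intro x
  rcases order_cases (by norm_num) (x : Perm (Fin 6)) (mem_alternatingGroup.1 x.2) with
    h | h | h | ⟨h, -⟩
  · have h3 : x ^ 3 = 1 := Subtype.ext h
    obtain ⟨y, hy⟩ := three_six h3
    refine hidem _ ?_
    rw [← hsq, show x ^ 2 = x⁻¹ from eq_inv_of_mul_eq_one_left (by rw [← pow_succ, h3]), ← hy, hconj]
  · left
    have h4 : x ^ 4 = 1 := Subtype.ext h
    have : (f x : M₄).trace ^ (2 * 2) = 0 := by
      rw [pow_mul, ← hsq, ← hsq, ← pow_mul, h4, hone]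
    exact eq_zero_of_pow_eq_zero this
  swap
  · omega
  have h5 : x ^ 5 = 1 := Subtype.ext h
  set t := (f a6 : M₄).trace with hdt
  have ha : a6 ^ 5 = 1 := by decide +kernel
  have h4t : (f (a6 ^ 4) : M₄).trace = t := by
    obtain ⟨y, hy⟩ := five_six ha
    rw [← hy, hconj]
  have h3t : (f (a6 ^ 3) : M₄).trace = t ^ 2 := by
    have ha2 : (a6 ^ 2) ^ 5 = 1 := by rw [← pow_mul, pow_mul' a6 2 5, ha, one_pow]
    obtain ⟨y, hy⟩ := five_six ha2
    have e : a6 ^ 3 = (a6 ^ 2) ^ 4 := by rw [← pow_mul, show 2 * 4 = 3 + 5 from rfl, pow_add, ha, mul_one]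
    rw [e, ← hy, hconj, hsq]
  have ht4 : (t ^ 2) ^ 2 = t := by
    rw [hdt, ← hsq, ← hsq, ← pow_mul]; exact h4t
  have hclass : ∀ x : alternatingGroup (Fin 6), x ^ 5 = 1 →
      x = 1 ∨ (f x : M₄).trace = t ∨ (f x : M₄).trace = t ^ 2 := by
    intro x hx
    obtain ⟨y, k, hk, rfl⟩ := five_conj hx
    rw [hconj]
    interval_cases k
    · left; simp
    · right; left; rw [pow_one]
    · right; right; rw [hsq]
    · right; right; exact h3t
    · right; left; exact h4t
  by_cases htt : t ^ 2 = t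
  · rcases hclass x h5 with rfl | e | e
    · exact Or.inl hone
    · rw [e]; exact hidem t htt
    · rw [e, htt]; exact hidem t htt
  -- the bad case
  exfalso
  have hbad : t ^ 2 + t + 1 = 0 := by
    have : (t ^ 2 - t) * (t ^ 2 + t + 1) = 0 := by linear_combination ht4
    exact (mul_eq_zero.1 this).resolve_left (sub_ne_zero.2 htt)
  have hfive : ∀ z : alternatingGroup (Fin 6), z ^ 5 = 1 → z ≠ 1 →
      (∃ v : Fin 4 → F, v ≠ 0 ∧ (f z : M₄) *ᵥ v = v) ∧
        Module.finrank F (LinearMap.range (toLin' ((f z : M₄) + 1))) ≤ 2 := by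
    intro z hz hz1
    refine five_bad (hrel z) (by rw [← map_pow, hz, map_one]) ?_
    rcases (hclass z hz).resolve_left hz1 with e | e <;> rw [e]
    · exact hbad
    · linear_combination (t ^ 2 - t + 1) * hbad
  obtain ⟨-, hA⟩ := hfive a6 ha (by decide +kernel)
  obtain ⟨-, hB⟩ := hfive b5 (by decide +kernel) (by decide +kernel)
  obtain ⟨⟨v, hv0, hv⟩, -⟩ := hfive (a6 * b5) (by decide +kernel) (by decide +kernel)
  set A := LinearMap.range (toLin' ((f a6 : M₄) + 1)) with hdA
  set B := LinearMap.range (toLin' ((f b5 : M₄) + 1)) with hdB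
  have hsub : ∀ (S : Submodule F (Fin 4 → F)),
      (∀ z ∈ ({a6, b5} : Set (alternatingGroup (Fin 6))), ∀ u ∈ S, (f z : M₄) *ᵥ u ∈ S) →
      ∀ z : alternatingGroup (Fin 6), ∀ u ∈ S, (f z : M₄) *ᵥ u ∈ S := by
    intro S hS z
    induction (closure_eq_top ▸ Subgroup.mem_top z : z ∈ Subgroup.closure _)
      using Subgroup.closure_induction with
    | mem z hz => exact hS z hz
    | one => intro u hu; simpa using hu
    | mul z w _ _ hz hw =>
      intro u hu
      rw [map_mul, Units.val_mul, ← Matrix.mulVec_mulVec]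
      exact hz _ (hw u hu)
    | inv z _ hz =>
      intro u hu
      have hmap : S.map (toLin' (f z : M₄)) = S := by
        refine Submodule.eq_of_le_of_finrank_eq (by rintro _ ⟨u, hu, rfl⟩; exact hz u hu) ?_
        refine (Submodule.equivMapOfInjective _ ?_ S).finrank_eq.symm
        exact (Matrix.mulVec_injective_iff_isUnit.2 (f z).isUnit)
      obtain ⟨w, hw, hwu⟩ := (hmap.ge hu)
      rw [← hwu, toLin'_apply, map_inv, Matrix.mulVec_mulVec, Units.inv_mul, Matrix.one_mulVec]
      exact hw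
  have hneg : ∀ u : Fin 4 → F, u + u = 0 := fun u => by ext i; exact CharTwo.add_self_eq_zero _
  have hadd : ∀ (z : alternatingGroup (Fin 6)) (S : Submodule F (Fin 4 → F)),
      LinearMap.range (toLin' ((f z : M₄) + 1)) ≤ S → ∀ u ∈ S, (f z : M₄) *ᵥ u ∈ S := by
    intro z S hS u hu
    have h1 : (f z : M₄) *ᵥ u + u ∈ S := hS ⟨u, by simp⟩
    simpa using S.sub_mem h1 hu
  have hA0 : A ≠ ⊥ := by
    intro e
    rw [hdA, LinearMap.range_eq_bot] at e
    have e' : (f a6 : M₄) + 1 = 0 := toLin'.injective (by rw [e, map_zero])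
    exact hne (Units.ext ((eq_neg_of_add_eq_zero_left e').trans
      (neg_eq_of_add_eq_zero_left (add_self _))))
  have htop : A ⊔ B = ⊤ := by
    refine (hirr _ (hsub _ ?_)).resolve_left (fun e => hA0 (eq_bot_iff.2 (e ▸ le_sup_left)))
    rintro z (rfl | rfl)
    · exact hadd _ _ le_sup_left
    · exact hadd _ _ le_sup_right
  have hinf : A ⊓ B = ⊥ := by
    have e := Submodule.finrank_sup_add_finrank_inf_eq A B
    rw [htop, finrank_top, Module.finrank_fin_fun] at e
    exact Submodule.finrank_eq_zero.1 (by omega)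
  set u := (f b5 : M₄) *ᵥ v with hu
  have hau : (f a6 : M₄) *ᵥ u = v := by
    rw [hu, Matrix.mulVec_mulVec, ← Units.val_mul, ← map_mul]; exact hv
  have huv : u + v ∈ A ⊓ B :=
    ⟨⟨u, by simp [hau, add_comm]⟩, ⟨v, by simp [← hu]⟩⟩
  rw [hinf, Submodule.mem_bot] at huv
  have huv' : u = v := (eq_neg_of_add_eq_zero_left huv).trans (neg_eq_of_add_eq_zero_left (hneg v))
  rw [huv'] at hau hu
  have hfix : ∀ z ∈ ({a6, b5} : Set (alternatingGroup (Fin 6))), ∀ w ∈ Submodule.span F {v},
      (f z : M₄) *ᵥ w ∈ Submodule.span F {v} := by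
    intro z hz w hw
    obtain ⟨c, rfl⟩ := Submodule.mem_span_singleton.1 hw
    rw [Matrix.mulVec_smul]
    refine Submodule.smul_mem _ c ?_
    rcases hz with rfl | rfl
    · rw [hau]; exact Submodule.mem_span_singleton_self v
    · rw [← hu]; exact Submodule.mem_span_singleton_self v
  have h1 := finrank_span_singleton (K := F) hv0
  rcases hirr _ (hsub _ hfix) with e | e
  · rw [e, finrank_bot] at h1; exact zero_ne_one h1
  · rw [e, finrank_top, Module.finrank_fin_fun] at h1; omega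

end Six

variable {F : Type*} [Field F] [CharP F 2] [Finite F]

/-- A residual core of `Sp₄(2^f)`, `f ≥ 2`, is not `PSL₂(9)`. -/
theorem not_psl2_nine {P : Subgroup (GL (Fin 4) F)} (G : Geom P) (hF : 4 ≤ Nat.card F) {K : Type}
    [Field K] [Fintype K] (hK : Fintype.card K = 9)
    (e : Matrix.ProjectiveSpecialLinearGroup (Fin 2) K ≃* P) : False := by
  obtain ⟨e₀⟩ := Cfsg.Agent.S0254.result hK
  let φ : alternatingGroup (Fin 6) ≃* P := e₀.symm.trans e
  let f : alternatingGroup (Fin 6) →* GL (Fin 4) F := P.subtype.comp φ.toMonoidHom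
  have hirr : ∀ W : Submodule F (Fin 4 → F),
      (∀ x, ∀ v ∈ W, (f x : Matrix (Fin 4) (Fin 4) F) *ᵥ v ∈ W) → W = ⊥ ∨ W = ⊤ := by
    intro W hW
    refine G.absIrred.1 W ?_
    rintro _ ⟨g, hg, rfl⟩ _ ⟨v, hv, rfl⟩
    have := hW (φ.symm ⟨g, hg⟩) v hv
    simpa [f] using this
  have htr := Six.traces f (fun x => G.le (φ x).2) hirr (fun e1 => by
    have : φ CfsgLib.SLThreeResidual.Alt.a6 = 1 := Subtype.ext e1
    rw [← map_one φ] at this
    exact absurd (φ.injective this) (by decide +kernel))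
  refine G.noReal ⊥ ?_ (CfsgLib.SmallDim.realisableOver_of_trace G.absIrred fun g hg => ?_)
  · intro htop
    have h2 : ∀ x : F, x = 0 ∨ x = 1 := by
      haveI : Fact (Nat.Prime 2) := ⟨Nat.prime_two⟩
      intro x
      have hx : x ∈ (⊥ : Subfield F) := htop ▸ Subfield.mem_top x
      rw [Subfield.mem_bot_iff_pow_eq_self F 2] at hx
      have : x * (x - 1) = 0 := by linear_combination hx
      exact (mul_eq_zero.1 this).imp id sub_eq_zero.1
    have hsur : Function.Surjective (fun b : Bool => if b then (1 : F) else 0) := fun x => by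
      rcases h2 x with rfl | rfl
      · exact ⟨false, by simp⟩
      · exact ⟨true, by simp⟩
    have := Nat.card_le_card_of_surjective _ hsur
    simp [Nat.card_eq_fintype_card] at this
    omega
  · have h := htr (φ.symm ⟨g, hg⟩)
    have e' : f (φ.symm ⟨g, hg⟩) = g := by simp [f]
    rw [e'] at h
    rcases h with h | h <;> rw [h]
    · exact zero_mem _
    · exact one_mem _

end CfsgLib.SpFourResidual
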