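import Cfsg.Agent.Lib.SpFourResidual.Setup
import Cfsg.Agent.Lib.SL2.Unipotent

/-!
# Residual subgroups of `Sp₄(2^f)`: `L₃(4)` and `L₂(p)` do not occur

For `L₃(4)` an elementary group of order nine gives four orthogonal idempotents of equal rank; for `L₂(p)` the
eigenvalues of an element of order `p` are closed under squares and inverses of exponents.
-/

set_option autoImplicit false
set_option linter.unusedSectionVars false
set_option linter.unusedSimpArgs false

open Matrix
open CfsgLib.Parabolic.SpFour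

namespace CfsgLib.SpFourResidual

namespace ExclusionSmall

/-! ### Idempotents of an elementary group of order nine -/

section Idem

variable {R : Type*} [CommRing R]

/-- The sum over the group generated by an element of order three. -/
def cyc {A : Type*} [Semiring A] (x : A) : A := 1 + x + x * x

theorem cyc_facts (h2 : (2 : R) = 0) {a b : R} (ha : a * a * a = 1) (hb : b * b * b = 1) :
    let z := cyc a * cyc b
    ((cyc a + z) * (cyc a + z) = cyc a + z ∧ (cyc b + z) * (cyc b + z) = cyc b + z ∧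
      (cyc (a * b) + z) * (cyc (a * b) + z) = cyc (a * b) + z) ∧
    ((cyc a + z) * (cyc b + z) = 0 ∧ (cyc a + z) * (cyc (a * b) + z) = 0 ∧
      (cyc b + z) * (cyc (a * b) + z) = 0 ∧ cyc b * (cyc a + z) = 0) ∧
    cyc a + cyc b + cyc (a * b) + cyc (a * (b * b)) = 1 + z ∧ z * a = z ∧
      cyc (a * (b * b)) * cyc (a * b) = z := by
  intro z
  have e : ∀ x : R, x * x * x = 1 → x * cyc x = cyc x := fun x hx => by
    simp only [cyc]; linear_combination hx
  have sq : ∀ x : R, x * x * x = 1 → cyc x * cyc x = cyc x := fun x hx => by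
    calc cyc x * cyc x = cyc x + x * cyc x + x * (x * cyc x) := by simp only [cyc]; ring
      _ = cyc x := by rw [e x hx, e x hx]; linear_combination cyc x * h2
  have hab : (a * b) * (a * b) * (a * b) = 1 := by linear_combination (b * b * b) * ha + hb
  have ea := e a ha
  have eb := e b hb
  have pab : cyc a * cyc (a * b) = z := by
    calc cyc a * cyc (a * b) = cyc a + (a * cyc a) * b + (a * (a * cyc a)) * (b * b) := by
          simp only [cyc]; ring
      _ = z := by rw [ea, ea]; simp only [z, cyc]; ring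
  have pba : cyc b * cyc (a * b) = z := by
    calc cyc b * cyc (a * b) = cyc b + (b * cyc b) * a + (b * (b * cyc b)) * (a * a) := by
          simp only [cyc]; ring
      _ = z := by rw [eb, eb]; simp only [z, cyc]; ring
  have za : cyc a * z = z := by simp only [z]; rw [← mul_assoc, sq a ha]
  have zb : cyc b * z = z := by simp only [z]; rw [mul_left_comm, sq b hb]
  have zab : cyc (a * b) * z = z := by
    simp only [z]
    rw [← mul_assoc, mul_comm _ (cyc a), pab, mul_comm z]
    exact zb
  have zz : z * z = z := by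
    conv_lhs => arg 1; simp only [z]
    rw [mul_assoc, zb, za]
  have idem : ∀ x : R, x * x * x = 1 → cyc x * z = z → (cyc x + z) * (cyc x + z) = cyc x + z :=
    fun x hx hxz => by linear_combination sq x hx + zz + 2 * hxz + z * h2
  have orth : ∀ x y : R, cyc x * cyc y = z → cyc x * z = z → cyc y * z = z →
      (cyc x + z) * (cyc y + z) = 0 :=
    fun x y hxy hx hy => by linear_combination hxy + hx + hy + zz + 2 * z * h2
  refine ⟨⟨idem a ha za, idem b hb zb, idem _ hab zab⟩, ⟨orth a b rfl za zb, orth a _ pab za zab,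
    orth b _ pba zb zab, ?_⟩, ?_, ?_, ?_⟩
  · linear_combination (mul_comm (cyc b) (cyc a) : cyc b * cyc a = z) + zb + z * h2
  · simp only [z, cyc]
    linear_combination (1 : R) * h2 + a * a * b * hb
  · simp only [z]; rw [mul_comm _ a, ← mul_assoc, ea]
  · calc cyc (a * (b * b)) * cyc (a * b) = (1 + a * (b * b) + a * a * b) * (1 + a * b + a * a * (b * b)) := by
          simp only [cyc]; linear_combination (a * a * b) * (1 + a * b + a * a * (b * b)) * hb
      _ = z := by
        simp only [z, cyc]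
        linear_combination (b + b * b + a * (b * b * b)) * ha + (a * a + a + a * a * a * b) * hb

end Idem

/-! ### Four dimensions are too few for `3^2 : Q_8` -/

theorem false_of_nine {F : Type*} [Field F] (h2 : (2 : F) = 0) {A B M N : GL (Fin 4) F}
    (hA : A * A * A = 1) (hB : B * B * B = 1) (hAB : A * B = B * A)
    (hMA : M * A = B * B * M) (hMB : M * B = A * M)
    (hNA : N * A = A * (B * B) * N) (hNB : N * B = A * A * (B * B) * N) (hA1 : A ≠ 1) : False := by
  classical
  let S : Subalgebra F (Matrix (Fin 4) (Fin 4) F) :=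
    Algebra.adjoin F {(A : Matrix (Fin 4) (Fin 4) F), (B : Matrix (Fin 4) (Fin 4) F)}
  letI : CommRing S := Algebra.adjoinCommRingOfComm F (by
    have := congrArg Units.val hAB
    simp only [Units.val_mul] at this
    rintro x (rfl | rfl) y (rfl | rfl) <;> first | rfl | exact this | exact this.symm)
  let a : S := ⟨A, Algebra.subset_adjoin (Set.mem_insert _ _)⟩
  let b : S := ⟨B, Algebra.subset_adjoin (Set.mem_insert_of_mem _ rfl)⟩
  have hS2 : (2 : S) = 0 := by
    have : (2 : S) = algebraMap F S 2 := (map_ofNat _ 2).symm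
    rw [this, h2, map_zero]
  have ha : a * a * a = 1 := Subtype.ext (congrArg Units.val hA)
  have hb : b * b * b = 1 := Subtype.ext (congrArg Units.val hB)
  obtain ⟨⟨ia, ib, iab⟩, ⟨oab, oac, obc, ob⟩, hsum, hza, hzab⟩ := cyc_facts hS2 ha hb
  set m : GL (Fin 4) F → Matrix (Fin 4) (Fin 4) F := fun g => (g : Matrix (Fin 4) (Fin 4) F)
  set Z : Matrix (Fin 4) (Fin 4) F := cyc (m A) * cyc (m B) with hZ
  -- transport of the sums
  have tr : ∀ g x y : GL (Fin 4) F, g * x = y * g → m g * cyc (m x) = cyc (m y) * m g := by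
    intro g x y h
    have h' : m g * m x = m y * m g := congrArg Units.val h
    simp only [cyc, mul_add, add_mul, mul_one, one_mul]
    rw [← mul_assoc (m g), h', mul_assoc, h', ← mul_assoc]
  have inv : ∀ x : GL (Fin 4) F, x * x * x = 1 → cyc (m (x * x)) = cyc (m x) := by
    intro x hx
    have h4 : m (x * x) * m (x * x) = m x := congrArg Units.val
      (show x * x * (x * x) = x by rw [← mul_assoc, hx, one_mul])
    simp only [cyc]
    rw [h4, add_right_comm]
    rfl
  have hAB2 : (A * B) * (A * B) = A * A * (B * B) := by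
    rw [mul_assoc, ← mul_assoc B, ← hAB, mul_assoc A B, ← mul_assoc A A]
  have hAB3 : A * B * (A * B) * (A * B) = 1 := by
    refine Units.ext ?_
    exact congrArg Subtype.val (show a * b * (a * b) * (a * b) = 1 by linear_combination (b * b * b) * ha + hb)
  have tM : m M * Z = Z * m M := by
    simp only [hZ]
    rw [← mul_assoc, tr M A (B * B) hMA, inv B hB, mul_assoc, tr M B A hMB, ← mul_assoc]
    congr 1
    exact congrArg Subtype.val (mul_comm (cyc b) (cyc a))
  have tN : m N * Z = Z * m N := by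
    simp only [hZ]
    rw [← mul_assoc, tr N A (A * (B * B)) hNA, mul_assoc, tr N B _ hNB, ← hAB2, inv _ hAB3, ← mul_assoc]
    congr 1
    exact congrArg Subtype.val hzab
  have tA : m M * (cyc (m A) + Z) = (cyc (m B) + Z) * m M := by
    rw [mul_add, add_mul, tM, tr M A (B * B) hMA, inv B hB]
  have tNA : m N * (cyc (m A) + Z) = (cyc (m (A * (B * B))) + Z) * m N := by
    rw [mul_add, add_mul, tN, tr N A _ hNA]
  have hMABB : M * (A * (B * B)) = A * B * (A * B) * M := by
    refine Units.ext ?_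
    have e : m M * (m A * (m B * m B)) = m B * m B * (m A * m A) * m M := by
      have h1 : m M * m A = m B * m B * m M := congrArg Units.val hMA
      have h3 : m M * m B = m A * m M := congrArg Units.val hMB
      rw [← mul_assoc (m M), h1, ← mul_assoc (_ * m M), mul_assoc _ (m M), h3, mul_assoc _ (_ * _),
        mul_assoc (m A), h3]
      simp only [mul_assoc]
    refine e.trans ?_
    show _ = m A * m B * (m A * m B) * m M
    congr 1
    exact congrArg Subtype.val (show b * b * (a * a) = a * b * (a * b) by ring)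
  have tMN : m (M * N) * (cyc (m A) + Z) = (cyc (m (A * B)) + Z) * m (M * N) := by
    show m M * m N * _ = _
    rw [mul_assoc, tNA, ← mul_assoc, mul_add, tM, tr M _ _ hMABB, inv _ hAB3, ← add_mul, mul_assoc]
    rfl
  have val : ∀ {x y : S}, x = y → (x : Matrix (Fin 4) (Fin 4) F) = y := fun h => congrArg Subtype.val h
  have ia' : (cyc (m A) + Z) * (cyc (m A) + Z) = cyc (m A) + Z := val ia
  have ib' : (cyc (m B) + Z) * (cyc (m B) + Z) = cyc (m B) + Z := val ib
  have iab' : (cyc (m (A * B)) + Z) * (cyc (m (A * B)) + Z) = cyc (m (A * B)) + Z := val iab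
  have o1 : (cyc (m A) + Z) * (cyc (m B) + Z) = 0 := val oab
  have o2 : (cyc (m A) + Z) * (cyc (m (A * B)) + Z) = 0 := val oac
  have o3 : (cyc (m B) + Z) * (cyc (m (A * B)) + Z) = 0 := val obc
  have o4 : cyc (m B) * (cyc (m A) + Z) = 0 := val ob
  -- the image of the first idempotent is at most a line
  set E := cyc (m A) + Z with hE
  let W := LinearMap.range (Matrix.mulVecLin E)
  have hfix : ∀ w ∈ W, E *ᵥ w = w := by
    rintro _ ⟨v, rfl⟩
    rw [Matrix.mulVecLin_apply, mulVec_mulVec, ia']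
  let Φ : (W × W × W) →ₗ[F] (Fin 4 → F) :=
    W.subtype.coprod (((Matrix.mulVecLin (m M)).comp W.subtype).coprod
      ((Matrix.mulVecLin (m (M * N))).comp W.subtype))
  have hΦ : Function.Injective Φ := by
    rw [injective_iff_map_eq_zero]
    rintro ⟨x, y, z⟩ h
    have h' : (x : Fin 4 → F) + (m M *ᵥ y + m (M * N) *ᵥ z) = 0 := h
    have oba : (cyc (m B) + Z) * E = 0 :=
      val ((mul_comm _ _).trans oab)
    have oca : (cyc (m (A * B)) + Z) * E = 0 :=
      val ((mul_comm _ _).trans oac)
    have ocb : (cyc (m (A * B)) + Z) * (cyc (m B) + Z) = 0 :=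
      val ((mul_comm _ _).trans obc)
    have hy : m M *ᵥ (y : Fin 4 → F) = (cyc (m B) + Z) *ᵥ (m M *ᵥ (y : Fin 4 → F)) := by
      rw [mulVec_mulVec, ← tA, ← mulVec_mulVec, hfix _ y.2]
    have hz : m (M * N) *ᵥ (z : Fin 4 → F) = (cyc (m (A * B)) + Z) *ᵥ (m (M * N) *ᵥ (z : Fin 4 → F)) := by
      rw [mulVec_mulVec, ← tMN, ← mulVec_mulVec, hfix _ z.2]
    have hx0 : (x : Fin 4 → F) = 0 := by
      have := congrArg (E *ᵥ ·) h'
      simp only [mulVec_add, mulVec_zero] at this
      rw [hfix _ x.2, hy, hz, mulVec_mulVec _ E (cyc (m B) + Z), o1, mulVec_mulVec _ E (cyc (m (A * B)) + Z), o2,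
        zero_mulVec, zero_mulVec, add_zero, add_zero] at this
      exact this
    rw [hx0, zero_add] at h'
    have hy0 : m M *ᵥ (y : Fin 4 → F) = 0 := by
      have := congrArg ((cyc (m B) + Z) *ᵥ ·) h'
      simp only [mulVec_add, mulVec_zero] at this
      rw [← hy, hz, mulVec_mulVec, o3, zero_mulVec, add_zero] at this
      exact this
    rw [hy0, zero_add] at h'
    have cancel : ∀ (g : GL (Fin 4) F) (v : Fin 4 → F), m g *ᵥ v = 0 → v = 0 := fun g v hv => by
      have := congrArg (m g⁻¹ *ᵥ ·) hv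
      simp only [mulVec_mulVec, mulVec_zero] at this
      rwa [show m g⁻¹ * m g = 1 from g.inv_mul, one_mulVec] at this
    refine Prod.ext (Subtype.ext hx0) (Prod.ext (Subtype.ext ?_) (Subtype.ext ?_))
    · exact cancel M _ hy0
    · exact cancel _ _ h'
  have hW : Module.finrank F W ≤ 1 := by
    have := LinearMap.finrank_le_finrank_of_injective hΦ
    simp only [Module.finrank_prod, Module.finrank_fin_fun] at this
    omega
  -- it is fixed by `B` and by `M * M`, so it vanishes
  have hE0 : E = 0 := by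
    refine Matrix.ext_of_mulVec_single fun i => ?_
    rw [zero_mulVec]
    set w := E *ᵥ Pi.single i (1 : F)
    by_contra hw
    have hwW : w ∈ W := ⟨_, rfl⟩
    have scal : ∀ g : GL (Fin 4) F, m g * E = E * m g → ∃ c : F, c ≠ 0 ∧ m g *ᵥ w = c • w := by
      intro g hg
      have hgw : m g *ᵥ w ∈ W := ⟨m g *ᵥ Pi.single i 1, by
        simp only [w, Matrix.mulVecLin_apply, mulVec_mulVec, hg]⟩
      obtain ⟨u, hu⟩ := finrank_le_one_iff.1 hW
      obtain ⟨c₁, hc₁⟩ := hu ⟨w, hwW⟩
      obtain ⟨c₂, hc₂⟩ := hu ⟨_, hgw⟩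
      have hc₁0 : c₁ ≠ 0 := fun h => hw (by
        rw [h, zero_smul] at hc₁
        exact (congrArg Subtype.val hc₁).symm)
      have e : m g *ᵥ w = (c₂ / c₁) • w := by
        have a1 : c₁ • (u : Fin 4 → F) = w := congrArg Subtype.val hc₁
        have a2 : c₂ • (u : Fin 4 → F) = m g *ᵥ w := congrArg Subtype.val hc₂
        rw [← a2, ← a1, smul_smul, div_mul_cancel₀ _ hc₁0]
      refine ⟨_, fun h => hw ?_, e⟩
      rw [h, zero_smul] at e
      have := congrArg (m g⁻¹ *ᵥ ·) e
      simp only [mulVec_mulVec, mulVec_zero] at this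
      rwa [show m g⁻¹ * m g = 1 from g.inv_mul, one_mulVec] at this
    obtain ⟨β, hβ0, hβ⟩ := scal B (val (mul_comm b (cyc a + cyc a * cyc b)))
    obtain ⟨γ, hγ0, hγ⟩ := scal (M * M) (by
      show m M * m M * E = E * (m M * m M)
      have tB : m M * (cyc (m B) + Z) = E * m M := by rw [mul_add, tr M B A hMB, tM, hE, add_mul]
      rw [mul_assoc, tA, ← mul_assoc, tB, mul_assoc])
    have hMMB : m (M * M) * m B = m B * m B * m (M * M) := congrArg Units.val
      (show M * M * B = B * B * (M * M) by rw [mul_assoc, hMB, ← mul_assoc, hMA, mul_assoc])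
    have e := congrArg (· *ᵥ w) hMMB
    simp only [← mulVec_mulVec, hβ, hγ, mulVec_smul, smul_smul] at e
    have hβ1 : β = 1 := by
      have := smul_left_injective F hw e
      have : β * (γ * (β - 1)) = 0 := by linear_combination -this
      rcases mul_eq_zero.1 this with h | h
      · exact absurd h hβ0
      · exact sub_eq_zero.1 ((mul_eq_zero.1 h).resolve_left hγ0)
    rw [hβ1, one_smul] at hβ
    have h0 : cyc (m B) *ᵥ w = 0 := by simp only [w, mulVec_mulVec, o4, zero_mulVec]
    simp only [cyc, add_mulVec, one_mulVec, ← mulVec_mulVec, hβ] at h0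
    have : ((3 : F)) • w = 0 := by
      rw [show (3 : F) = 1 + 1 + 1 by norm_num, add_smul, add_smul, one_smul]; exact h0
    rcases smul_eq_zero.1 this with h | h
    · exact one_ne_zero (α := F) (by linear_combination h - h2)
    · exact hw h
  have cyc_eq : ∀ x : Matrix (Fin 4) (Fin 4) F, x + Z = 0 → x = Z := fun x hx => by
    have hZ2 : Z + Z = 0 := by rw [← two_smul F Z, h2, zero_smul]
    rw [← add_left_inj Z, hx, hZ2]
  have hunit : ∀ (g : GL (Fin 4) F) (X : Matrix (Fin 4) (Fin 4) F), m g * E = X * m g → X = 0 := fun g X h => by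
    rw [hE0, mul_zero] at h
    exact (Units.mul_left_eq_zero g).1 h.symm
  have e1 := cyc_eq _ hE0
  have e2 := cyc_eq _ (hunit M _ tA)
  have e3 := cyc_eq _ (hunit _ _ tMN)
  have e4 := cyc_eq _ (hunit _ _ tNA)
  have hs : cyc (m A) + cyc (m B) + cyc (m (A * B)) + cyc (m (A * (B * B))) = 1 + Z := val hsum
  rw [e1, e2, e3, e4] at hs
  have hZ1 : Z = 1 := by
    have h4 : Z + Z + Z + Z = 0 := by
      have hZ2 : Z + Z = 0 := by rw [← two_smul F Z, h2, zero_smul]
      rw [hZ2, zero_add, hZ2]
    rw [h4] at hs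
    have h1 : (1 : Matrix (Fin 4) (Fin 4) F) + 1 = 0 := by rw [← two_smul F (1 : Matrix (Fin 4) (Fin 4) F), h2, zero_smul]
    rw [← add_right_inj (1 : Matrix (Fin 4) (Fin 4) F), h1]
    exact hs.symm
  refine hA1 (Units.ext ?_)
  have := val hza
  change Z * m A = Z at this
  rwa [hZ1, one_mul] at this

/-! ### Eigenvalues of an element of prime order -/

theorem charpoly_inv {F : Type*} [Field F] [CharP F 2] {g : GL (Fin 4) F} (hg : g ∈ relGroup F) :
    (((g⁻¹ : GL (Fin 4) F)) : Matrix (Fin 4) (Fin 4) F).charpoly =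
      (g : Matrix (Fin 4) (Fin 4) F).charpoly := by
  obtain ⟨u, hu⟩ : IsUnit (anti : Matrix (Fin 4) (Fin 4) F) := by
    exact ⟨⟨anti, anti, anti_mul_self, anti_mul_self⟩, rfl⟩
  have h1 : ((g⁻¹ : GL (Fin 4) F) : Matrix (Fin 4) (Fin 4) F)
      = anti * (g : Matrix (Fin 4) (Fin 4) F)ᵀ * anti := by
    refine Units.inv_eq_of_mul_eq_one_left ?_
    rw [Matrix.mul_assoc, Matrix.mul_assoc, ← Matrix.mul_assoc _ anti, (mem_relGroup.1 hg).1, anti_mul_self]
  have h3 : ((u⁻¹ : (Matrix (Fin 4) (Fin 4) F)ˣ) : Matrix (Fin 4) (Fin 4) F) = anti := by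
    refine Units.inv_eq_of_mul_eq_one_left ?_
    rw [hu, anti_mul_self]
  have h5 : ((g⁻¹ : GL (Fin 4) F) : Matrix (Fin 4) (Fin 4) F) =
      (u : Matrix (Fin 4) (Fin 4) F) * (g : Matrix (Fin 4) (Fin 4) F)ᵀ *
        ((u⁻¹ : (Matrix (Fin 4) (Fin 4) F)ˣ) : Matrix (Fin 4) (Fin 4) F) := by rw [h3, hu, h1]
  rw [h5, Matrix.coe_units_inv, Matrix.charpoly_units_conj, Matrix.charpoly_transpose]

theorem pow_root {L : Type*} [Field L] {A : Matrix (Fin 4) (Fin 4) L} {lam : L}
    (h : A.charpoly.IsRoot lam) (n : ℕ) : (A ^ n).charpoly.IsRoot (lam ^ n) := by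
  rw [Polynomial.IsRoot, Matrix.eval_charpoly] at h ⊢
  obtain ⟨v, hv0, hv⟩ := Matrix.exists_mulVec_eq_zero_iff.2 h
  have hev : ∀ (c : L) (C : Matrix (Fin 4) (Fin 4) L), (Matrix.scalar (Fin 4) c - C) *ᵥ v = c • v - C *ᵥ v := by
    intro c C
    rw [Matrix.sub_mulVec, Matrix.scalar_apply, ← Matrix.smul_one_eq_diagonal, Matrix.smul_mulVec, Matrix.one_mulVec]
  rw [hev, sub_eq_zero] at hv
  refine Matrix.exists_mulVec_eq_zero_iff.1 ⟨v, hv0, ?_⟩
  rw [hev, sub_eq_zero]
  induction n with
  | zero => simp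
  | succ n ih => rw [pow_succ' A, ← Matrix.mulVec_mulVec, ← ih, Matrix.mulVec_smul, ← hv, smul_smul, ← pow_succ]

theorem five_residues (p : ℕ) [hp : Fact p.Prime] (h7 : 7 ≤ p) :
    ∃ s : Finset (ZMod p), 5 ≤ s.card ∧ ∀ x ∈ s, ∃ k : ZMod p, k ≠ 0 ∧ (x = k * k ∨ x = -(k * k)) := by
  classical
  rcases Nat.lt_or_ge p 11 with h | h
  · have h7' : p = 7 := by
      have := hp.out
      interval_cases p <;> first | rfl | (exfalso; revert this; norm_num)
    subst h7'
    exact ⟨{1, 2, 4, 5, 6}, by decide +revert, by decide +revert⟩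
  · refine ⟨(Finset.Icc 1 5).image fun n : ℕ => ((n : ZMod p) * n), ?_, ?_⟩
    · rw [Finset.card_image_of_injOn]
      · simp
      intro i hi j hj e
      simp only [Finset.coe_Icc, Set.mem_Icc] at hi hj
      rcases mul_self_eq_mul_self_iff.1 e with h' | h'
      · have := congrArg ZMod.val h'
        rwa [ZMod.val_natCast_of_lt (by omega), ZMod.val_natCast_of_lt (by omega)] at this
      · exfalso
        rw [eq_neg_iff_add_eq_zero, ← Nat.cast_add, ZMod.natCast_eq_zero_iff] at h'
        have := Nat.le_of_dvd (by omega) h'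
        omega
    · intro x hx
      obtain ⟨n, hn, rfl⟩ := Finset.mem_image.1 hx
      simp only [Finset.mem_Icc] at hn
      refine ⟨n, fun h0 => ?_, Or.inl rfl⟩
      rw [ZMod.natCast_eq_zero_iff] at h0
      have := Nat.le_of_dvd (by omega) h0
      omega

theorem false_of_prime_aux {F L : Type*} [Field F] [CharP F 2] [Field L] [IsAlgClosed L] [CharP L 2]
    (φ : F →+* L) (p : ℕ) [hp : Fact p.Prime] (h7 : 7 ≤ p)
    {g : GL (Fin 4) F} (hg : g ∈ relGroup F) (hg1 : g ≠ 1) (hgp : g ^ p = 1)
    (hconj : ∀ k : ZMod p, k ≠ 0 → ∃ c : GL (Fin 4) F, c * g * c⁻¹ = g ^ (k * k).val) : False := by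
  classical
  set A : Matrix (Fin 4) (Fin 4) L := (g : Matrix (Fin 4) (Fin 4) F).map φ with hA
  have hApow : ∀ n : ℕ, A ^ n = ((g ^ n : GL (Fin 4) F) : Matrix (Fin 4) (Fin 4) F).map φ := fun n => by
    rw [Units.val_pow_eq_pow_val]
    exact (map_pow φ.mapMatrix _ n).symm
  have hAp : A ^ p = 1 := by rw [hApow, hgp, Units.val_one, Matrix.map_one _ (map_zero φ) (map_one φ)]
  have hA1 : A ≠ 1 := fun h => hg1 (Units.ext (Matrix.map_injective φ.injective
    (h.trans (Matrix.map_one _ (map_zero φ) (map_one φ)).symm)))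
  have hdeg : A.charpoly.natDegree = 4 := by rw [Matrix.charpoly_natDegree_eq_dim]; rfl
  -- some eigenvalue differs from one
  obtain ⟨lam, hroot, hlam1⟩ : ∃ lam : L, A.charpoly.IsRoot lam ∧ lam ≠ 1 := by
    by_contra! hc
    apply hA1
    have hall : A.charpoly = (Polynomial.X - Polynomial.C 1) ^ 4 := by
      have hs : A.charpoly.Splits := IsAlgClosed.splits _
      have hcard : Multiset.card A.charpoly.roots = 4 := by rw [← hs.natDegree_eq_card_roots, hdeg]
      have hrep : A.charpoly.roots = Multiset.replicate 4 1 := by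
        exact Multiset.eq_replicate.2 ⟨hcard, fun x hx => hc x (Polynomial.isRoot_of_mem_roots hx)⟩
      rw [hs.eq_prod_roots_of_monic (Matrix.charpoly_monic A), hrep]
      simp only [Multiset.map_replicate, Multiset.prod_replicate]
    have h4 : (A - 1) ^ 4 = 0 := by
      have := Matrix.aeval_self_charpoly A
      simpa [hall] using this
    have h2 : (A - 1) ^ 4 = A ^ 4 - 1 := by
      have := sub_pow_char_pow_of_commute (p := 2) (n := 2) (Commute.one_right A)
      simpa using this
    rw [h2, sub_eq_zero] at h4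
    have hcop : Nat.Coprime 4 p := by
      rw [show (4 : ℕ) = 2 ^ 2 from rfl]
      exact ((Nat.coprime_primes Nat.prime_two hp.out).2 (by omega)).pow_left 2
    exact pow_gcd_eq_one.2 ⟨h4, hAp⟩ |> fun h => by rwa [hcop.gcd_eq_one, pow_one] at h
  have hlp : lam ^ p = 1 := by
    have := pow_root hroot p
    rw [hAp, Matrix.charpoly_one] at this
    simp [Polynomial.IsRoot] at this
    exact sub_eq_zero.1 this
  have hord : orderOf lam = p := orderOf_eq_prime hlp hlam1
  -- the exponents
  have hsame : ∀ k : ZMod p, k ≠ 0 → ((g ^ (k * k).val : GL (Fin 4) F) : Matrix (Fin 4) (Fin 4) F).charpoly =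
      (g : Matrix (Fin 4) (Fin 4) F).charpoly := fun k hk => by
    obtain ⟨c, hc⟩ := hconj k hk
    rw [← hc, Units.val_mul, Units.val_mul]
    rw [Matrix.coe_units_inv]
    exact Matrix.charpoly_units_conj c _
  obtain ⟨s, hs, hsk⟩ := five_residues p h7
  have hroots : ∀ x ∈ s, lam ^ x.val ∈ A.charpoly.roots.toFinset := by
    intro x hx
    rw [Multiset.mem_toFinset, Polynomial.mem_roots (Matrix.charpoly_monic A).ne_zero]
    have hc : ((g ^ x.val : GL (Fin 4) F) : Matrix (Fin 4) (Fin 4) F).charpoly =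
        (g : Matrix (Fin 4) (Fin 4) F).charpoly := by
      obtain ⟨k, hk, rfl | rfl⟩ := hsk x hx
      · exact hsame k hk
      · have e : g ^ (-(k * k)).val = (g ^ (k * k).val)⁻¹ := by
          refine eq_inv_of_mul_eq_one_left ?_
          rw [← pow_add, ← pow_mod_orderOf, orderOf_eq_prime hgp hg1]
          have : (((-(k * k)).val + (k * k).val : ℕ) : ZMod p) = 0 := by simp
          rw [ZMod.natCast_eq_zero_iff] at this
          rw [Nat.mod_eq_zero_of_dvd this, pow_zero]
        rw [e, charpoly_inv (pow_mem hg _)]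
        exact hsame k hk
    have := pow_root hroot x.val
    rw [hApow, Matrix.charpoly_map, hc, ← Matrix.charpoly_map] at this
    exact this
  have hinj : Set.InjOn (fun x : ZMod p => lam ^ x.val) s := by
    intro x _ y _ e
    refine ZMod.val_injective p (pow_injOn_Iio_orderOf ?_ ?_ e) <;>
    · rw [Set.mem_Iio, hord]; exact ZMod.val_lt _
  have h5 := Finset.card_le_card_of_injOn (fun x : ZMod p => lam ^ x.val) hroots hinj
  have h4 : A.charpoly.roots.toFinset.card ≤ 4 :=
    (Multiset.toFinset_card_le _).trans ((Polynomial.card_roots' _).trans hdeg.le)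
  omega

theorem false_of_prime {F : Type*} [Field F] [CharP F 2] (p : ℕ) [Fact p.Prime] (h7 : 7 ≤ p)
    {g : GL (Fin 4) F} (hg : g ∈ relGroup F) (hg1 : g ≠ 1) (hgp : g ^ p = 1)
    (hconj : ∀ k : ZMod p, k ≠ 0 → ∃ c : GL (Fin 4) F, c * g * c⁻¹ = g ^ (k * k).val) : False :=
  haveI : CharP (AlgebraicClosure F) 2 := charP_of_injective_algebraMap' F 2
  false_of_prime_aux (algebraMap F (AlgebraicClosure F)) p h7 hg hg1 hgp hconj

/-! ### The two linear groups -/

theorem psl_mk_eq {n : ℕ} {K : Type*} [Field K] {x y : SpecialLinearGroup (Fin n) K} (c : K)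
    (h : (y : Matrix (Fin n) (Fin n) K) = c • (x : Matrix (Fin n) (Fin n) K)) :
    (QuotientGroup.mk x : ProjectiveSpecialLinearGroup (Fin n) K) = QuotientGroup.mk y := by
  refine QuotientGroup.eq.2 (Subgroup.mem_center_iff.2 fun z => Subtype.ext ?_)
  have h1 : ((x⁻¹ * y : SpecialLinearGroup (Fin n) K) : Matrix (Fin n) (Fin n) K) = c • 1 := by
    rw [Matrix.SpecialLinearGroup.coe_mul, h, Matrix.mul_smul, ← Matrix.SpecialLinearGroup.coe_mul,
      inv_mul_cancel, Matrix.SpecialLinearGroup.coe_one]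
  show (z : Matrix (Fin n) (Fin n) K) * ((x⁻¹ * y : SpecialLinearGroup (Fin n) K) : Matrix (Fin n) (Fin n) K) =
    ((x⁻¹ * y : SpecialLinearGroup (Fin n) K) : Matrix (Fin n) (Fin n) K) * (z : Matrix (Fin n) (Fin n) K)
  rw [h1, Matrix.mul_smul, Matrix.smul_mul, Matrix.mul_one, Matrix.one_mul]

end ExclusionSmall

open ExclusionSmall

variable {F : Type*} [Field F] [CharP F 2] [Finite F]

set_option maxHeartbeats 2000000 in
theorem not_psl3_four {P : Subgroup (GL (Fin 4) F)} (G : Geom P) {K : Type} [Field K] [Fintype K]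
    (hK : Fintype.card K = 4) (e : Matrix.ProjectiveSpecialLinearGroup (Fin 3) K ≃* P) : False := by
  classical
  haveI : CharP K 2 := by
    obtain ⟨q, hq⟩ := CharP.exists K
    obtain ⟨n, hqp, hn⟩ := FiniteField.card K q
    have : q ∣ 2 ^ 2 := by
      rw [show (2 : ℕ) ^ 2 = 4 from rfl, ← hK, hn]
      exact dvd_pow_self _ n.pos.ne'
    exact ((Nat.prime_dvd_prime_iff_eq hqp Nat.prime_two).1 (hqp.dvd_of_dvd_pow this)) ▸ hq
  have k2 : (2 : K) = 0 := CharTwo.two_eq_zero
  obtain ⟨w, hw⟩ : ∃ w : K, w * w + w + 1 = 0 := by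
    have : (({0, 1} : Finset K)).card < Fintype.card K := by
      rw [hK, Finset.card_pair zero_ne_one]; norm_num
    obtain ⟨w, -, hw⟩ := Finset.exists_mem_notMem_of_card_lt_card (s := ({0, 1} : Finset K)) (t := Finset.univ) this
    simp only [Finset.mem_insert, Finset.mem_singleton, not_or] at hw
    refine ⟨w, ?_⟩
    have h3 : w ^ (Fintype.card K - 1) = 1 := FiniteField.pow_card_sub_one_eq_one w hw.1
    rw [hK] at h3
    have : (w - 1) * (w * w + w + 1) = 0 := by linear_combination h3
    exact (mul_eq_zero.1 this).resolve_left (sub_ne_zero.2 hw.2)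
  let a : SpecialLinearGroup (Fin 3) K := ⟨!![1, 0, 0; 0, w, 0; 0, 0, w * w], by
    simp [Matrix.det_fin_three]; linear_combination (w - 1) * hw⟩
  let b : SpecialLinearGroup (Fin 3) K := ⟨!![0, 0, 1; 1, 0, 0; 0, 1, 0], by simp [Matrix.det_fin_three]⟩
  let M : SpecialLinearGroup (Fin 3) K := ⟨!![1, 1, 1; 1, w, w * w; 1, w * w, w], by
    simp [Matrix.det_fin_three]
    linear_combination (-1 - w * (w - 1)) * hw + (2 * w * w - w) * k2⟩
  let N : SpecialLinearGroup (Fin 3) K := ⟨!![1, w * w, w * w; w, w, w * w; w, w * w, w], by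
    simp [Matrix.det_fin_three]
    linear_combination (-1 - 3 * w * (w - 1) + 2 * w * w * (w - 1)) * hw + (2 * w * w - w) * k2⟩
  let ρ : ProjectiveSpecialLinearGroup (Fin 3) K →* GL (Fin 4) F := P.subtype.comp e.toMonoidHom
  have hρ : Function.Injective ρ := Subtype.val_injective.comp e.injective
  let q : SpecialLinearGroup (Fin 3) K →* GL (Fin 4) F := ρ.comp (QuotientGroup.mk' _)
  have hq : ∀ (x y : SpecialLinearGroup (Fin 3) K) (c : K),
      (y : Matrix (Fin 3) (Fin 3) K) = c • (x : Matrix (Fin 3) (Fin 3) K) → q x = q y :=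
    fun x y c h => congrArg ρ (psl_mk_eq c h)
  have ca : (a : Matrix (Fin 3) (Fin 3) K) = !![1, 0, 0; 0, w, 0; 0, 0, w * w] := rfl
  have cb : (b : Matrix (Fin 3) (Fin 3) K) = !![0, 0, 1; 1, 0, 0; 0, 1, 0] := rfl
  have cM : (M : Matrix (Fin 3) (Fin 3) K) = !![1, 1, 1; 1, w, w * w; 1, w * w, w] := rfl
  have cN : (N : Matrix (Fin 3) (Fin 3) K) = !![1, w * w, w * w; w, w, w * w; w, w * w, w] := rfl
  refine false_of_nine (F := F) CharTwo.two_eq_zero (A := q a) (B := q b) (M := q M) (N := q N)
    ?_ ?_ ?_ ?_ ?_ ?_ ?_ ?_ <;> (try simp only [← map_mul])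
  · rw [← map_one q]
    refine hq _ _ 1 ?_
    simp only [Matrix.SpecialLinearGroup.coe_mul, Matrix.SpecialLinearGroup.coe_one, ca, cb, cM, cN,
      Matrix.mul_fin_three]
    ext i j; fin_cases i <;> fin_cases j <;> simp <;> grind
  · rw [← map_one q]
    refine hq _ _ 1 ?_
    simp only [Matrix.SpecialLinearGroup.coe_mul, Matrix.SpecialLinearGroup.coe_one, ca, cb, cM, cN,
      Matrix.mul_fin_three]
    ext i j; fin_cases i <;> fin_cases j <;> simp <;> grind
  · refine (hq _ _ w ?_).symm
    simp only [Matrix.SpecialLinearGroup.coe_mul, Matrix.SpecialLinearGroup.coe_one, ca, cb, cM, cN,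
      Matrix.mul_fin_three]
    ext i j; fin_cases i <;> fin_cases j <;> simp <;> grind
  · refine hq _ _ 1 ?_
    simp only [Matrix.SpecialLinearGroup.coe_mul, Matrix.SpecialLinearGroup.coe_one, ca, cb, cM, cN,
      Matrix.mul_fin_three]
    ext i j; fin_cases i <;> fin_cases j <;> simp <;> grind
  · refine hq _ _ 1 ?_
    simp only [Matrix.SpecialLinearGroup.coe_mul, Matrix.SpecialLinearGroup.coe_one, ca, cb, cM, cN,
      Matrix.mul_fin_three]
    ext i j; fin_cases i <;> fin_cases j <;> simp <;> grind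
  · refine hq _ _ w ?_
    simp only [Matrix.SpecialLinearGroup.coe_mul, Matrix.SpecialLinearGroup.coe_one, ca, cb, cM, cN,
      Matrix.mul_fin_three]
    ext i j; fin_cases i <;> fin_cases j <;> simp <;> grind
  · refine hq _ _ (w * w) ?_
    simp only [Matrix.SpecialLinearGroup.coe_mul, Matrix.SpecialLinearGroup.coe_one, ca, cb, cM, cN,
      Matrix.mul_fin_three]
    ext i j; fin_cases i <;> fin_cases j <;> simp <;> grind
  · intro h
    have h1 : (QuotientGroup.mk a : ProjectiveSpecialLinearGroup (Fin 3) K) = 1 :=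
      hρ (h.trans (map_one ρ).symm)
    have h2 := congrArg (fun g : SpecialLinearGroup (Fin 3) K => (g : Matrix (Fin 3) (Fin 3) K) 1 0)
      (Subgroup.mem_center_iff.1 ((QuotientGroup.eq_one_iff a).1 h1) b)
    simp only [Matrix.SpecialLinearGroup.coe_mul, ca, cb, Matrix.mul_fin_three] at h2
    simp at h2
    grind

theorem not_psl2_prime {P : Subgroup (GL (Fin 4) F)} (G : Geom P) {K : Type} [Field K] [Fintype K]
    (hp : (Fintype.card K).Prime) (h7 : 7 ≤ Fintype.card K)
    (e : Matrix.ProjectiveSpecialLinearGroup (Fin 2) K ≃* P) : False := by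
  classical
  set p := Fintype.card K with hpdef
  haveI : Fact p.Prime := ⟨hp⟩
  haveI : CharP K p := by
    obtain ⟨r, hr⟩ := CharP.exists K
    obtain ⟨n, hrp, hn⟩ := FiniteField.card K r
    have : r = p := (Nat.prime_dvd_prime_iff_eq hrp hp).1 (by
      rw [hpdef, hn]; exact dvd_pow_self _ n.pos.ne')
    exact this ▸ hr
  let ρ : ProjectiveSpecialLinearGroup (Fin 2) K →* GL (Fin 4) F := P.subtype.comp e.toMonoidHom
  have hρ : Function.Injective ρ := Subtype.val_injective.comp e.injective
  let q : SpecialLinearGroup (Fin 2) K →* GL (Fin 4) F := ρ.comp (QuotientGroup.mk' _)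
  let up : K → SpecialLinearGroup (Fin 2) K := CfsgLib.ClassicalLinear.upS
  have hup : ∀ n : ℕ, up 1 ^ n = up n := by
    intro n
    induction n with
    | zero => rw [pow_zero, Nat.cast_zero]; exact CfsgLib.SL2.upS_zero.symm
    | succ n ih => rw [pow_succ, ih, Nat.cast_succ]; exact (CfsgLib.ClassicalLinear.upS_add _ _).symm
  refine false_of_prime (F := F) p h7 (g := q (up 1)) (G.le (SetLike.coe_mem _)) ?_ ?_ ?_
  · intro h
    have h1 : (QuotientGroup.mk (up 1) : ProjectiveSpecialLinearGroup (Fin 2) K) = 1 :=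
      hρ (h.trans (map_one ρ).symm)
    exact one_ne_zero ((CfsgLib.SL2.upS_mem_center_iff 1).1 ((QuotientGroup.eq_one_iff _).1 h1))
  · rw [← map_pow, hup, CharP.cast_eq_zero]
    exact (congrArg q CfsgLib.SL2.upS_zero).trans (map_one q)
  · intro k hk
    let c : ZMod p →+* K := ZMod.castHom (dvd_refl p) K
    have hck : c k ≠ 0 := fun h => hk (c.injective (h.trans (map_zero c).symm))
    refine ⟨q (CfsgLib.SL2.diag (Units.mk0 (c k) hck)), ?_⟩
    rw [← map_inv, ← map_mul, ← map_mul, ← map_pow, hup]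
    refine congrArg q ?_
    show CfsgLib.SL2.diag (Units.mk0 (c k) hck) * CfsgLib.ClassicalLinear.upS 1 * _ =
      CfsgLib.ClassicalLinear.upS _
    rw [CfsgLib.SL2.conj_diag_upS, mul_one, Units.val_mk0, sq, ← map_mul]
    congr 1
    conv_lhs => rw [← ZMod.natCast_zmod_val (k * k)]
    exact map_natCast c _

end CfsgLib.SpFourResidual
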