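import Cfsg.Agent.Lib.SpFourResidual.StarInv
import Cfsg.Agent.Lib.SmallDim.Descent

/-!
# The image of a residual core under `g ↦ g*`

A subspace invariant under the image gives, through Plücker coordinates, either a subspace invariant
under a Frobenius twist of the core or an invariant quadratic form.
-/

set_option autoImplicit false
set_option linter.unusedSectionVars false
set_option linter.style.haveILetI false

open Matrix
open Cfsg.Lie (star4 pairOf altForm4)
open CfsgLib.Parabolic.SpFour

namespace CfsgLib.SpFourResidual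

variable {F : Type*} [Field F] [CharP F 2]

theorem rel_map {L : Type*} [Field L] [CharP L 2] (φ : F →+* L) {g : Matrix (Fin 4) (Fin 4) F}
    (h : Rel g) : Rel (g.map φ) := by
  have ha : (anti : Matrix (Fin 4) (Fin 4) F).map φ = anti := by
    ext i j
    simp [anti_apply, apply_ite φ]
  constructor
  · rw [← Matrix.transpose_map, ← ha, ← Matrix.map_mul, ← Matrix.map_mul, h.1]
  · rw [← Matrix.transpose_map, ← ha, ← Matrix.map_mul, ← Matrix.map_mul, h.2]

theorem altForm4_mulVec {L : Type*} [Field L] [CharP L 2] {g : Matrix (Fin 4) (Fin 4) L} (hg : Rel g)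
    (u v : Fin 4 → L) : altForm4 (g *ᵥ u) (g *ᵥ v) = altForm4 u v := by
  rw [altForm4_eq, altForm4_eq, Matrix.mulVec_mulVec, Matrix.dotProduct_mulVec, Matrix.vecMul_mulVec,
    ← Matrix.mul_assoc, hg.1, ← Matrix.dotProduct_mulVec]

theorem orth_nondeg {L : Type*} [Field L] [CharP L 2] {w : Fin 4 → L}
    (hw : ∀ y, altForm4 w y = 0) : w = 0 := by
  by_contra hne
  obtain ⟨-, y, hy⟩ := (isSymplecticForm (F := L)).nondegenerate w hne
  exact hy (hw y)

/-- A spanning set leaves no proper subspace invariant over any extension. -/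
theorem invariant_trivial {L : Type*} [Field L] (ψ : F →+* L) {S : Set (Matrix (Fin 4) (Fin 4) F)}
    (hS : Submodule.span F S = ⊤) (W : Submodule L (Fin 4 → L))
    (hW : ∀ s ∈ S, ∀ w ∈ W, s.map ψ *ᵥ w ∈ W) : W = ⊥ ∨ W = ⊤ := by
  have hall : ∀ M : Matrix (Fin 4) (Fin 4) F, ∀ w ∈ W, M.map ψ *ᵥ w ∈ W := by
    intro M
    induction (hS ▸ Submodule.mem_top : M ∈ Submodule.span F S) using Submodule.span_induction with
    | mem x hx => exact hW x hx
    | zero => intro w _; rw [Matrix.map_zero _ (map_zero ψ), Matrix.zero_mulVec]; exact W.zero_mem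
    | add a b _ _ ha hb =>
      intro w hw
      rw [Matrix.map_add _ (map_add ψ), Matrix.add_mulVec]
      exact W.add_mem (ha w hw) (hb w hw)
    | smul c a _ ha =>
      intro w hw
      rw [Matrix.map_smul' ψ c a (map_mul ψ), Matrix.smul_mulVec]
      exact W.smul_mem _ (ha w hw)
  by_cases hb : W = ⊥
  · exact Or.inl hb
  obtain ⟨w, hw, hw0⟩ := Submodule.exists_mem_ne_zero_of_ne_bot hb
  obtain ⟨i, hi⟩ := Function.ne_iff.1 hw0
  refine Or.inr (eq_top_iff.2 fun v _ => ?_)
  have hbasis : ∀ j : Fin 4, (Pi.single j (1 : L)) ∈ W := by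
    intro j
    have h := W.smul_mem (w i)⁻¹ (hall (Matrix.single j i 1) w hw)
    have e : (w i)⁻¹ • ((Matrix.single j i (1 : F)).map ψ *ᵥ w) = Pi.single j 1 := by
      funext k
      rcases eq_or_ne k j with rfl | hk
      · simp [Matrix.mulVec, dotProduct, Matrix.single_apply]
        exact inv_mul_cancel₀ hi
      · simp [Matrix.mulVec, dotProduct, hk, Ne.symm hk]
    rwa [e] at h
  rw [show v = ∑ j, v j • (Pi.single j (1 : L) : Fin 4 → L) from pi_eq_sum_univ' v]
  exact W.sum_mem fun j _ => W.smul_mem _ (hbasis j)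

theorem f0_mulVec {L : Type*} [Field L] [CharP L 2] {G : Matrix (Fin 4) (Fin 4) L} (hG : Rel G)
    (v : Fin 4 → L) : f0 (G *ᵥ v) = f0 v + ∑ r, v r ^ 2 * f0 (fun p => G p r) := by
  have h01 := hG.col 0 1
  have h02 := hG.col 0 2
  have h03 := hG.col 0 3
  have h12 := hG.col 1 2
  have h13 := hG.col 1 3
  have h23 := hG.col 2 3
  simp [anti_apply, Fin.rev] at h01 h02 h03 h12 h13 h23
  simp only [f0, Matrix.mulVec, dotProduct, Fin.sum_univ_four]
  linear_combination
    v 0 * v 1 * h01 + v 0 * v 2 * h02 + v 0 * v 3 * h03 + v 1 * v 2 * h12 + v 1 * v 3 * h13 +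
      v 2 * v 3 * h23

/-- The value of `g ↦ g*` at an element of `P`. -/
theorem star_mem {P : Subgroup (GL (Fin 4) F)} (hle : P ≤ relGroup F) {g : GL (Fin 4) F}
    (hg : g ∈ P) : star4 (g : Matrix (Fin 4) (Fin 4) F) ∈ Cfsg.Geo.matrixSet (starP P) :=
  ⟨starG ⟨g, hle hg⟩, ⟨⟨g, hle hg⟩, hg, rfl⟩, coe_starG _⟩

theorem star_inv {P : Subgroup (GL (Fin 4) F)} (hle : P ≤ relGroup F) {g : GL (Fin 4) F}
    (hg : g ∈ P) : star4 (g : Matrix (Fin 4) (Fin 4) F) *
      star4 ((g⁻¹ : GL (Fin 4) F) : Matrix (Fin 4) (Fin 4) F) = 1 := by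
  rw [← star4_mul (mem_relGroup.1 (hle hg)) (mem_relGroup.1 (hle (inv_mem hg))), ← Units.val_mul,
    mul_inv_cancel]
  exact star4_one

/-- A point fixed in the affine action on Plücker coordinates gives an invariant quadratic form. -/
theorem exists_quad_of_fixed [Finite F] {P : Subgroup (GL (Fin 4) F)} (hle : P ≤ relGroup F)
    (z : Fin 4 → F)
    (hz : ∀ g ∈ P, star4 (star4 (g : Matrix (Fin 4) (Fin 4) F)) *ᵥ z +
      nv (star4 (g : Matrix (Fin 4) (Fin 4) F)) = z) :
    ∃ Q : (Fin 4 → F) → F, Cfsg.Geo.IsNondegenerateQuadraticForm Q ∧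
      Cfsg.Geo.FixesQuadForm (Cfsg.Geo.matrixSet P) Q := by
  have hsurj : Function.Surjective fun a : F => a ^ 2 :=
    Finite.surjective_of_injective CharTwo.sq_injective
  choose s hs using hsurj
  have hs' : ∀ a : F, s a ^ 2 = a := hs
  let y : Fin 4 → F := fun i => s (z i)
  refine ⟨fun v => f0 v + altForm4 v y ^ 2, ⟨?_, ?_, ?_⟩, ?_⟩
  · intro c v
    simp only [f0, altForm4, Pi.smul_apply, smul_eq_mul]
    ring
  all_goals
    have hpol : QuadraticMap.polar (fun v => f0 v + altForm4 v y ^ 2) = altForm4 := by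
      funext u v
      simp only [QuadraticMap.polar, f0, altForm4, Pi.add_apply]
      linear_combination (norm := (ring_nf; simp [two0])) (0 : F) * two0 (L := F)
  · rw [hpol]; exact (isSymplecticForm (F := F)).bilinear
  · rw [hpol]; exact (isSymplecticForm (F := F)).nondegenerate
  rintro _ ⟨g, hg, rfl⟩ v
  apply CharTwo.sq_injective
  show (f0 ((g : Matrix (Fin 4) (Fin 4) F) *ᵥ v) +
    altForm4 ((g : Matrix (Fin 4) (Fin 4) F) *ᵥ v) y ^ 2) ^ 2 = (f0 v + altForm4 v y ^ 2) ^ 2
  set h := star4 (g : Matrix (Fin 4) (Fin 4) F) with hh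
  have hgR : Rel (g : Matrix (Fin 4) (Fin 4) F) := mem_relGroup.1 (hle hg)
  have hhR : Rel h := hgR.star
  set G := star4 h with hG
  set w : Fin 4 → F := fun i => v i ^ 2 with hw
  have hGw : G *ᵥ w = fun i => ((g : Matrix (Fin 4) (Fin 4) F) *ᵥ v) i ^ 2 := by
    funext i
    rw [hG, hh, star4_star4 hgR]
    simp only [Matrix.mulVec, dotProduct, hw, Fin.sum_univ_four, Matrix.map_apply, CharTwo.add_sq,
      mul_pow]
  have hsq : ∀ a : Fin 4 → F, (f0 a + altForm4 a y ^ 2) ^ 2 =
      f0 (fun i => a i ^ 2) + altForm4 (fun i => a i ^ 2) z ^ 2 := by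
    intro a
    have e : altForm4 (fun i => a i ^ 2) z = altForm4 a y ^ 2 := by
      simp only [altForm4, y, CharTwo.add_sq, mul_pow, hs']
    rw [e, CharTwo.add_sq]
    simp only [f0, CharTwo.add_sq, mul_pow]
  rw [hsq, hsq, ← hGw, ← hw]
  set h' := star4 ((g⁻¹ : GL (Fin 4) F) : Matrix (Fin 4) (Fin 4) F) with hh'
  have hinv : h' = anti * hᵀ * anti := by
    have e1 : anti * hᵀ * anti * h = 1 := by
      rw [Matrix.mul_assoc, Matrix.mul_assoc, ← Matrix.mul_assoc hᵀ, hhR.1, anti_mul_self]
    calc h' = anti * hᵀ * anti * h * h' := by rw [e1, Matrix.one_mul]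
      _ = _ := by rw [Matrix.mul_assoc _ h h', hh, hh', star_inv hle hg, Matrix.mul_one]
  have hz' := hz _ (inv_mem hg)
  have hGG : G *ᵥ (star4 h' *ᵥ z) = z := by
    rw [Matrix.mulVec_mulVec, hG, hh', ← star4_mul hhR (mem_relGroup.1 (hle (inv_mem hg))).star, hh,
      star_inv hle hg, star4_one, Matrix.one_mulVec]
  have hS : altForm4 (G *ᵥ w) z = altForm4 w z + altForm4 w (nv h') := by
    conv_lhs => rw [← hGG]
    rw [altForm4_mulVec hhR.star]
    have : star4 h' *ᵥ z = z + nv h' := by
      conv_rhs => rw [← hz', ← hh']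
      funext i
      simp only [Pi.add_apply]
      linear_combination (norm := (ring_nf; simp [two0])) (0 : F) * two0 (L := F)
    rw [this]
    exact (isSymplecticForm (F := F)).bilinear.add_right _ _ _
  have hcols : ∑ r, w r ^ 2 * f0 (fun p => G p r) = altForm4 w (nv h') ^ 2 := by
    simp only [hG, f0_col hhR, altForm4, hinv, nv_inv, Fin.sum_univ_four, CharTwo.add_sq, mul_pow]
    simp [pairOf, Fin.rev]
  rw [f0_mulVec hhR.star, hS, CharTwo.add_sq, hcols]
  linear_combination (altForm4 w (nv h') ^ 2) * two0 (L := F)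

/-- The image of `P` under `g ↦ g*` leaves no proper subspace invariant over any extension. -/
theorem star_invariant_trivial [Finite F] {P : Subgroup (GL (Fin 4) F)} (hP : Core P) {L : Type*}
    [Field L] [CharP L 2] (φ : F →+* L) (W : Submodule L (Fin 4 → L))
    (hW : ∀ g ∈ P, ∀ w ∈ W, (star4 (g : Matrix (Fin 4) (Fin 4) F)).map φ *ᵥ w ∈ W) :
    W = ⊥ ∨ W = ⊤ := by
  classical
  have hspan := CfsgLib.SmallDim.span_eq_top_of_absIrred hP.absIrred
  let ψ : F →+* L := φ.comp (frobenius F 2)
  let hL : P → Matrix (Fin 4) (Fin 4) L := fun g =>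
    (star4 ((g : GL (Fin 4) F) : Matrix (Fin 4) (Fin 4) F)).map φ
  have hR : ∀ g : P, Rel (hL g) := fun g => rel_map φ (mem_relGroup.1 (hP.le g.2)).star
  have hsub : ∀ X : Submodule L (Fin 4 → L), (∀ g : P, ∀ x ∈ X, star4 (hL g) *ᵥ x ∈ X) →
      X = ⊥ ∨ X = ⊤ := by
    intro X hX
    refine invariant_trivial ψ hspan X ?_
    rintro _ ⟨g, hg, rfl⟩ x hx
    have h := hX ⟨g, hg⟩ x hx
    rw [star4_map, star4_star4 (mem_relGroup.1 (hP.le hg)), Matrix.map_map] at h
    exact h
  have hback : ∀ g : P, ∀ v, hL g *ᵥ (hL g⁻¹ *ᵥ v) = v := fun g v => by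
    rw [Matrix.mulVec_mulVec, ← Matrix.map_mul, Subgroup.coe_inv, star_inv hP.le g.2,
      Matrix.map_one _ (map_zero φ) (map_one φ), Matrix.one_mulVec]
  have hinj : ∀ g : P, ∀ v, hL g *ᵥ v = 0 → v = 0 := fun g v h => by
    have := hback g⁻¹ v
    rw [inv_inv, h, Matrix.mulVec_zero] at this
    exact this.symm
  have B := (isSymplecticForm (F := L)).bilinear
  by_contra hne
  push Not at hne
  obtain ⟨hb, ht⟩ := hne
  have hfr : Module.finrank L W = 1 ∨ Module.finrank L W = 2 ∨ Module.finrank L W = 3 := by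
    have h1 : Module.finrank L W ≠ 0 := fun h => hb (Submodule.finrank_eq_zero.1 h)
    have h2 := Submodule.finrank_lt ht
    rw [Module.finrank_fintype_fun_eq_card, Fintype.card_fin] at h2
    omega
  -- no common eigenvector
  have hpoint : ∀ a : Fin 4 → L, a ≠ 0 → (∀ g : P, ∃ c : L, hL g *ᵥ a = c • a) → False := by
    intro a ha hfix
    let T : (Fin 4 → L) →ₗ[L] L :=
      { toFun := fun w => altForm4 a w
        map_add' := B.add_right a
        map_smul' := fun c w => B.smul_right c a w }
    let X : Submodule L (Fin 4 → L) := Submodule.span L ((pl a) '' (LinearMap.ker T : Set _))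
    have hpls : ∀ (c : L) (u : Fin 4 → L), pl (c • a) u = c • pl a u := fun c u => by
      funext p
      simp only [pl, Pi.smul_apply, smul_eq_mul]
      ring
    have hinv : ∀ g : P, ∀ x ∈ X, star4 (hL g) *ᵥ x ∈ X := by
      intro g x hx
      induction hx using Submodule.span_induction with
      | mem x hx =>
        obtain ⟨w, hw, rfl⟩ := hx
        have hw0 : altForm4 a w = 0 := hw
        obtain ⟨c, hc⟩ := hfix g
        have hc0 : c ≠ 0 := fun h => ha (hinj g a (by rw [hc, h, zero_smul]))
        have hw' : altForm4 a (hL g *ᵥ w) = 0 := by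
          have h := altForm4_mulVec (hR g) a w
          rw [hc, B.smul_left, hw0] at h
          exact (mul_eq_zero.1 h).resolve_left hc0
        have h := pl_mulVec (hR g) a w
        rw [hw0, zero_smul, add_zero, hc, hpls] at h
        rw [← h]
        exact X.smul_mem _ (Submodule.subset_span ⟨_, hw', rfl⟩)
      | zero => rw [Matrix.mulVec_zero]; exact X.zero_mem
      | add u v _ _ hu hv => rw [Matrix.mulVec_add]; exact X.add_mem hu hv
      | smul c u _ hu => rw [Matrix.mulVec_smul]; exact X.smul_mem _ hu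
    obtain ⟨w₁, hw₁, hw₁a⟩ : ∃ w, altForm4 a w = 0 ∧ ¬ ∃ c : L, w = c • a := by
      by_contra hall
      push Not at hall
      have hle : LinearMap.ker T ≤ Submodule.span L {a} := fun w hw => by
        obtain ⟨c, rfl⟩ := hall w hw
        exact Submodule.smul_mem _ _ (Submodule.mem_span_singleton_self a)
      have h1 := Submodule.finrank_mono hle
      rw [finrank_span_singleton ha] at h1
      have h2 := LinearMap.finrank_range_add_finrank_ker T
      have h3 := Submodule.finrank_le (LinearMap.range T)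
      rw [Module.finrank_self] at h3
      rw [Module.finrank_fintype_fun_eq_card, Fintype.card_fin] at h2
      omega
    have hx1 : pl a w₁ ≠ 0 := fun h => hw₁a (pl_ne_zero hw₁ ha h)
    have hxmem : pl a w₁ ∈ X := Submodule.subset_span ⟨w₁, hw₁, rfl⟩
    rcases hsub X hinv with hX | hX
    · exact hx1 ((Submodule.mem_bot L).1 (hX ▸ hxmem))
    · refine hx1 (orth_nondeg fun u => ?_)
      have hu : u ∈ X := hX ▸ Submodule.mem_top
      induction hu using Submodule.span_induction with
      | mem x hx =>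
        obtain ⟨w, hw, rfl⟩ := hx
        exact pl_pl hw₁ hw
      | zero => simp [altForm4]
      | add u v _ _ hu hv => rw [B.add_right, hu, hv, add_zero]
      | smul c u _ hu => rw [B.smul_right, hu, mul_zero]
  rcases hfr with h1 | h2 | h3
  · obtain ⟨⟨a, ha⟩, ha0, hspanW⟩ := finrank_eq_one_iff'.1 h1
    refine hpoint a (fun h => ha0 (Subtype.ext h)) fun g => ?_
    obtain ⟨c, hc⟩ := hspanW ⟨hL g *ᵥ a, hW _ g.2 a ha⟩
    exact ⟨c, (congrArg Subtype.val hc).symm⟩
  · let b := Module.finBasisOfFinrankEq L W h2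
    set a : Fin 4 → L := (b 0 : Fin 4 → L) with hadef
    set a' : Fin 4 → L := (b 1 : Fin 4 → L) with ha'def
    have hrep : ∀ u ∈ W, ∃ p q : L, u = p • a + q • a' := by
      intro u hu
      refine ⟨b.repr ⟨u, hu⟩ 0, b.repr ⟨u, hu⟩ 1, ?_⟩
      have h := congrArg Subtype.val (b.sum_repr ⟨u, hu⟩)
      rw [Fin.sum_univ_two] at h
      exact h.symm
    have ha0 : a ≠ 0 := fun h => b.ne_zero 0 (Subtype.ext h)
    have hind : ¬ ∃ c : L, a' = c • a := by
      rintro ⟨c, hc⟩
      have h : b 1 = c • b 0 := Subtype.ext hc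
      have := congrArg (fun u => b.repr u 1) h
      simp at this
    -- the action on the line of `a ∧ a'`
    have hdet : ∀ g : P, ∃ d : L, pl (hL g *ᵥ a) (hL g *ᵥ a') = d • pl a a' ∧
        altForm4 a a' = d * altForm4 a a' := by
      intro g
      obtain ⟨p, q, hp⟩ := hrep _ (hW _ g.2 a (b 0).2)
      obtain ⟨p', q', hp'⟩ := hrep _ (hW _ g.2 a' (b 1).2)
      refine ⟨p * q' + q * p', ?_, ?_⟩
      · change hL g *ᵥ a = _ at hp
        change hL g *ᵥ a' = _ at hp'
        rw [hp, hp']
        funext k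
        simp only [pl, Pi.add_apply, Pi.smul_apply, smul_eq_mul]
        linear_combination (norm := (ring_nf; simp [two0])) (0 : L) * two0 (L := L)
      · change hL g *ᵥ a = _ at hp
        change hL g *ᵥ a' = _ at hp'
        conv_lhs => rw [← altForm4_mulVec (hR g) a a', hp, hp']
        simp only [B.add_left, B.add_right, B.smul_left, B.smul_right, altForm4_self,
          altForm4_comm a' a]
        ring
    by_cases hc : altForm4 a a' = 0
    · have hx : pl a a' ≠ 0 := fun h => hind (pl_ne_zero hc ha0 h)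
      rcases hsub (Submodule.span L {pl a a'}) (fun g x hx' => by
        obtain ⟨t, rfl⟩ := Submodule.mem_span_singleton.1 hx'
        obtain ⟨d, hd, -⟩ := hdet g
        rw [pl_mulVec (hR g), hc, zero_smul, add_zero] at hd
        rw [Matrix.mulVec_smul, hd, smul_smul]
        exact Submodule.smul_mem _ _ (Submodule.mem_span_singleton_self _)) with hX | hX
      · exact hx ((Submodule.mem_bot L).1 (hX ▸ Submodule.mem_span_singleton_self _))
      · have h := finrank_span_singleton (K := L) hx
        rw [hX, finrank_top, Module.finrank_fintype_fun_eq_card, Fintype.card_fin] at h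
        omega
    · set x : Fin 4 → L := (altForm4 a a')⁻¹ • pl a a' with hxdef
      have hx : ∀ g : P, star4 (hL g) *ᵥ x + nv (hL g) = x := by
        intro g
        obtain ⟨d, hd, hd'⟩ := hdet g
        have hd1 : d = 1 := by
          refine mul_right_cancel₀ hc ?_
          rw [← hd', one_mul]
        rw [pl_mulVec (hR g), hd1, one_smul] at hd
        rw [hxdef, Matrix.mulVec_smul]
        conv_rhs => rw [← hd, smul_add, smul_smul, inv_mul_cancel₀ hc, one_smul]
      letI : Algebra F L := φ.toAlgebra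
      obtain ⟨π, hπ⟩ := LinearMap.exists_leftInverse_of_injective (Algebra.linearMap F L)
        (LinearMap.ker_eq_bot.2 φ.injective)
      have hπφ : ∀ t : F, π (φ t) = t := fun t => LinearMap.congr_fun hπ t
      have hπm : ∀ (t : F) (l : L), π (φ t * l) = t * π l := fun t l => by
        rw [show φ t * l = t • l from (Algebra.smul_def t l).symm, map_smul, smul_eq_mul]
      refine hP.noQuad (exists_quad_of_fixed hP.le (fun i => π (x i)) fun g hg => funext fun i => ?_)
      have h := congrArg π (congrFun (hx ⟨g, hg⟩) i)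
      have e1 : nv (hL ⟨g, hg⟩) i = φ (nv (star4 (g : Matrix (Fin 4) (Fin 4) F)) i) := by
        simp [nv, hL]
      have e2 : star4 (hL ⟨g, hg⟩) = (star4 (star4 (g : Matrix (Fin 4) (Fin 4) F))).map φ :=
        star4_map φ _
      rw [Pi.add_apply, e1, e2, map_add, hπφ] at h
      simp only [Pi.add_apply, Matrix.mulVec, dotProduct, Matrix.map_apply, map_sum, hπm] at h ⊢
      exact h
  · let b := Module.finBasisOfFinrankEq L W h3
    let T : (Fin 4 → L) →ₗ[L] (Fin 3 → L) :=
      { toFun := fun v k => altForm4 v (b k : Fin 4 → L)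
        map_add' := fun u v => funext fun k => B.add_left u v _
        map_smul' := fun c u => funext fun k => B.smul_left c u _ }
    obtain ⟨a, ha, ha0⟩ := Submodule.exists_mem_ne_zero_of_ne_bot
      (LinearMap.ker_ne_bot_of_finrank_lt (f := T) (by simp))
    have horth : ∀ u ∈ W, altForm4 a u = 0 := by
      intro u hu
      let Tu : (Fin 4 → L) →ₗ[L] L :=
        { toFun := fun w => altForm4 a w
          map_add' := B.add_right a
          map_smul' := fun c w => B.smul_right c a w }
      have h : Tu.comp W.subtype = 0 := b.ext fun k => congrFun (LinearMap.mem_ker.1 ha) k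
      exact LinearMap.congr_fun h ⟨u, hu⟩
    obtain ⟨v₁, -, hv₁⟩ := SetLike.exists_of_lt (lt_top_iff_ne_top.2 ht)
    have hsup : W ⊔ Submodule.span L {v₁} = ⊤ := by
      refine Submodule.eq_top_of_finrank_eq ?_
      have hlt : W < W ⊔ Submodule.span L {v₁} := lt_of_le_of_ne le_sup_left fun he =>
        hv₁ (he ▸ Submodule.mem_sup_right (Submodule.mem_span_singleton_self v₁))
      have := Submodule.finrank_lt_finrank_of_lt hlt
      have h4 := Submodule.finrank_le (W ⊔ Submodule.span L {v₁})
      rw [Module.finrank_fintype_fun_eq_card, Fintype.card_fin] at h4 ⊢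
      omega
    have hsplit : ∀ (a' : Fin 4 → L), (∀ u ∈ W, altForm4 a' u = 0) → ∀ v, ∃ t : L,
        altForm4 a' v = t * altForm4 a' v₁ ∧ altForm4 a v = t * altForm4 a v₁ := by
      intro a' ha' v
      obtain ⟨u, hu, s, hs, rfl⟩ := Submodule.mem_sup.1 (hsup ▸ Submodule.mem_top : v ∈ W ⊔ Submodule.span L {v₁})
      obtain ⟨t, rfl⟩ := Submodule.mem_span_singleton.1 hs
      exact ⟨t, by rw [B.add_right, B.smul_right, ha' u hu, zero_add],
        by rw [B.add_right, B.smul_right, horth u hu, zero_add]⟩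
    have hav : altForm4 a v₁ ≠ 0 := fun h0 => ha0 (orth_nondeg fun v => by
      obtain ⟨t, -, ht'⟩ := hsplit a horth v
      rw [ht', h0, mul_zero])
    refine hpoint a ha0 fun g => ⟨altForm4 (hL g *ᵥ a) v₁ / altForm4 a v₁, ?_⟩
    have ha' : ∀ u ∈ W, altForm4 (hL g *ᵥ a) u = 0 := by
      intro u hu
      rw [← hback g u, altForm4_mulVec (hR g)]
      exact horth _ (hW _ (inv_mem g.2) u hu)
    refine sub_eq_zero.1 (orth_nondeg fun v => ?_)
    obtain ⟨t, e1, e2⟩ := hsplit _ ha' v
    rw [sub_eq_add_neg, ← neg_smul, B.add_left, B.smul_left, e1, e2]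
    field_simp
    ring

/-- The image of a core under `g ↦ g*` is geometric. -/
theorem geom_starP [Finite F] {P : Subgroup (GL (Fin 4) F)} (hP : Core P) : Geom (starP P) := by
  classical
  have hle' : starP P ≤ relGroup F := by
    rintro _ ⟨g, -, rfl⟩
    exact starG_mem g
  let e : P ≃* starP P := (Subgroup.subgroupOfEquivOfLe hP.le).symm.trans
    ((P.subgroupOf (relGroup F)).equivMapOfInjective starG starG_injective)
  refine ⟨hle', ?_, ?_, ⟨?_, ?_⟩, ?_, ?_⟩
  · haveI := hP.simple
    exact e.symm.isSimpleGroup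
  · obtain ⟨a, b, hab⟩ := hP.noncomm
    exact ⟨e a, e b, fun h => hab (e.injective (by rw [map_mul, map_mul, h]))⟩
  · intro W hW
    refine star_invariant_trivial hP (RingHom.id F) W fun g hg w hw => ?_
    have h := hW _ (star_mem hP.le hg) ⟨w, hw, rfl⟩
    rw [Matrix.toLin'_apply] at h
    simpa using h
  · intro M hM
    let L := AlgebraicClosure F
    haveI : CharP L 2 := charP_of_injective_algebraMap (algebraMap F L).injective 2
    let φ : F →+* L := algebraMap F L
    obtain ⟨t, ht⟩ := Module.End.exists_eigenvalue (Matrix.toLin' (M.map φ))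
    let W := Module.End.eigenspace (Matrix.toLin' (M.map φ)) t
    have hW := star_invariant_trivial hP φ W fun g hg w hw => by
      rw [Module.End.mem_eigenspace_iff, Matrix.toLin'_apply] at hw ⊢
      rw [Matrix.mulVec_mulVec, ← Matrix.map_mul, hM _ (star_mem hP.le hg), Matrix.map_mul,
        ← Matrix.mulVec_mulVec, hw, Matrix.mulVec_smul]
    have htop : W = ⊤ := hW.resolve_left ht
    refine ⟨M 0 0, ?_⟩
    have hall : ∀ i j, φ (M i j) = if i = j then t else 0 := by
      intro i j
      have h := Module.End.mem_eigenspace_iff.1 (htop ▸ Submodule.mem_top : Pi.single j 1 ∈ W)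
      rw [Matrix.toLin'_apply, Matrix.mulVec_single_one] at h
      have h' := congrFun h i
      simp only [Matrix.col_apply, Matrix.map_apply, Pi.smul_apply, smul_eq_mul, Pi.single_apply,
        mul_ite, mul_one, mul_zero] at h'
      exact h'
    ext i j
    apply φ.injective
    rw [Matrix.smul_apply, smul_eq_mul, map_mul, hall 0 0, if_pos rfl, hall i j, Matrix.one_apply]
    split <;> simp
  · intro F₀ hF₀ hreal
    obtain ⟨B, hB⟩ := hreal
    refine hP.noReal F₀ hF₀ (CfsgLib.SmallDim.realisableOver_of_trace hP.absIrred fun g hg => ?_)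
    have hgR : Rel (g : Matrix (Fin 4) (Fin 4) F) := mem_relGroup.1 (hP.le hg)
    set h := star4 (g : Matrix (Fin 4) (Fin 4) F) with hh
    set N := (B : Matrix (Fin 4) (Fin 4) F) * h * ((B⁻¹ : GL (Fin 4) F) : Matrix (Fin 4) (Fin 4) F)
      with hN
    have hNmem : ∀ i j, N i j ∈ F₀ := hB _ (star_mem hP.le hg)
    have hm : CfsgLib.OrderDegrees.minorSum2 N = CfsgLib.OrderDegrees.minorSum2 h := by
      have hc := congrArg (fun p => Polynomial.coeff p 2) (Matrix.charpoly_units_conj B h)
      simp only [← Matrix.coe_units_inv] at hc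
      rw [← hN] at hc
      simp only [CfsgLib.OrderDegrees.charpoly_four] at hc
      simp at hc
      exact hc
    have hmem : CfsgLib.OrderDegrees.minorSum2 N ∈ F₀ := by
      simp only [CfsgLib.OrderDegrees.minorSum2]
      repeat' first
        | exact hNmem _ _
        | apply F₀.add_mem
        | apply F₀.sub_mem
        | apply F₀.mul_mem
    rw [hm, hh, minorSum2_eq_trace hgR.star, star4_star4 hgR] at hmem
    have htr : Matrix.trace ((g : Matrix (Fin 4) (Fin 4) F).map (fun x => x ^ 2)) =
        Matrix.trace (g : Matrix (Fin 4) (Fin 4) F) ^ 2 := by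
      simp only [Matrix.trace, Matrix.diag, Fin.sum_univ_four, Matrix.map_apply, CharTwo.add_sq]
    rw [htr] at hmem
    obtain ⟨r, hr⟩ := Finite.surjective_of_injective (α := F₀) (f := fun a : F₀ => a ^ 2)
      (fun a b hab => Subtype.ext (CharTwo.sq_injective (congrArg Subtype.val hab))) ⟨_, hmem⟩
    have : (r : F) = Matrix.trace (g : Matrix (Fin 4) (Fin 4) F) :=
      CharTwo.sq_injective (congrArg Subtype.val hr)
    rw [← this]
    exact r.2
  · intro hrel
    refine hP.proper ((Subgroup.eq_of_le_of_card_ge hP.le ?_).ge)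
    rw [Nat.card_congr e.toEquiv]
    exact Subgroup.card_le_of_le hrel

end CfsgLib.SpFourResidual
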