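import Cfsg.Agent.Lib.SpFourResidual.Setup
import Cfsg.Agent.Lib.SmallDim.Descent
import Cfsg.Agent.Lib.ClassicalLinear.SympCard
import Cfsg.Agent.Lib.Suzuki.SubOdd
import Cfsg.Agent.Lib.Suzuki.LieBridge

/-!
# Suzuki subgroups of `Sp₄(2^f)` not realisable over a subfield live over the field of `2^(2m+1)`

In `Sz(q)` every element is either of order dividing `4` or conjugate to its `q`-th power, so all
traces of a characteristic two representation are fixed by `x ↦ x^q`.
-/

set_option autoImplicit false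

open Polynomial in
/-- An algebra automorphism of the matrix algebra normalising the commutant of `A` acts on it as a
power map. -/
theorem CfsgLib.Suzuki.exists_pow_of_algHom {F : Type*} [Field F] [Finite F]
    {A : Matrix (Fin 4) (Fin 4) F} {p : ℕ} (hp : p.Prime) (hA : A ^ p = 1) (hA1 : A ≠ 1)
    (hpF : (p : F) ≠ 0) (hd : ∀ d : ℕ, p ∣ Nat.card F ^ d - 1 → 4 ∣ d)
    (c : Matrix (Fin 4) (Fin 4) F →ₐ[F] Matrix (Fin 4) (Fin 4) F) (hcA : Commute (c A) A)
    {B : Matrix (Fin 4) (Fin 4) F} (hB : Commute B A) :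
    ∃ i < 4, c B = B ^ (Nat.card F ^ i) := by
  classical
  have : Fintype F := Fintype.ofFinite F
  obtain ⟨hirr, hdeg⟩ := irreducible_minpoly_of_order hp hA hA1 hpF hd
  set μ := minpoly F A with hμ
  have : Fact (Irreducible μ) := ⟨hirr⟩
  have : Module.Finite F (AdjoinRoot μ) := (AdjoinRoot.powerBasis hirr.ne_zero).finite
  have : Finite (AdjoinRoot μ) := Module.finite_of_finite F
  let φ : AdjoinRoot μ →ₐ[F] Matrix (Fin 4) (Fin 4) F :=
    Ideal.Quotient.liftₐ (Ideal.span {μ}) (aeval A) (fun a ha => by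
      obtain ⟨r, rfl⟩ := Ideal.mem_span_singleton.1 ha
      rw [map_mul, hμ, minpoly.aeval, zero_mul])
  let v : Fin 4 → F := Pi.single 0 1
  have hv : v ≠ 0 := by simp [v]
  let ψ : AdjoinRoot μ →ₗ[F] (Fin 4 → F) :=
    { toFun := fun k => (φ k).mulVec v
      map_add' := fun x y => by rw [map_add, Matrix.add_mulVec]
      map_smul' := fun c x => by rw [map_smul, Matrix.smul_mulVec, RingHom.id_apply] }
  have hψ : Function.Injective ψ := by
    rw [injective_iff_map_eq_zero]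
    intro k hk
    by_contra hk0
    refine hv ?_
    have : (φ (k⁻¹ * k)).mulVec v = 0 := by
      rw [map_mul, ← Matrix.mulVec_mulVec, show (φ k).mulVec v = 0 from hk, Matrix.mulVec_zero]
    rwa [inv_mul_cancel₀ hk0, map_one, Matrix.one_mulVec] at this
  have hfin : Module.finrank F (AdjoinRoot μ) = 4 := by
    rw [(AdjoinRoot.powerBasis hirr.ne_zero).finrank, AdjoinRoot.powerBasis_dim, hdeg]
  have hψs : Function.Surjective ψ := (LinearMap.injective_iff_surjective_of_finrank_eq_finrank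
    (hfin.trans (Module.finrank_fin_fun F).symm)).1 hψ
  have hroot : φ (AdjoinRoot.root μ) = A := aeval_X A
  have hrange : ∀ k : AdjoinRoot μ, ∀ M : Matrix (Fin 4) (Fin 4) F, Commute M A → Commute M (φ k) := by
    intro k M hM
    induction k using AdjoinRoot.induction_on with
    | ih r =>
      rw [← AdjoinRoot.aeval_eq, ← aeval_algHom_apply, hroot]
      exact Algebra.commute_of_mem_adjoin_singleton_of_commute (aeval_mem_adjoin_singleton F A) hM
  have hex : ∀ M, Commute M A → ∃ k, φ k = M := by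
    intro M hM
    obtain ⟨k, hk⟩ := hψs (M.mulVec v)
    refine ⟨k, Matrix.ext_of_mulVec_single fun i => ?_⟩
    obtain ⟨l, hl⟩ := hψs (Pi.single i 1)
    rw [← hl]
    show (φ k).mulVec ((φ l).mulVec v) = M.mulVec ((φ l).mulVec v)
    rw [Matrix.mulVec_mulVec, Matrix.mulVec_mulVec, (hrange l M hM).eq, ← map_mul, mul_comm k l,
      map_mul, ← Matrix.mulVec_mulVec, ← Matrix.mulVec_mulVec]
    exact congrArg _ hk
  obtain ⟨k₀, hk₀⟩ := hex _ hcA
  have hk₀μ : aeval k₀ μ = 0 := by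
    apply φ.toRingHom.injective
    show φ (aeval k₀ μ) = φ 0
    have hμA : aeval A μ = 0 := minpoly.aeval F A
    rw [← aeval_algHom_apply, hk₀, aeval_algHom_apply, hμA, map_zero, map_zero]
  let σ : AdjoinRoot μ →ₐ[F] AdjoinRoot μ :=
    AdjoinRoot.liftAlgHom μ (Algebra.ofId F _) k₀ hk₀μ
  obtain ⟨⟨i, hi⟩, hσ⟩ := (FiniteField.bijective_frobeniusAlgHom_pow F (AdjoinRoot μ)).2 σ
  have hcomp : c.comp φ = φ.comp σ := AdjoinRoot.algHom_ext (by
    rw [AlgHom.comp_apply, AlgHom.comp_apply, hroot, ← hk₀]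
    exact congrArg φ (AdjoinRoot.liftAlgHom_root μ _ _ hk₀μ).symm)
  obtain ⟨k, hk⟩ := hex B hB
  refine ⟨i, hfin ▸ hi, ?_⟩
  calc c B = φ (σ k) := by rw [← hk]; exact DFunLike.congr_fun hcomp k
    _ = φ (k ^ (Nat.card F ^ i)) := by
        rw [← hσ]
        simp [AlgHom.coe_pow, FiniteField.coe_frobeniusAlgHom, pow_iterate, Nat.card_eq_fintype_card]
    _ = _ := by rw [map_pow, hk]

namespace CfsgLib.Suzuki.Hyp

variable {K : Type*} [Field K] {m : ℕ} (h : Hyp K m)
include h

/-- Every element is a `2`-element of order dividing `4` or is conjugate to its `q`-th power. -/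
theorem pow_four_or_conj_pow (g : Cfsg.Sz K m) :
    g ^ 4 = 1 ∨ ∃ n : Cfsg.Sz K m, n * g * n⁻¹ = g ^ (2 ^ (2 * m + 1)) := by
  rcases eq_or_ne g 1 with rfl | hg
  · exact Or.inl (one_pow 4)
  have := h.finite
  have := h.finite_group
  have := h.charP
  rcases h.trichotomy hg with ⟨k, a, b, hgk, -⟩ | ⟨k, t, hgk, -⟩ | hfree
  · refine Or.inl (orderOf_dvd_iff_pow_eq_one.1 (h.orderOf_dvd_of_conj_U (k := k) ?_))
    rw [hgk, show k⁻¹ * (k * h.u a b * k⁻¹) * k = h.u a b by group]
    exact h.u_mem_U a b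
  · refine Or.inr ⟨1, ?_⟩
    have hd : orderOf g ∣ 2 ^ (2 * m + 1) - 1 := h.orderOf_dvd_of_conj_H (k := k) (by
      rw [hgk, show k⁻¹ * (k * h.d t * k⁻¹) * k = h.d t by group]; exact h.d_mem_H t)
    conv_rhs => rw [show 2 ^ (2 * m + 1) = (2 ^ (2 * m + 1) - 1) + 1 from
      (Nat.sub_add_cancel Nat.one_le_two_pow).symm, pow_succ, orderOf_dvd_iff_pow_eq_one.1 hd, one_mul]
    group
  refine Or.inr ?_
  have hord := h.orderOf_dvd_qq hg hfree
  have hp : (orderOf g).minFac.Prime := Nat.minFac_prime (fun e => hg (orderOf_eq_one_iff.1 e))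
  have hz := orderOf_pow_orderOf_div (orderOf_pos g).ne' (Nat.minFac_dvd (orderOf g))
  set z := g ^ (orderOf g / (orderOf g).minFac)
  set p := (orderOf g).minFac
  have hpq : p ∣ qq m := (Nat.minFac_dvd _).trans hord
  have hz1 : z ≠ 1 := fun e => hp.one_lt.ne' (hz.symm.trans (orderOf_eq_one_iff.2 e))
  have hzC : z ∈ tor g := Subgroup.mem_centralizer_singleton_iff.2 ((Commute.refl g).pow_left _).eq
  have hCz : Subgroup.centralizer ({z} : Set (Cfsg.Sz K m)) = tor g :=
    (h.torus_spec hg hfree).2.2 z hzC hz1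
  set N := Subgroup.normalizer (tor g : Set (Cfsg.Sz K m))
  have key : ∀ n : N, ∃ i : Fin 4, (n : Cfsg.Sz K m) * g * (n : Cfsg.Sz K m)⁻¹ =
      g ^ ((2 ^ (2 * m + 1)) ^ (i : ℕ)) := by
    intro n
    have hu : mat K m (n : Cfsg.Sz K m) * mat K m (n : Cfsg.Sz K m)⁻¹ = 1 := by
      rw [← map_mul, mul_inv_cancel, map_one]
    have hu' : mat K m (n : Cfsg.Sz K m)⁻¹ * mat K m (n : Cfsg.Sz K m) = 1 := by
      rw [← map_mul, inv_mul_cancel, map_one]
    let c : Matrix (Fin 4) (Fin 4) K →ₐ[K] Matrix (Fin 4) (Fin 4) K :=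
      { toFun := fun M => mat K m (n : Cfsg.Sz K m) * M * mat K m (n : Cfsg.Sz K m)⁻¹
        map_one' := by rw [mul_one, hu]
        map_mul' := fun M M' => by
          rw [show mat K m (n : Cfsg.Sz K m) * M * mat K m (n : Cfsg.Sz K m)⁻¹ *
            (mat K m (n : Cfsg.Sz K m) * M' * mat K m (n : Cfsg.Sz K m)⁻¹) =
            mat K m (n : Cfsg.Sz K m) * M * (mat K m (n : Cfsg.Sz K m)⁻¹ * mat K m (n : Cfsg.Sz K m)) *
              M' * mat K m (n : Cfsg.Sz K m)⁻¹ by simp only [mul_assoc], hu', mul_one]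
          simp only [mul_assoc]
        map_zero' := by rw [mul_zero, zero_mul]
        map_add' := fun M M' => by rw [mul_add, add_mul]
        commutes' := fun r => by
          rw [← Algebra.commutes, mul_assoc, hu, mul_one] }
    have hc : ∀ x, c (mat K m x) = mat K m ((n : Cfsg.Sz K m) * x * (n : Cfsg.Sz K m)⁻¹) := fun x => by
      rw [map_mul, map_mul]; rfl
    have hcomm : ∀ x ∈ tor g, Commute (mat K m x) (mat K m z) := fun x hx => by
      rw [← hCz, Subgroup.mem_centralizer_singleton_iff] at hx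
      exact (show Commute x z from hx).map (mat K m)
    obtain ⟨i, hi, e⟩ := exists_pow_of_algHom hp (A := mat K m z)
      (by rw [← map_pow, ← hz, pow_orderOf_eq_one, map_one])
      (fun e => hz1 (mat_injective (e.trans (map_one _).symm)))
      (by
        rw [Ne, CharP.cast_eq_zero_iff K 2]
        exact fun e => ne_two_of_dvd_qq hpq ((Nat.prime_dvd_prime_iff_eq Nat.prime_two hp).1 e).symm)
      (fun d hd => four_dvd_of_dvd hp hpq (by rwa [h.card] at hd)) c
      (by rw [hc]; exact hcomm _ ((Subgroup.mem_normalizer_iff.1 n.2 z).1 hzC))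
      (B := mat K m g) (hcomm g (Subgroup.mem_centralizer_singleton_iff.2 rfl))
    exact ⟨⟨i, hi⟩, mat_injective (by rw [← hc, e, h.card, map_pow])⟩
  choose idx hidx using key
  set C := (tor g).subgroupOf N
  have hidx' : ∀ n n' : N, idx n = idx n' → n⁻¹ * n' ∈ C := by
    intro n n' e
    have e1 : (n : Cfsg.Sz K m) * g * (n : Cfsg.Sz K m)⁻¹ = (n' : Cfsg.Sz K m) * g * (n' : Cfsg.Sz K m)⁻¹ := by
      rw [hidx n, hidx n', e]
    rw [Subgroup.mem_subgroupOf, tor, Subgroup.mem_centralizer_singleton_iff]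
    push_cast
    calc (n : Cfsg.Sz K m)⁻¹ * n' * g
        = (n : Cfsg.Sz K m)⁻¹ * ((n' : Cfsg.Sz K m) * g * (n' : Cfsg.Sz K m)⁻¹) * n' := by group
      _ = _ := by rw [← e1]; group
  let f : N ⧸ C → Fin 4 := fun x => idx x.out
  have hf : Function.Injective f := fun x y e => by
    have := hidx' _ _ e
    rw [← QuotientGroup.eq, QuotientGroup.out_eq', QuotientGroup.out_eq'] at this
    exact this
  have hcard : Nat.card (N ⧸ C) = 4 := by
    have h1 := Subgroup.card_mul_index C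
    rw [Nat.card_congr (Subgroup.subgroupOfEquivOfLe Subgroup.le_normalizer).toEquiv,
      h.card_normalizer_tor ⟨hg, hfree⟩, mul_comm] at h1
    exact Nat.eq_of_mul_eq_mul_right Nat.card_pos h1
  obtain ⟨x, hx⟩ := ((Nat.bijective_iff_injective_and_card f).2 ⟨hf, by rw [hcard, Nat.card_fin]⟩).2 1
  refine ⟨(x.out : N), ?_⟩
  rw [hidx, show idx x.out = 1 from hx]
  simp

end CfsgLib.Suzuki.Hyp

namespace CfsgLib.SpFourResidual

open Matrix CfsgLib.Parabolic.SpFour

variable {F : Type*} [Field F] [CharP F 2]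

theorem trace_pow_two (M : Matrix (Fin 4) (Fin 4) F) : trace (M ^ 2) = trace M ^ 2 := by
  simp only [trace, diag_apply, pow_two, mul_apply, Fin.sum_univ_four]
  linear_combination (M 0 1 * M 1 0 + M 0 2 * M 2 0 + M 0 3 * M 3 0 + M 1 2 * M 2 1 + M 1 3 * M 3 1
    + M 2 3 * M 3 2 - M 0 0 * M 1 1 - M 0 0 * M 2 2 - M 0 0 * M 3 3 - M 1 1 * M 2 2 - M 1 1 * M 3 3
    - M 2 2 * M 3 3) * CharTwo.two_eq_zero (R := F)

theorem trace_pow_two_pow (M : Matrix (Fin 4) (Fin 4) F) (k : ℕ) :
    trace (M ^ 2 ^ k) = trace M ^ 2 ^ k := by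
  induction k with
  | zero => simp
  | succ k ih => rw [pow_succ, pow_mul, trace_pow_two, ih, ← pow_mul]

/-- The coordinates matching the antidiagonal form to the standard one. -/
def stdEquiv : Fin 4 ≃ Fin 2 ⊕ Fin 2 where
  toFun := ![.inl 0, .inl 1, .inr 1, .inr 0]
  invFun := Sum.elim ![0, 1] ![3, 2]
  left_inv i := by fin_cases i <;> rfl
  right_inv i := by rcases i with i | i <;> fin_cases i <;> rfl

theorem reindex_anti :
    (Matrix.reindexAlgEquiv F F stdEquiv) (anti : Matrix (Fin 4) (Fin 4) F) = Matrix.J (Fin 2) F := by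
  ext i j
  rcases i with i | i <;> rcases j with j | j <;> fin_cases i <;> fin_cases j <;>
    simp [stdEquiv, anti, Matrix.J, Fin.rev, CharTwo.neg_eq]

theorem natCard_dvd_symp [Finite F] {P : Subgroup (GL (Fin 4) F)} (hP : P ≤ relGroup F) :
    Nat.card P ∣ Nat.card (Matrix.symplecticGroup (Fin 2) F) := by
  set R := Matrix.reindexAlgEquiv F F stdEquiv
  have hmem : ∀ g ∈ P, R (g : Matrix (Fin 4) (Fin 4) F) ∈ Matrix.symplecticGroup (Fin 2) F := by
    intro g hg
    rw [SymplecticGroup.mem_iff, ← reindex_anti,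
      show (R (g : Matrix (Fin 4) (Fin 4) F))ᵀ = R (g : Matrix (Fin 4) (Fin 4) F)ᵀ from rfl,
      ← map_mul, ← map_mul, (mem_relGroup.1 (hP hg)).2]
  let φ : P →* Matrix.symplecticGroup (Fin 2) F :=
    { toFun := fun g => ⟨R ((g : GL (Fin 4) F) : Matrix (Fin 4) (Fin 4) F), hmem g g.2⟩
      map_one' := Subtype.ext (by simp)
      map_mul' := fun a b => Subtype.ext (by simp) }
  exact Subgroup.card_dvd_of_injective φ fun a b e =>
    Subtype.ext (Units.ext (R.injective (congrArg Subtype.val e)))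

theorem suzuki_field [Fintype F] {P : Subgroup (GL (Fin 4) F)} (G : Geom P) {K : Type} [Field K]
    [Fintype K] (m : ℕ) (hm : 1 ≤ m) (hK : Fintype.card K = 2 ^ (2 * m + 1))
    (e : Cfsg.Lie.Sz K (2 ^ (m + 1)) ≃* P) : Fintype.card F = Fintype.card K := by
  have h := CfsgLib.Suzuki.Hyp.of_fintype hm hK
  let e' : Cfsg.Sz K m ≃* P := h.lieEquiv.trans e
  have htr : ∀ g ∈ P, trace ((g : GL (Fin 4) F) : Matrix (Fin 4) (Fin 4) F) ^ 2 ^ (2 * m + 1)
      = trace ((g : GL (Fin 4) F) : Matrix (Fin 4) (Fin 4) F) := by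
    intro g hg
    obtain ⟨y, hy⟩ := e'.surjective ⟨g, hg⟩
    rcases h.pow_four_or_conj_pow y with h4 | ⟨n, hn⟩
    · have h4' : g ^ 4 = 1 := by
        have := congrArg (fun x => ((e' x : P) : GL (Fin 4) F)) h4
        simpa [map_pow, hy] using this
      have hq : g ^ 2 ^ (2 * m + 1) = 1 := by
        rw [show 2 * m + 1 = 2 + (2 * m - 1) by omega, pow_add, pow_mul,
          show (2 : ℕ) ^ 2 = 4 from rfl, h4', one_pow]
      have h0 : trace ((g : GL (Fin 4) F) : Matrix (Fin 4) (Fin 4) F) ^ 2 ^ (2 * m + 1) = 0 := by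
        rw [← trace_pow_two_pow, ← Units.val_pow_eq_pow_val, hq, Units.val_one, trace_one,
          Fintype.card_fin]
        exact (CharP.cast_eq_zero_iff F 2 4).2 (by norm_num)
      rw [h0, eq_zero_of_pow_eq_zero h0]
    · have := congrArg (fun x => (((e' x : P) : GL (Fin 4) F) : Matrix (Fin 4) (Fin 4) F)) hn
      simp only [map_mul, map_inv, map_pow, hy, Subgroup.coe_mul, Subgroup.coe_inv, SubgroupClass.coe_pow,
        Units.val_mul, Units.val_pow_eq_pow_val] at this
      rw [← trace_pow_two_pow, ← this, trace_units_conj]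
  let φ : F →+* F := iterateFrobenius F 2 (2 * m + 1)
  have hfix : ∀ x : F, x ∈ RingHom.eqLocusField φ (RingHom.id F) ↔ x ^ 2 ^ (2 * m + 1) = x :=
    fun x => Iff.rfl
  have htop : RingHom.eqLocusField φ (RingHom.id F) = ⊤ := by
    by_contra hne
    exact G.noReal _ hne (CfsgLib.SmallDim.realisableOver_of_trace G.absIrred
      fun g hg => (hfix _).2 (htr g hg))
  have hall : ∀ x : F, x ^ 2 ^ (2 * m + 1) = x := fun x => (hfix x).1 (htop ▸ Subfield.mem_top x)
  obtain ⟨f, hf⟩ : ∃ f : ℕ+, Fintype.card F = 2 ^ (f : ℕ) := by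
    obtain ⟨f, -, hf⟩ := FiniteField.card F 2
    exact ⟨f, hf⟩
  have hfn : (f : ℕ) ∣ 2 * m + 1 := by
    obtain ⟨u, hu⟩ := IsCyclic.exists_ofOrder_eq_natCard (α := Fˣ)
    have hu1 : u ^ (2 ^ (2 * m + 1) - 1) = 1 := by
      have := hall (u : F)
      rw [← Nat.sub_add_cancel (Nat.one_le_two_pow (n := 2 * m + 1)), pow_succ,
        mul_left_eq_self₀] at this
      exact Units.ext (by simpa using this.resolve_right u.ne_zero)
    have h1 := orderOf_dvd_of_pow_eq_one hu1
    rw [hu, Nat.card_units, Nat.card_eq_fintype_card, hf] at h1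
    have h2 := Nat.pow_sub_one_gcd_pow_sub_one 2 (f : ℕ) (2 * m + 1)
    rw [Nat.gcd_eq_left h1] at h2
    have h3 : (f : ℕ) = Nat.gcd f (2 * m + 1) := Nat.pow_right_injective le_rfl (by
      have := Nat.one_le_two_pow (n := (f : ℕ))
      have := Nat.one_le_two_pow (n := Nat.gcd f (2 * m + 1))
      show 2 ^ (f : ℕ) = 2 ^ Nat.gcd f (2 * m + 1)
      omega)
    rw [h3]
    exact Nat.gcd_dvd_right _ _
  have hdvd : Nat.card (Cfsg.Sz K m) ∣ Nat.card (Matrix.symplecticGroup (Fin 2) F) :=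
    (Nat.card_congr e'.toEquiv).dvd.trans (natCard_dvd_symp G.le)
  have h2 : (2 ^ (2 * m + 1)) ^ 2 ∣ Nat.card (Matrix.symplecticGroup (Fin 2) F) :=
    (((dvd_mul_right _ _).trans (dvd_mul_left _ _)).trans (dvd_of_eq h.card_eq_qq.symm)).trans hdvd
  rw [CfsgLib.ClassicalLinear.card_sp, hf] at h2
  simp only [Finset.prod_range_succ, Finset.prod_range_zero, one_mul] at h2
  have hodd : ∀ k, 0 < k → Odd ((2 ^ (f : ℕ)) ^ k - 1) := fun k hk =>
    Nat.Even.sub_odd (Nat.one_le_pow _ _ (by positivity))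
      ((Nat.even_pow.2 ⟨Nat.even_pow.2 ⟨even_two, f.pos.ne'⟩, hk.ne'⟩)) odd_one
  have h3 := Nat.Coprime.dvd_of_dvd_mul_right (Nat.Coprime.pow_left _ (Nat.Coprime.pow_left _
    (Nat.coprime_two_left.2 ((hodd _ (by norm_num)).mul (hodd _ (by norm_num)))))) h2
  rw [← pow_mul, ← pow_mul, Nat.pow_dvd_pow_iff_le_right (by norm_num)] at h3
  rw [hf, hK]
  obtain ⟨c, hc⟩ := hfn
  rcases Nat.lt_or_ge c 2 with hc2 | hc2
  · interval_cases c <;> simp_all
  · exfalso
    rcases Nat.lt_or_ge c 3 with hc3 | hc3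
    · interval_cases c; omega
    · nlinarith [f.pos]

end CfsgLib.SpFourResidual
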