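import Cfsg.Agent.Lib.SpFourResidual.Setup
import Cfsg.Agent.Lib.InvChar.Transfer
import Cfsg.Agent.Lib.Involutions.BrauerSuzuki
import Cfsg.Agent.Lib.SLThreeResidual.RootDickson

/-!
# Residual subgroups of `Sp₄(2^f)`: no transvections when every centre carries at most one

The centres lying in a Sylow 2-subgroup are pairwise orthogonal and form an affine set or a triangle
of a totally isotropic plane; this gives a homomorphism of the Sylow subgroup onto a group of order
two which is non-trivial at every transvection, against simplicity by transfer.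
-/

set_option autoImplicit false
set_option linter.unusedSectionVars false

open Matrix
open scoped MatrixGroups
open Cfsg.Lie (altForm4)
open CfsgLib.Geometric (ap ap_mul ap_one ap_add ap_smul ap_inv_ap ap_ap_inv gl_ext ap_injective)
open CfsgLib.ClassicalLinear (upS upS_coe)
open CfsgLib.SL2.Dickson

namespace CfsgLib.SpFourResidual

variable {F : Type*} [Field F] [CharP F 2]

local notation "V4" => (Fin 4 → F)

theorem bf_add_left (u v w : V4) : altForm4 (u + v) w = altForm4 u w + altForm4 v w :=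
  isSymplecticForm.bilinear.add_left u v w

theorem bf_add_right (u v w : V4) : altForm4 u (v + w) = altForm4 u v + altForm4 u w :=
  isSymplecticForm.bilinear.add_right u v w

theorem bf_smul_left (c : F) (u v : V4) : altForm4 (c • u) v = c * altForm4 u v :=
  isSymplecticForm.bilinear.smul_left c u v

theorem bf_smul_right (c : F) (u v : V4) : altForm4 u (c • v) = c * altForm4 u v :=
  isSymplecticForm.bilinear.smul_right c u v

theorem bf_zero_left (v : V4) : altForm4 (0 : V4) v = 0 :=
  CfsgLib.Geometric.Symp.zero_left isSymplecticForm v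

theorem bf_zero_right (v : V4) : altForm4 v (0 : V4) = 0 :=
  CfsgLib.Geometric.Symp.zero_right isSymplecticForm v

theorem ap_tr4 (a : V4) (c : F) (v : V4) : ap (tr4 a c) v = v + (c * altForm4 v a) • a :=
  CfsgLib.Geometric.Symp.ap_T isSymplecticForm a c v

theorem bf_ap {g : GL (Fin 4) F} (hg : g ∈ relGroup F) (u v : V4) :
    altForm4 (ap g u) (ap g v) = altForm4 u v :=
  altForm4_map hg u v

theorem conj_tr4 {g : GL (Fin 4) F} (hg : g ∈ relGroup F) (a : V4) (c : F) :
    g * tr4 a c * g⁻¹ = tr4 (ap g a) c :=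
  CfsgLib.Geometric.Symp.conj_T isSymplecticForm (fun u v => bf_ap hg u v) a c

/-- Three transvections with pairwise orthogonal centres. -/
theorem tr4_three (v₁ v₂ v₃ u : V4) (h12 : altForm4 v₂ v₁ = 0) (h13 : altForm4 v₃ v₁ = 0)
    (h23 : altForm4 v₃ v₂ = 0) :
    ap (tr4 v₁ 1 * tr4 v₂ 1 * tr4 v₃ 1) u =
      u + altForm4 u v₃ • v₃ + altForm4 u v₂ • v₂ + altForm4 u v₁ • v₁ := by
  simp only [ap_mul, ap_tr4, one_mul, bf_add_left, bf_smul_left, h12, h13, h23, mul_zero, add_zero]

theorem zmod_two_eq_one : ∀ q : ZMod 2, q ≠ 0 → q = 1 := by decide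

theorem zmod_two_cases : ∀ q : ZMod 2, q = 0 ∨ q = 1 := by decide

theorem ofAdd_one_ne : Multiplicative.ofAdd (1 : ZMod 2) ≠ 1 := by decide

/-- A vector whose transvection with coefficient one lies in the group. -/
def Centre (P : Subgroup (GL (Fin 4) F)) (x : V4) : Prop := x ≠ 0 ∧ tr4 x 1 ∈ P

/-- At most one transvection for each centre, restated for centres. -/
def UniqueCentre (P : Subgroup (GL (Fin 4) F)) : Prop :=
  ∀ x (l : F), Centre P x → Centre P (l • x) → l = 1

theorem uniqueCentre_of {P : Subgroup (GL (Fin 4) F)}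
    (hu : ∀ a c c', a ≠ 0 → c ≠ 0 → c' ≠ 0 → tr4 a c ∈ P → tr4 a c' ∈ P → c = c') :
    UniqueCentre P := by
  intro x l hx hl
  have hl0 : l ≠ 0 := fun e => hl.1 (by rw [e, zero_smul])
  have h := hl.2
  rw [tr4, CfsgLib.Geometric.Symp.T_smul, mul_one] at h
  have e := hu x (l * l) 1 hx.1 (mul_ne_zero hl0 hl0) one_ne_zero h hx.2
  exact CharTwo.sq_injective (show l ^ 2 = 1 ^ 2 by rw [one_pow, pow_two, e])

theorem tr4_ne_one {x : V4} (hx : x ≠ 0) : tr4 x (1 : F) ≠ 1 := by
  intro e
  obtain ⟨v, hv⟩ := (isSymplecticForm.nondegenerate x hx).1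
  have h := ap_tr4 x (1 : F) v
  rw [e, ap_one, left_eq_add, smul_eq_zero] at h
  rcases h with h | h
  · exact hv (by rw [altForm4_comm] at h ⊢; simpa using h)
  · exact hx h

theorem tr4_mul_self (x : V4) : tr4 x (1 : F) * tr4 x 1 = 1 := by
  rw [tr4, CfsgLib.Geometric.Symp.T_mul, CharTwo.add_self_eq_zero, CfsgLib.Geometric.Symp.T_zero_right]

/-- Commuting transvections of two-power product: orthogonal centres. -/
theorem orth_of_pow {x y : V4} {k : ℕ} (h : (tr4 x (1 : F) * tr4 y 1) ^ 2 ^ k = 1) :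
    altForm4 x y = 0 := by
  by_contra ha
  set a := altForm4 x y with haa
  set g := tr4 x (1 : F) * tr4 y 1 with hg
  set N : V4 → V4 := fun v => ap g v + v with hN
  have hchar : ∀ v : V4, v + v = 0 := fun v => funext fun i => CharTwo.add_self_eq_zero (v i)
  have hit : ∀ k : ℕ, ∀ v, N^[2 ^ k] v = ap (g ^ 2 ^ k) v + v := by
    intro k
    induction k with
    | zero => intro v; simp [hN]
    | succ k ih =>
      intro v
      rw [pow_succ, mul_two, Function.iterate_add_apply, ih, ih, ap_add, pow_add, ap_mul]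
      rw [add_assoc, ← add_assoc (ap (g ^ 2 ^ k) v), hchar, zero_add]
  have hgx : ap g x = (1 + a * a) • x + a • y := by
    rw [hg, ap_mul, ap_tr4, ap_tr4, bf_add_left, bf_smul_left, altForm4_self, altForm4_comm y x, ← haa]
    module
  have hgy : ap g y = y + a • x := by
    rw [hg, ap_mul, ap_tr4, ap_tr4, altForm4_self, mul_zero, zero_smul, add_zero, altForm4_comm y x,
      ← haa, one_mul]
  have hstep : ∀ p q : F, N (p • x + q • y) = (p * (a * a) + q * a) • x + (p * a) • y := by
    intro p q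
    have e : N (p • x + q • y) = (p * (a * a) + q * a) • x + (p * a) • y
        + ((p • x + p • x) + (q • y + q • y)) := by
      simp only [hN, ap_add, ap_smul, hgx, hgy]
      module
    rw [e, hchar, hchar, add_zero, add_zero]
  have hnz : ∀ n : ℕ, ∀ p q : F, p ≠ 0 ∨ q ≠ 0 → N^[n] (p • x + q • y) ≠ 0 := by
    intro n
    induction n with
    | zero =>
      intro p q hpq e
      rw [Function.iterate_zero_apply] at e
      have e1 : p * a = 0 := by
        have := congrArg (fun v => altForm4 v y) e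
        simpa [bf_add_left, bf_smul_left, bf_zero_left, altForm4_self, ← haa] using this
      have e2 : q * a = 0 := by
        have := congrArg (fun v => altForm4 x v) e
        simpa [bf_add_right, bf_smul_right, bf_zero_right, altForm4_self, ← haa] using this
      rcases hpq with h' | h'
      · exact mul_ne_zero h' ha e1
      · exact mul_ne_zero h' ha e2
    | succ n ih =>
      intro p q hpq
      rw [Function.iterate_succ_apply, hstep]
      refine ih _ _ ?_
      by_cases hp : p = 0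
      · exact Or.inl (by rw [hp, zero_mul, zero_add]; exact mul_ne_zero (hpq.resolve_left (by simp [hp])) ha)
      · exact Or.inr (mul_ne_zero hp ha)
  refine hnz (2 ^ k) 1 0 (Or.inl one_ne_zero) ?_
  rw [hit, h, ap_one, hchar]

/-- A totally isotropic pair with a dual pair. -/
structure DualPair (x y b₁ b₂ : V4) : Prop where
  xy : altForm4 x y = 0
  x1 : altForm4 x b₁ = 1
  x2 : altForm4 x b₂ = 0
  y1 : altForm4 y b₁ = 0
  y2 : altForm4 y b₂ = 1
  bb : altForm4 b₁ b₂ = 0

theorem DualPair.exists {x y : V4} (hxy : altForm4 x y = 0)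
    (hx : x ∉ Submodule.span F {y}) (hy : y ∉ Submodule.span F {x}) :
    ∃ b₁ b₂, DualPair x y b₁ b₂ := by
  obtain ⟨p, hp, hpx⟩ := CfsgLib.Geometric.Symp.exists_perp_ne isSymplecticForm hx
  obtain ⟨q, hq, hqy⟩ := CfsgLib.Geometric.Symp.exists_perp_ne isSymplecticForm hy
  rw [CfsgLib.Geometric.Symp.mem_perp_span] at hp hq
  obtain ⟨b₁, hb₁⟩ : ∃ b₁, b₁ = (altForm4 x p)⁻¹ • p := ⟨_, rfl⟩
  obtain ⟨b, hb⟩ : ∃ b, b = (altForm4 y q)⁻¹ • q := ⟨_, rfl⟩
  have h1 : altForm4 x b₁ = 1 := by rw [hb₁, bf_smul_right, inv_mul_cancel₀ hpx]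
  have h2 : altForm4 y b₁ = 0 := by rw [hb₁, bf_smul_right, altForm4_comm y p, hp, mul_zero]
  have h3 : altForm4 x b = 0 := by rw [hb, bf_smul_right, altForm4_comm x q, hq, mul_zero]
  have h4 : altForm4 y b = 1 := by rw [hb, bf_smul_right, inv_mul_cancel₀ hqy]
  refine ⟨b₁, b + altForm4 b₁ b • x, hxy, h1, ?_, h2, ?_, ?_⟩
  · rw [bf_add_right, h3, bf_smul_right, altForm4_self, mul_zero, add_zero]
  · rw [bf_add_right, h4, bf_smul_right, altForm4_comm y x, hxy, mul_zero, add_zero]
  · rw [bf_add_right, bf_smul_right, altForm4_comm b₁ x, h1, mul_one, CharTwo.add_self_eq_zero]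

theorem DualPair.swap {x y b₁ b₂ : V4} (D : DualPair x y b₁ b₂) : DualPair y x b₂ b₁ :=
  ⟨by rw [altForm4_comm, D.xy], D.y2, D.y1, D.x2, D.x1, by rw [altForm4_comm, D.bb]⟩

theorem DualPair.decomp {x y b₁ b₂ : V4} (D : DualPair x y b₁ b₂) (v : V4) :
    v = altForm4 v b₁ • x + altForm4 v b₂ • y + altForm4 v x • b₁ + altForm4 v y • b₂ := by
  obtain ⟨hxy, h1, h2, h3, h4, hbb⟩ := D
  have e1 : altForm4 b₁ x = 1 := by rw [altForm4_comm, h1]
  have e2 : altForm4 b₂ x = 0 := by rw [altForm4_comm, h2]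
  have e3 : altForm4 b₁ y = 0 := by rw [altForm4_comm, h3]
  have e4 : altForm4 b₂ y = 1 := by rw [altForm4_comm, h4]
  have e5 : altForm4 b₂ b₁ = 0 := by rw [altForm4_comm, hbb]
  have e6 : altForm4 y x = 0 := by rw [altForm4_comm, hxy]
  set w := altForm4 v b₁ • x + altForm4 v b₂ • y + altForm4 v x • b₁ + altForm4 v y • b₂ with hw
  have k1 : altForm4 w b₁ = altForm4 v b₁ := by
    simp [hw, bf_add_left, bf_smul_left, h1, h3, altForm4_self, e5]
  have k2 : altForm4 w b₂ = altForm4 v b₂ := by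
    simp [hw, bf_add_left, bf_smul_left, h2, h4, altForm4_self, hbb]
  have k3 : altForm4 w x = altForm4 v x := by
    simp [hw, bf_add_left, bf_smul_left, e1, e2, altForm4_self, e6]
  have k4 : altForm4 w y = altForm4 v y := by
    simp [hw, bf_add_left, bf_smul_left, e3, e4, altForm4_self, hxy]
  have hli : LinearIndependent F ![x, y, b₁, b₂] := by
    rw [Fintype.linearIndependent_iff]
    intro c hc
    simp only [Fin.sum_univ_four] at hc
    have f1 := congrArg (fun u => altForm4 u b₁) hc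
    have f2 := congrArg (fun u => altForm4 u b₂) hc
    have f3 := congrArg (fun u => altForm4 u x) hc
    have f4 := congrArg (fun u => altForm4 u y) hc
    have hz : ∀ u : V4, altForm4 0 u = 0 :=
      fun u => CfsgLib.Geometric.Symp.zero_left isSymplecticForm u
    simp [bf_add_left, bf_smul_left, h1, h2, h3, h4, e1, e2, e3, e4, e5, e6, hxy, hbb,
      altForm4_self, hz] at f1 f2 f3 f4
    intro i
    fin_cases i <;> assumption
  have hsp := hli.span_eq_top_of_card_eq_finrank (by simp)
  by_contra hne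
  have hne' : v - w ≠ 0 := sub_ne_zero.2 hne
  obtain ⟨u, hu⟩ := (isSymplecticForm.nondegenerate _ hne').2
  refine hu ?_
  clear hu
  have hmem : u ∈ Submodule.span F (Set.range ![x, y, b₁, b₂]) := hsp ▸ Submodule.mem_top
  induction hmem using Submodule.span_induction with
  | mem u' hu' =>
    obtain ⟨i, rfl⟩ := hu'
    have hsub : ∀ u : V4, altForm4 (v - w) u = altForm4 v u - altForm4 w u :=
      fun u => CfsgLib.Geometric.Symp.sub_left isSymplecticForm v w u
    fin_cases i <;> simp [hsub, k1, k2, k3, k4]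
  | zero => exact CfsgLib.Geometric.Symp.zero_right isSymplecticForm _
  | add a b _ _ ha hb => rw [bf_add_right, ha, hb, add_zero]
  | smul c a _ ha => rw [bf_smul_right, ha, mul_zero]

theorem DualPair.plane {x y b₁ b₂ : V4} (D : DualPair x y b₁ b₂) {v : V4}
    (hx : altForm4 v x = 0) (hy : altForm4 v y = 0) :
    v = altForm4 v b₁ • x + altForm4 v b₂ • y := by
  conv_lhs => rw [D.decomp v, hx, hy]
  rw [zero_smul, zero_smul, add_zero, add_zero]

variable {P : Subgroup (GL (Fin 4) F)}

theorem Centre.map (G : Geom P) {g : GL (Fin 4) F} (hg : g ∈ P) {x : V4} (hx : Centre P x) :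
    Centre P (ap g x) :=
  ⟨CfsgLib.Geometric.ap_ne_zero g hx.1,
    conj_tr4 (G.le hg) x (1 : F) ▸ P.mul_mem (P.mul_mem hg hx.2) (P.inv_mem hg)⟩

theorem Centre.notMem_span (hu : UniqueCentre P) {x y : V4} (hx : Centre P x) (hy : Centre P y)
    (hne : x ≠ y) : y ∉ Submodule.span F {x} := by
  intro h
  obtain ⟨l, rfl⟩ := Submodule.mem_span_singleton.1 h
  exact hne (by rw [hu x l hx hy, one_smul])

variable [Finite F]

/-- Three orthogonal centres, one of them seeing two different non-zero values: affine. -/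
theorem affine_of_two (G : Geom P) (hu : UniqueCentre P) {x y b₁ b₂ z w : V4} {α β : F}
    (D : DualPair x y b₁ b₂) (hx : Centre P x) (hy : Centre P y) (hz : Centre P z) (hw : Centre P w)
    (hzeq : z = α • x + β • y) (ha : altForm4 x w ≠ 0) (hb : altForm4 y w ≠ 0)
    (hab : altForm4 x w ≠ altForm4 y w) : α + β = 1 := by
  classical
  set a := altForm4 x w with hadef
  set b := altForm4 y w with hbdef
  obtain ⟨e, he⟩ : ∃ e, e = a⁻¹ • x := ⟨_, rfl⟩
  obtain ⟨r, hr⟩ : ∃ r, r = b • x + a • y := ⟨_, rfl⟩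
  have hyx : altForm4 y x = 0 := by rw [altForm4_comm, D.xy]
  have hew : altForm4 e w = 1 := by rw [he, bf_smul_left, ← hadef, inv_mul_cancel₀ ha]
  have hrw : altForm4 r w = 0 := by
    rw [hr, bf_add_left, bf_smul_left, bf_smul_left, ← hadef, ← hbdef, mul_comm a b,
      CharTwo.add_self_eq_zero]
  -- coordinates in the plane
  set η : V4 → F := fun v => altForm4 v w with hη
  set γ : V4 → F := fun v => altForm4 v b₂ * a⁻¹ with hγ
  have hWe : altForm4 e x = 0 ∧ altForm4 e y = 0 := by
    rw [he, bf_smul_left, bf_smul_left, altForm4_self, D.xy, mul_zero]; exact ⟨rfl, rfl⟩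
  have hWr : altForm4 r x = 0 ∧ altForm4 r y = 0 := by
    simp [hr, bf_add_left, bf_smul_left, altForm4_self, D.xy, hyx]
  have hco : ∀ v, altForm4 v x = 0 → altForm4 v y = 0 → v = η v • e + γ v • r := by
    intro v h1 h2
    have e0 := D.plane h1 h2
    have e1 : η v = altForm4 v b₁ * a + altForm4 v b₂ * b := by
      show altForm4 v w = _
      conv_lhs => rw [e0]
      rw [bf_add_left, bf_smul_left, bf_smul_left, ← hadef, ← hbdef]
    conv_lhs => rw [e0]
    rw [e1, he, hr]
    simp only [hγ]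
    have e2 : (altForm4 v b₁ * a + altForm4 v b₂ * b) * a⁻¹ + altForm4 v b₂ * a⁻¹ * b = altForm4 v b₁ := by
      rw [add_mul, mul_assoc, mul_inv_cancel₀ ha, mul_one, add_assoc,
        mul_right_comm (altForm4 v b₂) a⁻¹ b, CharTwo.add_self_eq_zero, add_zero]
    have e3 : altForm4 v b₂ * a⁻¹ * a = altForm4 v b₂ := by
      rw [mul_assoc, inv_mul_cancel₀ ha, mul_one]
    simp only [smul_add, smul_smul, ← add_assoc, ← add_smul]
    rw [e2, e3]
  -- the group induced modulo the line
  let Gm : Submonoid SL(2, F) :=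
    { carrier := {M | ∃ g ∈ P, ap g r = r ∧ ∃ k l : F,
        ap g e = (M : Matrix (Fin 2) (Fin 2) F) 0 0 • e + (M : Matrix (Fin 2) (Fin 2) F) 1 0 • w + k • r ∧
        ap g w = (M : Matrix (Fin 2) (Fin 2) F) 0 1 • e + (M : Matrix (Fin 2) (Fin 2) F) 1 1 • w + l • r}
      one_mem' := ⟨1, P.one_mem, ap_one r, 0, 0, by simp, by simp⟩
      mul_mem' := by
        rintro M M' ⟨g, hg, hgr, k, l, hge, hgw⟩ ⟨g', hg', hgr', k', l', hge', hgw'⟩
        set A : Matrix (Fin 2) (Fin 2) F := (M : Matrix (Fin 2) (Fin 2) F) with hA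
        set A' : Matrix (Fin 2) (Fin 2) F := (M' : Matrix (Fin 2) (Fin 2) F) with hA'
        refine ⟨g * g', P.mul_mem hg hg', by rw [ap_mul, hgr', hgr],
          A' 0 0 * k + A' 1 0 * l + k', A' 0 1 * k + A' 1 1 * l + l', ?_, ?_⟩
        · rw [ap_mul, hge', ap_add, ap_add, ap_smul, ap_smul, ap_smul, hge, hgw, hgr,
            Matrix.SpecialLinearGroup.coe_mul, ← hA, ← hA']
          simp only [Matrix.mul_apply, Fin.sum_univ_two]
          module
        · rw [ap_mul, hgw', ap_add, ap_add, ap_smul, ap_smul, ap_smul, hge, hgw, hgr,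
            Matrix.SpecialLinearGroup.coe_mul, ← hA, ← hA']
          simp only [Matrix.mul_apply, Fin.sum_univ_two]
          module }
  let H : Subgroup SL(2, F) :=
    { Gm with
      inv_mem' := fun {M} hM => by
        have : M⁻¹ = M ^ (orderOf M - 1) := by
          refine inv_eq_of_mul_eq_one_right ?_
          rw [← pow_succ', Nat.sub_add_cancel (orderOf_pos M), pow_orderOf_eq_one]
        show M⁻¹ ∈ Gm
        rw [this]
        exact Gm.pow_mem hM _ }
  have hup : ∀ v, Centre P v → altForm4 v x = 0 → altForm4 v y = 0 → upS (η v * η v) ∈ H := by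
    intro v hv h1 h2
    have hve : altForm4 e v = 0 := by
      rw [he, bf_smul_left, altForm4_comm x v, h1, mul_zero]
    have hvr : altForm4 r v = 0 := by
      rw [hr, bf_add_left, bf_smul_left, bf_smul_left, altForm4_comm x v, altForm4_comm y v, h1, h2,
        mul_zero, mul_zero, add_zero]
    refine ⟨tr4 v 1, hv.2, ?_, 0, η v * γ v, ?_, ?_⟩
    · rw [ap_tr4, hvr, mul_zero, zero_smul, add_zero]
    · rw [ap_tr4, hve, upS_coe]; simp
    · rw [ap_tr4, altForm4_comm w v, upS_coe]
      conv_lhs => arg 2; arg 2; rw [hco v h1 h2]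
      simp only [hη, one_mul, Matrix.cons_val', Matrix.cons_val_zero, Matrix.cons_val_one,
        Matrix.cons_val_fin_one, Matrix.of_apply, one_smul]
      module
  have hlow : lowS (1 : F) ∈ H := by
    refine ⟨tr4 w 1, hw.2, ?_, 0, 0, ?_, ?_⟩
    · rw [ap_tr4, hrw, mul_zero, zero_smul, add_zero]
    · rw [ap_tr4, hew, lowS_coe]; simp
    · rw [ap_tr4, altForm4_self, lowS_coe]; simp
  have hA : a * a ∈ transl H := by
    have := hup x hx (altForm4_self x) D.xy
    exact mem_transl.2 this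
  have hB : b * b ∈ transl H := by
    have := hup y hy hyx (altForm4_self y)
    exact mem_transl.2 this
  have hsq : ∀ p q : F, p * p = q * q → p = q := fun p q h =>
    CharTwo.sq_injective (show p ^ 2 = q ^ 2 by rw [pow_two, pow_two, h])
  have hab2 : a * a ≠ b * b := fun h => hab (hsq _ _ h)
  have h4 : 4 ≤ Nat.card (transl H) := by
    let f : Fin 4 → transl H := ![0, ⟨a * a, hA⟩, ⟨b * b, hB⟩, ⟨a * a + b * b, add_mem hA hB⟩]
    have hne : a * a + b * b ≠ 0 := fun h => hab2 (CharTwo.add_eq_zero.1 h)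
    have hf : Function.Injective f := by
      intro i j h
      have h' := congrArg Subtype.val h
      fin_cases i <;> fin_cases j <;>
        simp [f, ha, hb, hab2, hab2.symm, hne, hne.symm, eq_comm] at h' ⊢
    simpa using Nat.card_le_card_of_injective f hf
  obtain ⟨R, hRc, hR⟩ := CfsgLib.SLThreeResidual.exists_subfield_of_transl (G := H) one_ne_zero hlow h4
  have hRe : ∀ t : F, t ∈ R → upS t ∈ H := by
    have hsub : (transl H : Set F) ⊆ (R : Set F) := fun t ht => by simpa using hR 1 t hlow ht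
    have heq : (transl H : Set F) = (R : Set F) := Set.eq_of_subset_of_ncard_le hsub
      (by rw [← Nat.card_coe_set_eq, ← Nat.card_coe_set_eq]; exact hRc.le)
    exact fun t ht => mem_transl.1 (show t ∈ (transl H : Set F) from heq ▸ ht)
  obtain ⟨ζ₀, hζ₀⟩ := IsCyclic.exists_generator (α := Rˣ)
  set ζ : F := ((ζ₀ : R) : F) with hζ
  have hζR : ζ ∈ R := (ζ₀ : R).2
  have hζ0 : ζ ≠ 0 := fun h => ζ₀.ne_zero (Subtype.ext h)
  have hpow : ∀ t ∈ R, t ≠ 0 → ∃ n : ℕ, ζ ^ n = t := by
    intro t ht ht0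
    obtain ⟨n, hn⟩ := (mem_powers_iff_mem_zpowers.2 (hζ₀ (Units.mk0 (⟨t, ht⟩ : R) fun h => ht0 (congrArg Subtype.val h))))
    refine ⟨n, ?_⟩
    have := congrArg (fun u : Rˣ => ((u : R) : F)) hn
    simpa [hζ] using this
  have hAR : a * a ∈ R := by simpa using hR 1 _ hlow hA
  have hBR : b * b ∈ R := by simpa using hR 1 _ hlow hB
  have hζ1 : ζ ≠ 1 := by
    intro h
    obtain ⟨n, hn⟩ := hpow _ hAR (mul_ne_zero ha ha)
    obtain ⟨m, hm⟩ := hpow _ hBR (mul_ne_zero hb hb)
    rw [h, one_pow] at hn hm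
    exact hab2 (hn.symm.trans hm)
  -- the diagonal element
  set w0 : SL(2, F) := upS 1 * lowS 1 * upS 1 with hw0def
  have hw0 : w0 ∈ H := H.mul_mem (H.mul_mem (hRe 1 R.one_mem) hlow) (hRe 1 R.one_mem)
  have hlowR : ∀ t ∈ R, lowS t ∈ H := by
    intro t ht
    have e : lowS t = w0 * upS t * w0⁻¹ := by
      rw [eq_mul_inv_iff_mul_eq]
      refine Subtype.ext ?_
      simp only [hw0def, Matrix.SpecialLinearGroup.coe_mul, upS_coe, lowS_coe]
      ext i j
      fin_cases i <;> fin_cases j <;>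
        simp [Matrix.mul_apply, Fin.sum_univ_two, CharTwo.add_self_eq_zero, add_comm]
    rw [e]
    exact H.mul_mem (H.mul_mem hw0 (hRe t ht)) (H.inv_mem hw0)
  have hdiag : upS ζ * lowS ζ⁻¹ * upS ζ * w0 ∈ H :=
    H.mul_mem (H.mul_mem (H.mul_mem (hRe ζ hζR) (hlowR _ (R.inv_mem hζR))) (hRe ζ hζR)) hw0
  obtain ⟨g, hgP, hgr, κ, l, hge, -⟩ := hdiag
  have hge' : ap g e = ζ • e + κ • r := by
    rw [hge]
    simp [hw0def, upS_coe, lowS_coe, Matrix.mul_apply, Fin.sum_univ_two, hζ0,
      CharTwo.add_self_eq_zero]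
  set c := κ * (ζ + 1)⁻¹ with hc
  have hζ1' : ζ + 1 ≠ 0 := fun h => hζ1 (CharTwo.add_eq_zero.1 h)
  obtain ⟨e', he'⟩ : ∃ e', e' = e + c • r := ⟨_, rfl⟩
  have hge'' : ap g e' = ζ • e' := by
    have hκ : κ + c = ζ * c := by
      have h0 : κ = c * (ζ + 1) := by rw [hc, mul_assoc, inv_mul_cancel₀ hζ1', mul_one]
      rw [h0]
      linear_combination c * CharTwo.two_eq_zero (R := F)
    rw [he', ap_add, ap_smul, hgr, hge', smul_add, smul_smul, ← hκ]
    module
  set L : V4 → F := fun v => γ v + η v * c with hL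
  have hco' : ∀ v, altForm4 v x = 0 → altForm4 v y = 0 → v = η v • e' + L v • r := by
    intro v h1 h2
    conv_lhs => rw [hco v h1 h2]
    rw [he', show L v = γ v + η v * c from rfl, smul_add, smul_smul, add_smul,
      add_assoc (η v • e), ← add_assoc ((η v * c) • r), add_comm ((η v * c) • r) (γ v • r),
      add_assoc (γ v • r),
      show (η v * c) • r + (η v * c) • r = 0 by rw [← add_smul, CharTwo.add_self_eq_zero, zero_smul],
      add_zero]
  have hgn : ∀ n : ℕ, ∀ p q : F, ap (g ^ n) (p • e' + q • r) = (ζ ^ n * p) • e' + q • r := by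
    intro n
    induction n with
    | zero => intro p q; simp
    | succ n ih =>
      intro p q
      rw [pow_succ', ap_mul, ih, ap_add, ap_smul, ap_smul, hge'', hgr, smul_smul, pow_succ',
        show ζ ^ n * p * ζ = ζ * ζ ^ n * p by ring]
  -- the centres of the plane have constant second coordinate
  have hr0 : ∀ v, Centre P v → altForm4 v x = 0 → altForm4 v y = 0 → Centre P (L v • r) := by
    intro v hv h1 h2
    by_cases hη0 : η v = 0
    · have := hco' v h1 h2
      rw [hη0, zero_smul, zero_add] at this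
      rw [← this]; exact hv
    set q := L v with hq
    set p := η v with hp
    have hveq := hco' v h1 h2
    obtain ⟨n, hn⟩ := hpow (1 + ζ) (R.add_mem R.one_mem hζR) (by rw [add_comm]; exact hζ1')
    have c1 : Centre P (p • e' + q • r) := hveq ▸ hv
    have c2 : Centre P ((ζ * p) • e' + q • r) := by
      have := Centre.map G (P.pow_mem hgP 1) c1
      rwa [hgn, pow_one] at this
    have c3 : Centre P (((1 + ζ) * p) • e' + q • r) := by
      have := Centre.map G (P.pow_mem hgP n) c1
      rwa [hgn, hn] at this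
    have hq0 : q ≠ 0 := by
      intro h0
      rw [h0, zero_smul, add_zero] at c1 c2
      rw [mul_smul] at c2
      exact hζ1 (hu _ ζ c1 c2)
    have hr1 : r ≠ 0 := by
      intro h0
      have := congrArg (fun u => altForm4 u b₂) h0
      simp [hr, bf_add_left, bf_smul_left, D.x2, D.y2, CfsgLib.Geometric.Symp.zero_left isSymplecticForm,
        ha] at this
    refine ⟨smul_ne_zero hq0 hr1, ?_⟩
    have hee : altForm4 e' r = 0 := by
      simp [he', he, hr, bf_add_left, bf_add_right, bf_smul_left, bf_smul_right, altForm4_self, D.xy, hyx]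
    have horth : ∀ p p' q q' : F, altForm4 (p • e' + q • r) (p' • e' + q' • r) = 0 := by
      intro p p' q q'
      simp [bf_add_left, bf_add_right, bf_smul_left, bf_smul_right, altForm4_self, hee,
        altForm4_comm r e']
    have hprod : tr4 (q • r) (1 : F) = tr4 (p • e' + q • r) 1 * tr4 ((ζ * p) • e' + q • r) 1 *
        tr4 (((1 + ζ) * p) • e' + q • r) 1 := by
      apply gl_ext
      intro u
      rw [tr4_three _ _ _ u (horth _ _ _ _) (horth _ _ _ _) (horth _ _ _ _), ap_tr4]
      simp only [bf_add_right, bf_smul_right, one_mul]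
      set A := altForm4 u e'
      set B := altForm4 u r
      have h2 : ∀ m : V4, m + m = 0 := fun m => funext fun i => CharTwo.add_self_eq_zero (m i)
      have e : u + ((1 + ζ) * p * A + q * B) • (((1 + ζ) * p) • e' + q • r) +
          ((ζ * p * A + q * B)) • ((ζ * p) • e' + q • r) + (p * A + q * B) • (p • e' + q • r) =
          u + (q * B) • q • r +
          ((((1 + ζ + ζ * ζ) * (p * p) * A + (1 + ζ) * (p * q * B)) • e' + ((1 + ζ) * (p * q * A) + q * q * B) • r) +
           (((1 + ζ + ζ * ζ) * (p * p) * A + (1 + ζ) * (p * q * B)) • e' + ((1 + ζ) * (p * q * A) + q * q * B) • r)) := by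
        module
      rw [e, h2, add_zero]
    rw [hprod]
    exact P.mul_mem (P.mul_mem c1.2 c2.2) c3.2
  have hconst : ∀ v v', Centre P v → altForm4 v x = 0 → altForm4 v y = 0 → Centre P v' →
      altForm4 v' x = 0 → altForm4 v' y = 0 → L v = L v' := by
    intro v v' hv h1 h2 hv' h1' h2'
    have c := hr0 v hv h1 h2
    have c' := hr0 v' hv' h1' h2'
    have hL0 : L v ≠ 0 := fun h => c.1 (by rw [h, zero_smul])
    have hl := hu (L v • r) (L v' * (L v)⁻¹) c
      (by rw [smul_smul, mul_assoc, inv_mul_cancel₀ hL0, mul_one]; exact c')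
    exact ((mul_inv_eq_one₀ hL0).1 hl).symm
  have hzx : altForm4 z x = 0 := by simp [hzeq, bf_add_left, bf_smul_left, altForm4_self, hyx]
  have hzy : altForm4 z y = 0 := by simp [hzeq, bf_add_left, bf_smul_left, altForm4_self, D.xy]
  have hLz : L z = α * L x + β * L y := by
    simp only [hL, hγ, hη, hzeq, bf_add_left, bf_smul_left]; ring
  have hLy := hconst y x hy hyx (altForm4_self y) hx (altForm4_self x) D.xy
  have hLz' := hconst z x hz hzx hzy hx (altForm4_self x) D.xy
  rw [hLz', hLy, ← add_mul] at hLz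
  have hLx : L x ≠ 0 := fun h => (hr0 x hx (altForm4_self x) D.xy).1 (by rw [h, zero_smul])
  exact mul_right_cancel₀ hLx (hLz.symm.trans (one_mul _).symm)

/-- Three pairwise orthogonal centres are affine or a triangle. -/
theorem affine_or_triangle (G : Geom P) (hu : UniqueCentre P) {x y b₁ b₂ z : V4} {α β : F}
    (D : DualPair x y b₁ b₂) (hx : Centre P x) (hy : Centre P y) (hz : Centre P z)
    (hzx : z ≠ x) (hzy : z ≠ y) (hzeq : z = α • x + β • y) : α + β = 1 ∨ (α = 1 ∧ β = 1) := by
  classical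
  by_contra hcon
  obtain ⟨hna, hnt⟩ := not_or.1 hcon
  have hα : α ≠ 0 := by
    intro h
    rw [h, zero_smul, zero_add] at hzeq
    exact hzy (by rw [hzeq, hu y β hy (hzeq ▸ hz), one_smul])
  have hβ : β ≠ 0 := by
    intro h
    rw [h, zero_smul, add_zero] at hzeq
    exact hzx (by rw [hzeq, hu x α hx (hzeq ▸ hz), one_smul])
  have hyx : altForm4 y x = 0 := by rw [altForm4_comm, D.xy]
  have hzyo : altForm4 z y = 0 := by simp [hzeq, bf_add_left, bf_smul_left, altForm4_self, D.xy]
  have hxzo : altForm4 x z = 0 := by simp [hzeq, bf_add_right, bf_smul_right, altForm4_self, D.xy]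
  -- what one centre can see
  have key : ∀ w, Centre P w → (altForm4 x w ≠ 0 → altForm4 y w = 0 → α = 1) ∧
      (altForm4 x w = 0 → altForm4 y w ≠ 0 → β = 1) ∧
      (altForm4 x w ≠ 0 → altForm4 y w ≠ 0 → altForm4 x w = altForm4 y w ∧ α = β) := by
    intro w hw
    have hzw : altForm4 z w = α * altForm4 x w + β * altForm4 y w := by
      simp [hzeq, bf_add_left, bf_smul_left]
    refine ⟨fun ha hb => ?_, fun ha hb => ?_, fun ha hb => ?_⟩
    · rw [hb, mul_zero, add_zero] at hzw
      by_contra hne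
      obtain ⟨c₁, c₂, D'⟩ := DualPair.exists (x := x) (y := z) hxzo
        (Centre.notMem_span hu hz hx hzx) (Centre.notMem_span hu hx hz hzx.symm)
      have hyeq : y = (α * β⁻¹) • x + β⁻¹ • z := by
        rw [hzeq, smul_add, smul_smul, smul_smul, inv_mul_cancel₀ hβ, one_smul, mul_comm α,
          ← add_assoc, ← add_smul, CharTwo.add_self_eq_zero, zero_smul, zero_add]
      have := affine_of_two G hu D' hx hz hy hw hyeq ha (by rw [hzw]; exact mul_ne_zero hα ha)
        (by rw [hzw]; exact fun e => hne (mul_right_cancel₀ ha (by rw [one_mul, ← e])))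
      refine hna ?_
      have e1 : α + 1 = β := by
        linear_combination β * this - (α + 1) * mul_inv_cancel₀ hβ
      linear_combination e1 + (β - 1) * CharTwo.two_eq_zero (R := F)
    · rw [ha, mul_zero, zero_add] at hzw
      by_contra hne
      obtain ⟨c₁, c₂, D'⟩ := DualPair.exists (x := y) (y := z) (by rw [altForm4_comm]; exact hzyo)
        (Centre.notMem_span hu hz hy hzy) (Centre.notMem_span hu hy hz hzy.symm)
      have hxeq : x = (β * α⁻¹) • y + α⁻¹ • z := by
        rw [hzeq, smul_add, smul_smul, smul_smul, inv_mul_cancel₀ hα, one_smul, mul_comm β,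
          add_comm x, ← add_assoc, ← add_smul, CharTwo.add_self_eq_zero, zero_smul, zero_add]
      have := affine_of_two G hu D' hy hz hx hw hxeq hb (by rw [hzw]; exact mul_ne_zero hβ hb)
        (by rw [hzw]; exact fun e => hne (mul_right_cancel₀ hb (by rw [one_mul, ← e])))
      refine hna ?_
      have e1 : β + 1 = α := by
        linear_combination α * this - (β + 1) * mul_inv_cancel₀ hα
      linear_combination e1 + (α - 1) * CharTwo.two_eq_zero (R := F)
    · by_cases hab : altForm4 x w = altForm4 y w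
      · refine ⟨hab, ?_⟩
        by_contra hne
        rw [← hab, ← add_mul] at hzw
        obtain ⟨c₁, c₂, D'⟩ := DualPair.exists (x := x) (y := z) hxzo
          (Centre.notMem_span hu hz hx hzx) (Centre.notMem_span hu hx hz hzx.symm)
        have hyeq : y = (α * β⁻¹) • x + β⁻¹ • z := by
          rw [hzeq, smul_add, smul_smul, smul_smul, inv_mul_cancel₀ hβ, one_smul, mul_comm α,
            ← add_assoc, ← add_smul, CharTwo.add_self_eq_zero, zero_smul, zero_add]
        have := affine_of_two G hu D' hx hz hy hw hyeq ha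
          (by rw [hzw]; exact mul_ne_zero (fun h => hne (CharTwo.add_eq_zero.1 h)) ha)
          (by rw [hzw]; exact fun e => hna (mul_right_cancel₀ ha (by rw [one_mul, ← e])))
        refine hna ?_
        have e1 : α + 1 = β := by
          linear_combination β * this - (α + 1) * mul_inv_cancel₀ hβ
        linear_combination e1 + (β - 1) * CharTwo.two_eq_zero (R := F)
      · exact absurd (affine_of_two G hu D hx hy hz hw hzeq ha hb hab) hna
  -- centres span
  have hspan : Submodule.span F {w | Centre P w} = ⊤ := by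
    refine ((G.absIrred.1 _ ?_).resolve_left ?_)
    · rintro _ ⟨g, hg, rfl⟩
      rw [Submodule.map_span_le]
      intro w hw
      exact Submodule.subset_span (Centre.map G hg hw)
    · intro h
      have : x ∈ Submodule.span F {w | Centre P w} := Submodule.subset_span hx
      rw [h, Submodule.mem_bot] at this
      exact hx.1 this
  -- a functional vanishing on all centres
  have hvan : ∀ p : V4, (∀ w, Centre P w → altForm4 p w = 0) → p = 0 := by
    intro p hp
    by_contra h0
    obtain ⟨u, hu'⟩ := (isSymplecticForm.nondegenerate p h0).2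
    refine hu' ?_
    clear hu'
    have hmem : u ∈ Submodule.span F {w | Centre P w} := hspan ▸ Submodule.mem_top
    induction hmem using Submodule.span_induction with
    | mem u' hu'' => exact hp u' hu''
    | zero => exact CfsgLib.Geometric.Symp.zero_right isSymplecticForm _
    | add a b _ _ ha hb => rw [bf_add_right, ha, hb, add_zero]
    | smul c a _ ha => rw [bf_smul_right, ha, mul_zero]
  have hx0 : x ≠ 0 := hx.1
  have hy0 : y ≠ 0 := hy.1
  have hxy0 : x + y ≠ 0 := fun h => by
    have := congrArg (fun u => altForm4 u b₁) h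
    simp [bf_add_left, D.x1, D.y1, CfsgLib.Geometric.Symp.zero_left isSymplecticForm] at this
  -- some centre of each of two kinds
  obtain ⟨w₁, hw₁, h₁⟩ : ∃ w, Centre P w ∧ altForm4 x w ≠ 0 := by
    by_contra h; exact hx0 (hvan x fun w hw => by_contra fun hne => h ⟨w, hw, hne⟩)
  obtain ⟨w₂, hw₂, h₂⟩ : ∃ w, Centre P w ∧ altForm4 y w ≠ 0 := by
    by_contra h; exact hy0 (hvan y fun w hw => by_contra fun hne => h ⟨w, hw, hne⟩)
  obtain ⟨w₃, hw₃, h₃⟩ : ∃ w, Centre P w ∧ altForm4 x w ≠ altForm4 y w := by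
    by_contra h; exact hxy0 (hvan _ fun w hw => by_contra fun hne => h ⟨w, hw, fun e => hne
      (by rw [bf_add_left, e, CharTwo.add_self_eq_zero])⟩)
  have k3 : α = 1 ∨ β = 1 := by
    by_cases ha : altForm4 x w₃ = 0
    · exact Or.inr ((key w₃ hw₃).2.1 ha fun hb => h₃ (ha.trans hb.symm))
    · by_cases hb : altForm4 y w₃ = 0
      · exact Or.inl ((key w₃ hw₃).1 ha hb)
      · exact absurd ((key w₃ hw₃).2.2 ha hb).1 h₃
  refine hnt ?_
  rcases k3 with e | e
  · refine ⟨e, ?_⟩
    by_cases hb : altForm4 x w₂ = 0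
    · exact (key w₂ hw₂).2.1 hb h₂
    · exact ((key w₂ hw₂).2.2 hb h₂).2.symm.trans e
  · refine ⟨?_, e⟩
    by_cases ha : altForm4 y w₁ = 0
    · exact (key w₁ hw₁).1 h₁ ha
    · exact ((key w₁ hw₁).2.2 h₁ ha).2.trans e

/-- A vector with invariant functional gives a homomorphism. -/
theorem phi_mul {S : Set (GL (Fin 4) F)} (hS : ∀ g ∈ S, g ∈ relGroup F ∧ g⁻¹ ∈ S) {x y b₁ b₂ : V4}
    (D : DualPair x y b₁ b₂) {u : V4}
    (hW : ∀ g ∈ S, altForm4 (ap g x) x = 0 ∧ altForm4 (ap g x) y = 0 ∧ altForm4 (ap g y) x = 0 ∧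
      altForm4 (ap g y) y = 0)
    (hfix : ∀ g ∈ S, altForm4 (ap g x) u = altForm4 x u ∧ altForm4 (ap g y) u = altForm4 y u)
    {g h : GL (Fin 4) F} (hg : g ∈ S) (hh : h ∈ S) :
    altForm4 (ap (g * h) u) u = altForm4 (ap g u) u + altForm4 (ap h u) u := by
  have hperp : ∀ p, (p = x ∨ p = y) → altForm4 (ap h u) p = altForm4 u p := by
    intro p hp
    obtain ⟨hrel, hinv⟩ := hS h hh
    have e := hfix h⁻¹ hinv
    calc altForm4 (ap h u) p = altForm4 (ap h u) (ap h (ap h⁻¹ p)) := by rw [ap_ap_inv]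
      _ = altForm4 (ap h⁻¹ p) u := by rw [bf_ap hrel, altForm4_comm]
      _ = altForm4 p u := by rcases hp with rfl | rfl; exacts [e.1, e.2]
      _ = _ := altForm4_comm p u
  set d := ap h u + u with hd
  have hd1 : altForm4 d x = 0 := by rw [hd, bf_add_left, hperp x (Or.inl rfl), CharTwo.add_self_eq_zero]
  have hd2 : altForm4 d y = 0 := by rw [hd, bf_add_left, hperp y (Or.inr rfl), CharTwo.add_self_eq_zero]
  have hdu : altForm4 (ap g d) u = altForm4 d u := by
    conv_lhs => rw [D.plane hd1 hd2]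
    conv_rhs => rw [D.plane hd1 hd2]
    simp only [ap_add, ap_smul, bf_add_left, bf_smul_left, (hfix g hg).1, (hfix g hg).2]
  rw [hd, bf_add_left, altForm4_self, add_zero] at hdu
  rw [ap_mul, ← hdu, ← bf_add_left, ap_add, add_left_comm,
    show ap g u + ap g u = 0 from funext fun i => CharTwo.add_self_eq_zero _, add_zero]

/-- The lift of the first dual vector. -/
noncomputable def liftOne (x b₁ b₂ : V4) (g : GL (Fin 4) F) : V4 := by
  classical exact if ap g x = x then b₁ else b₂

/-- The off-diagonal entry for elements permuting two centres is additive. -/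
theorem psi_mul {S : Set (GL (Fin 4) F)} (hS : ∀ g ∈ S, g ∈ relGroup F) {x y b₁ b₂ : V4}
    (hxy : x ≠ y) (D : DualPair x y b₁ b₂)
    (hperm : ∀ g ∈ S, (ap g x = x ∧ ap g y = y) ∨ (ap g x = y ∧ ap g y = x))
    {g h : GL (Fin 4) F} (hg : g ∈ S) (hh : h ∈ S) :
    altForm4 (ap (g * h) (liftOne x b₁ b₂ (g * h))) b₂ =
      altForm4 (ap g (liftOne x b₁ b₂ g)) b₂ + altForm4 (ap h (liftOne x b₁ b₂ h)) b₂ := by
  classical
  have hsymm := hperm h hh
  have hl1 : ∀ k : GL (Fin 4) F, ap k x = x → liftOne x b₁ b₂ k = b₁ := fun k e => by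
    simp [liftOne, e]
  have hl2 : ∀ k : GL (Fin 4) F, ap k x = y → liftOne x b₁ b₂ k = b₂ := fun k e => by
    simp [liftOne, e, hxy.symm]
  have hmove : ∀ p q : V4, ap h p = q → ∀ u, altForm4 (ap h u) q = altForm4 u p := fun p q e u => by
    rw [← e, bf_ap (hS h hh)]
  have h2 : ∀ m : V4, m + m = 0 := fun m => funext fun i => CharTwo.add_self_eq_zero (m i)
  have e1 : altForm4 b₁ x = 1 := by rw [altForm4_comm, D.x1]
  have e2 : altForm4 b₁ y = 0 := by rw [altForm4_comm, D.y1]
  have e3 : altForm4 b₂ x = 0 := by rw [altForm4_comm, D.x2]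
  have e4 : altForm4 b₂ y = 1 := by rw [altForm4_comm, D.y2]
  -- `p` lifts `b₁` and `q` lifts `b₂` under `h`
  obtain ⟨p, q, hp, hq, hpx, hpy, hqx, hqy, hpq, hP, hQ⟩ : ∃ p q, liftOne x b₁ b₂ h = p ∧ True ∧
      altForm4 (ap h p) x = 1 ∧ altForm4 (ap h p) y = 0 ∧ altForm4 (ap h q) x = 0 ∧
      altForm4 (ap h q) y = 1 ∧ altForm4 p q = 0 ∧
      (∀ g', ap g' x = x → liftOne x b₁ b₂ (g' * h) = p ∨ ap g' y ≠ y) ∧
      (∀ g', ap g' x = y → ap g' y = x → liftOne x b₁ b₂ (g' * h) = q) := by
    rcases hsymm with ⟨a, b⟩ | ⟨a, b⟩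
    · refine ⟨b₁, b₂, hl1 h a, trivial, by rw [hmove x x a, e1], by rw [hmove y y b, e2],
        by rw [hmove x x a, e3], by rw [hmove y y b, e4], D.bb,
        fun g' e => Or.inl (hl1 _ (by rw [ap_mul, a, e])), fun g' e _ => hl2 _ (by rw [ap_mul, a, e])⟩
    · refine ⟨b₂, b₁, hl2 h a, trivial, by rw [hmove y x b, e4], by rw [hmove x y a, e3],
        by rw [hmove y x b, e2], by rw [hmove x y a, e1], by rw [altForm4_comm, D.bb],
        fun g' _ => ?_, fun g' _ e => hl1 _ (by rw [ap_mul, a, e])⟩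
      by_cases e : ap g' y = y
      · exact Or.inl (hl2 _ (by rw [ap_mul, a, e]))
      · exact Or.inr e
  obtain ⟨d, hd⟩ : ∃ d, d = ap h p + b₁ := ⟨_, rfl⟩
  obtain ⟨d', hd'⟩ : ∃ d', d' = ap h q + b₂ := ⟨_, rfl⟩
  have hdp := D.plane (v := d) (by rw [hd, bf_add_left, hpx, e1, CharTwo.add_self_eq_zero])
    (by rw [hd, bf_add_left, hpy, e2, add_zero])
  have hdq := D.plane (v := d') (by rw [hd', bf_add_left, hqx, e3, add_zero])
    (by rw [hd', bf_add_left, hqy, e4, CharTwo.add_self_eq_zero])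
  have hd2 : altForm4 d b₂ = altForm4 (ap h p) b₂ := by rw [hd, bf_add_left, D.bb, add_zero]
  have hd1 : altForm4 d' b₁ = altForm4 (ap h q) b₁ := by
    rw [hd', bf_add_left, altForm4_comm b₂ b₁, D.bb, add_zero]
  have hhp : ap h p = b₁ + d := by rw [hd, add_left_comm, h2, add_zero]
  have hhq : ap h q = b₂ + d' := by rw [hd', add_left_comm, h2, add_zero]
  have hsym : altForm4 (ap h q) b₁ = altForm4 (ap h p) b₂ := by
    have h0 : altForm4 (ap h p) (ap h q) = 0 := by rw [bf_ap (hS h hh), hpq]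
    have hdd : altForm4 d d' = 0 := by
      rw [hdp, hdq]
      simp [bf_add_left, bf_add_right, bf_smul_left, bf_smul_right, altForm4_self, D.xy,
        altForm4_comm y x]
    rw [hhp, hhq, bf_add_left, bf_add_right, bf_add_right, D.bb, hdd, zero_add, add_zero] at h0
    exact hd1.symm.trans ((altForm4_comm _ _).trans ((CharTwo.add_eq_zero.1 h0).trans hd2))
  rw [hp]
  rcases hperm g hg with ⟨a, b⟩ | ⟨a, b⟩
  · rw [(hP g a).resolve_right (not_not.2 b), hl1 g a, ap_mul, hhp, ap_add, bf_add_left]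
    congr 1
    conv_lhs => rw [hdp, ap_add, ap_smul, ap_smul, a, b, ← hdp]
    rw [hd2, ← hhp]
  · rw [hQ g a b, hl2 g a, ap_mul, hhq, ap_add, bf_add_left]
    congr 1
    conv_lhs => rw [hdq, ap_add, ap_smul, ap_smul, a, b, bf_add_left, bf_smul_left, bf_smul_left,
      D.x2, D.y2, mul_zero, mul_one, add_zero, hd1, hsym]

/-- If every centre carries at most one transvection, there are none. -/
theorem no_transvection_of_unique (G : Geom P)
    (hu : ∀ a c c', a ≠ 0 → c ≠ 0 → c' ≠ 0 → tr4 a c ∈ P → tr4 a c' ∈ P → c = c') :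
    ∀ g ∈ P, ¬ IsT g := by
  classical
  rintro g₀ hg₀ ⟨a₀, c₀, ha₀, hc₀, rfl⟩
  have hU := uniqueCentre_of hu
  obtain ⟨s, hs⟩ := (Finite.injective_iff_surjective.1
    (show Function.Injective fun t : F => t * t from fun p q h =>
      CharTwo.sq_injective (show p ^ 2 = q ^ 2 by rw [pow_two, pow_two]; exact h))) c₀
  have hx₀ : Centre P (s • a₀) := by
    have hs0 : s ≠ 0 := fun e => hc₀ (by rw [← hs, e]; simp)
    refine ⟨smul_ne_zero hs0 ha₀, ?_⟩
    rw [tr4, CfsgLib.Geometric.Symp.T_smul, mul_one, show s * s = c₀ from hs]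
    exact hg₀
  haveI : Finite (GL (Fin 4) F) := inferInstance
  haveI := G.simple
  haveI : Fact (Nat.Prime 2) := ⟨Nat.prime_two⟩
  obtain ⟨p₁, p₂, hpne⟩ := G.noncomm
  obtain ⟨S⟩ : Nonempty (Sylow 2 P) := inferInstance
  let tP : ∀ v : V4, Centre P v → P := fun v hv => ⟨tr4 v 1, hv.2⟩
  let InS : V4 → Prop := fun v => ∃ hv : Centre P v, tP v hv ∈ (S : Subgroup P)
  have hord : ∀ v hv, orderOf (tP v hv) = 2 := by
    intro v hv
    refine orderOf_eq_prime ?_ ?_
    · rw [pow_two]; exact Subtype.ext (tr4_mul_self v)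
    · intro e; exact tr4_ne_one hv.1 (congrArg Subtype.val e)
  have hconjP : ∀ (g : P) v (hv : Centre P v), g * tP v hv * g⁻¹ = tP (ap (g : GL (Fin 4) F) v)
      (Centre.map G g.2 hv) := fun g v hv => Subtype.ext (conj_tr4 (G.le g.2) v 1)
  have hmapS : ∀ g ∈ (S : Subgroup P), ∀ v, InS v → InS (ap ((g : P) : GL (Fin 4) F) v) := by
    rintro g hg v ⟨hv, hvS⟩
    exact ⟨Centre.map G g.2 hv, hconjP g v hv ▸ mul_mem (mul_mem hg hvS) (inv_mem hg)⟩
  have horth : ∀ v v', InS v → InS v' → altForm4 v v' = 0 := by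
    rintro v v' ⟨hv, hvS⟩ ⟨hv', hv'S⟩
    obtain ⟨k, hk⟩ := S.2 ⟨_, mul_mem hvS hv'S⟩
    exact orth_of_pow (k := k) (by simpa [tP] using congrArg (fun q : (S : Subgroup P) => ((q : P) : GL (Fin 4) F)) hk)
  obtain ⟨x, hx⟩ : ∃ x, InS x := by
    obtain ⟨T, hT⟩ := (IsPGroup.of_card (p := 2) (n := 1)
      (by rw [Nat.card_zpowers, hord _ hx₀, pow_one]) : IsPGroup 2 (Subgroup.zpowers (tP _ hx₀))).exists_le_sylow
    obtain ⟨g, hg⟩ := MulAction.exists_smul_eq P T S
    refine ⟨ap (g : GL (Fin 4) F) (s • a₀), Centre.map G g.2 hx₀, ?_⟩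
    rw [← hconjP g _ hx₀]
    rw [← hg]
    exact ⟨_, hT (Subgroup.mem_zpowers _), rfl⟩
  -- a second centre
  obtain ⟨y, hy, hyx⟩ : ∃ y, InS y ∧ y ≠ x := by
    by_contra hno
    have honly : ∀ v, InS v → v = x := fun v hv => by_contra fun h => hno ⟨v, hv, h⟩
    obtain ⟨hx', hxS⟩ := hx
    have h2 : 2 ∣ Nat.card P := hord x hx' ▸ orderOf_dvd_natCard _
    have hO : Cfsg.oddCore P = ⊥ := by
      refine (sSup_eq_bot).2 fun N ⟨hN, hcop⟩ => ?_
      refine (hN.eq_bot_or_eq_top).resolve_right fun e => ?_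
      rw [e, Subgroup.card_top] at hcop
      exact absurd (Nat.Coprime.eq_one_of_dvd hcop.symm h2) (by norm_num)
    have hc := CfsgLib.Involutions.mem_center_of_isolated S (hord x hx') (fun g hg => by
      rw [hconjP g x hx'] at hg ⊢
      exact Subtype.ext (by show tr4 _ 1 = tr4 x 1; rw [honly _ ⟨Centre.map G g.2 hx', hg⟩])) hO
    rcases IsSimpleGroup.eq_bot_or_eq_top_of_normal (Subgroup.center P) inferInstance with e | e
    · rw [e, Subgroup.mem_bot] at hc
      have := hord x hx'
      rw [hc, orderOf_one] at this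
      omega
    · exact hpne (Subgroup.mem_center_iff.1 (e ▸ Subgroup.mem_top p₂) p₁)
  obtain ⟨hxC, hxS⟩ := hx
  obtain ⟨hyC, hyS⟩ := hy
  have hxI : InS x := ⟨hxC, hxS⟩
  have hyI : InS y := ⟨hyC, hyS⟩
  -- it is enough to find an additive function
  suffices key : ∃ φ : P → F, (∀ g ∈ (S : Subgroup P), ∀ h ∈ (S : Subgroup P), φ (g * h) = φ g + φ h) ∧
      ∀ v (hv : Centre P v), tP v hv ∈ (S : Subgroup P) → φ (tP v hv) = 1 by
    obtain ⟨φ, hφ, hφ1⟩ := key
    letI := ZMod.algebra F 2
    obtain ⟨τ, hτ⟩ : ∃ τ : F →ₗ[ZMod 2] ZMod 2, τ 1 = 1 := by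
      obtain ⟨τ, hτ, -⟩ := Submodule.exists_dual_map_eq_bot_of_notMem
        (p := (⊥ : Submodule (ZMod 2) F)) (x := (1 : F)) (by simp) inferInstance
      refine ⟨τ, ?_⟩
      exact zmod_two_eq_one _ hτ
    let χ : (S : Subgroup P) →* Multiplicative (ZMod 2) :=
      MonoidHom.mk' (fun g => Multiplicative.ofAdd (τ (φ g)))
        (fun g h => by rw [Subgroup.coe_mul, hφ _ g.2 _ h.2, map_add]; rfl)
    set M := χ.ker.map (S : Subgroup P).subtype with hM
    have hMS : ∀ v hv, tP v hv ∉ M := by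
      rintro v hv ⟨w, hw, hwv⟩
      have hwS : tP v hv ∈ (S : Subgroup P) := hwv ▸ w.2
      have : Multiplicative.ofAdd (τ (φ (w : P))) = 1 := hw
      rw [show (w : P) = tP v hv from hwv, hφ1 v hv hwS, hτ] at this
      exact absurd this ofAdd_one_ne
    have hidx : M.relIndex (S : Subgroup P) = 2 := by
      show (M.subgroupOf (S : Subgroup P)).index = 2
      rw [hM, Subgroup.subgroupOf, Subgroup.comap_map_eq_self_of_injective (Subgroup.subtype_injective _),
        Subgroup.index_ker]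
      have hr : χ.range = ⊤ := by
        refine MonoidHom.range_eq_top.2 fun q => ?_
        rcases zmod_two_cases (Multiplicative.toAdd q) with e | e
        · exact ⟨1, by rw [map_one]; exact Multiplicative.toAdd.injective e.symm⟩
        · exact ⟨⟨_, hxS⟩, Multiplicative.toAdd.injective (by
            show τ (φ (tP x hxC)) = _
            rw [hφ1 x hxC hxS, hτ, e])⟩
      rw [hr, Subgroup.card_top, Nat.card_congr Multiplicative.toAdd, Nat.card_zmod]
    obtain ⟨N, hN, hN2, -⟩ := CfsgLib.InvChar.exists_index_two_not_mem S M hidx 1 le_rfl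
      (fun q _ hq => by
        have : q ≠ 1 := fun e => hq (e ▸ one_mem M)
        have h1 : orderOf q ≠ 1 := fun e => this (orderOf_eq_one_iff.1 e)
        have := orderOf_pos q
        norm_num; omega)
      (tP x hxC) hxS (by rw [hord x hxC, pow_one]) (fun g => by rw [hconjP g x hxC]; exact hMS _ (Centre.map G g.2 hxC))
    rcases hN.eq_bot_or_eq_top with e | e
    · rw [e, Subgroup.index_bot] at hN2
      haveI : IsCyclic P := isCyclic_of_prime_card hN2
      exact hpne (IsCyclic.isMulCommutative.is_comm.comm p₁ p₂)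
    · rw [e, Subgroup.index_top] at hN2
      omega
  have hrel : ∀ g : P, (g : GL (Fin 4) F) ∈ relGroup F := fun g => G.le g.2
  let SS : Set (GL (Fin 4) F) := {g | ∃ h : g ∈ P, (⟨g, h⟩ : P) ∈ (S : Subgroup P)}
  have hSS : ∀ g ∈ SS, g ∈ relGroup F ∧ g⁻¹ ∈ SS := by
    rintro g ⟨h, hs'⟩
    exact ⟨G.le h, P.inv_mem h, inv_mem (x := (⟨g, h⟩ : P)) hs'⟩
  by_cases htri : ∃ z, InS z ∧ z = x + y
  · -- the triangle
    obtain ⟨z, hz, hzeq⟩ := htri
    obtain ⟨b₁, b₂, D⟩ := DualPair.exists (horth x y hxI hyI)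
      (Centre.notMem_span hU hyC hxC hyx) (Centre.notMem_span hU hxC hyC hyx.symm)
    have hzx : z ≠ x := fun e => hyC.1 (by
      have := hzeq.symm.trans e
      simpa using this)
    have hzy : z ≠ y := fun e => hxC.1 (by
      have := hzeq.symm.trans e
      simpa using this)
    have hall : ∀ v, InS v → v = x ∨ v = y ∨ v = z := by
      intro v hv
      by_contra hne
      simp only [not_or] at hne
      obtain ⟨hvx, hvy, hvz⟩ := hne
      have hplane := D.plane (horth v x hv hxI) (horth v y hv hyI)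
      rcases affine_or_triangle G hU D hxC hyC hv.1 hvx hvy hplane with h | ⟨h, h'⟩
      · obtain ⟨c₁, c₂, D'⟩ := DualPair.exists (horth x z hxI hz)
          (Centre.notMem_span hU hz.1 hxC hzx) (Centre.notMem_span hU hxC hz.1 hzx.symm)
        set α := altForm4 v b₁
        set β := altForm4 v b₂
        have hv' : v = (α + β) • x + β • z := by
          rw [hzeq, add_smul, smul_add, ← add_assoc, add_assoc (α • x),
            show β • x + β • x = 0 by rw [← add_smul, CharTwo.add_self_eq_zero, zero_smul], add_zero]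
          exact hplane
        rcases affine_or_triangle G hU D' hxC hz.1 hv.1 hvx hvz hv' with k | ⟨k, k'⟩
        · rw [h] at k
          have hβ : β = 0 := by linear_combination k
          rw [hβ, add_zero] at h
          exact hvx (by rw [hplane, h, hβ]; simp)
        · rw [k'] at h
          have hα : α = 0 := by linear_combination h
          exact hvy (by rw [hplane, hα, k']; simp)
      · exact hvz (by rw [hplane, h, h', one_smul, one_smul, hzeq])
    -- a fixed centre
    let T := {v : V4 // InS v}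
    letI act : MulAction (S : Subgroup P) T :=
      { smul := fun g v => ⟨ap ((g : P) : GL (Fin 4) F) v, hmapS _ g.2 _ v.2⟩
        one_smul := fun v => Subtype.ext (ap_one _)
        mul_smul := fun g g' v => Subtype.ext (ap_mul _ _ _) }
    have hT3 : Nat.card T = 3 := by
      have hset : {v : V4 | InS v} = {x, y, z} := by
        ext v
        constructor
        · exact fun hv => hall v hv
        · rintro (rfl | rfl | rfl)
          exacts [hxI, hyI, hz]
      show Nat.card ({v : V4 | InS v} : Set V4) = 3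
      rw [hset, Nat.card_coe_set_eq, Set.ncard_eq_three]
      exact ⟨x, y, z, hyx.symm, hzx.symm, hzy.symm, rfl⟩
    haveI : Finite T := Subtype.finite
    have hmod := S.2.card_modEq_card_fixedPoints T
    rw [hT3] at hmod
    obtain ⟨⟨⟨z₁, hz₁⟩, hfix⟩⟩ : Nonempty (MulAction.fixedPoints (S : Subgroup P) T) := by
      by_contra hno
      rw [not_nonempty_iff] at hno
      rw [Nat.card_of_isEmpty] at hmod
      exact absurd hmod (by decide)
    -- rename the other two
    obtain ⟨x₁, y₁, hx₁, hy₁, hne₁, hz₁eq, hall₁⟩ : ∃ x₁ y₁, InS x₁ ∧ InS y₁ ∧ x₁ ≠ y₁ ∧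
        z₁ = x₁ + y₁ ∧ ∀ v, InS v → v = x₁ ∨ v = y₁ ∨ v = z₁ := by
      have h2 : ∀ m : V4, m + m = 0 := fun m => funext fun i => CharTwo.add_self_eq_zero (m i)
      rcases hall z₁ hz₁ with e | e | e
      · exact ⟨y, z, hyI, hz, hzy.symm, by rw [e, hzeq, add_left_comm, h2, add_zero],
          fun v hv => by rcases hall v hv with r | r | r <;> simp [r, e]⟩
      · exact ⟨x, z, hxI, hz, hzx.symm, by rw [e, hzeq, ← add_assoc, h2, zero_add],
          fun v hv => by rcases hall v hv with r | r | r <;> simp [r, e]⟩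
      · exact ⟨x, y, hxI, hyI, hyx.symm, e.trans hzeq,
          fun v hv => by rcases hall v hv with r | r | r <;> simp [r, e]⟩
    obtain ⟨c₁, c₂, D₁⟩ := DualPair.exists (horth x₁ y₁ hx₁ hy₁)
      (Centre.notMem_span hU hy₁.1 hx₁.1 hne₁.symm) (Centre.notMem_span hU hx₁.1 hy₁.1 hne₁)
    have hperm : ∀ g ∈ SS, (ap g x₁ = x₁ ∧ ap g y₁ = y₁) ∨ (ap g x₁ = y₁ ∧ ap g y₁ = x₁) := by
      rintro g ⟨hgP, hgS⟩
      have hgz : ap g z₁ = z₁ := congrArg Subtype.val (hfix ⟨⟨g, hgP⟩, hgS⟩)
      have hxne : ap g x₁ ≠ z₁ := fun e => by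
        have := ap_injective g (e.trans hgz.symm)
        exact hy₁.1.1 (by rw [hz₁eq] at this; simpa using this.symm)
      have hyne : ap g y₁ ≠ z₁ := fun e => by
        have := ap_injective g (e.trans hgz.symm)
        exact hx₁.1.1 (by rw [hz₁eq] at this; simpa using this.symm)
      have hd : ap g x₁ ≠ ap g y₁ := fun e => hne₁ (ap_injective g e)
      rcases hall₁ _ (hmapS ⟨g, hgP⟩ hgS x₁ hx₁) with e | e | e
      · refine Or.inl ⟨e, ?_⟩
        rcases hall₁ _ (hmapS ⟨g, hgP⟩ hgS y₁ hy₁) with e' | e' | e'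
        exacts [absurd (e.trans e'.symm) hd, e', absurd e' hyne]
      · refine Or.inr ⟨e, ?_⟩
        rcases hall₁ _ (hmapS ⟨g, hgP⟩ hgS y₁ hy₁) with e' | e' | e'
        exacts [e', absurd (e.trans e'.symm) hd, absurd e' hyne]
      · exact absurd e hxne
    obtain ⟨u, hu'⟩ : ∃ u, u = c₁ + c₂ := ⟨_, rfl⟩
    have hxu : altForm4 x₁ u = 1 := by rw [hu', bf_add_right, D₁.x1, D₁.x2, add_zero]
    have hyu : altForm4 y₁ u = 1 := by rw [hu', bf_add_right, D₁.y1, D₁.y2, zero_add]
    have hyx' : altForm4 y₁ x₁ = 0 := by rw [altForm4_comm, D₁.xy]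
    have hW : ∀ g ∈ SS, altForm4 (ap g x₁) x₁ = 0 ∧ altForm4 (ap g x₁) y₁ = 0 ∧
        altForm4 (ap g y₁) x₁ = 0 ∧ altForm4 (ap g y₁) y₁ = 0 := by
      intro g hg
      rcases hperm g hg with ⟨p, q⟩ | ⟨p, q⟩ <;> simp [p, q, altForm4_self, D₁.xy, hyx']
    have hfix' : ∀ g ∈ SS, altForm4 (ap g x₁) u = altForm4 x₁ u ∧ altForm4 (ap g y₁) u = altForm4 y₁ u := by
      intro g hg
      rcases hperm g hg with ⟨p, q⟩ | ⟨p, q⟩ <;> simp [p, q, hxu, hyu]
    refine ⟨fun g => altForm4 (ap (g : GL (Fin 4) F) u) u +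
      altForm4 (ap (g : GL (Fin 4) F) (liftOne x₁ c₁ c₂ (g : GL (Fin 4) F))) c₂, ?_, ?_⟩
    · intro g hg h hh
      simp only [Subgroup.coe_mul]
      rw [phi_mul hSS D₁ hW hfix' ⟨g.2, hg⟩ ⟨h.2, hh⟩,
        psi_mul (fun g hg => (hSS g hg).1) hne₁ D₁ hperm ⟨g.2, hg⟩ ⟨h.2, hh⟩]
      ring
    · intro v hv hvS
      have hvI : InS v := ⟨hv, hvS⟩
      have hfix1 : ap (tr4 v (1 : F)) x₁ = x₁ := by
        rw [ap_tr4, horth x₁ v hx₁ hvI, mul_zero, zero_smul, add_zero]
      show altForm4 (ap (tr4 v 1) u) u + altForm4 (ap (tr4 v 1) (liftOne x₁ c₁ c₂ (tr4 v 1))) c₂ = 1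
      rw [show liftOne x₁ c₁ c₂ (tr4 v (1 : F)) = c₁ by simp [liftOne, hfix1], ap_tr4, ap_tr4,
        bf_add_left, bf_add_left, altForm4_self, bf_smul_left, bf_smul_left, D₁.bb, one_mul, one_mul]
      have f1 : altForm4 c₁ x₁ = 1 := by rw [altForm4_comm, D₁.x1]
      have f2 : altForm4 c₁ y₁ = 0 := by rw [altForm4_comm, D₁.y1]
      have f3 : altForm4 u x₁ = 1 := by rw [altForm4_comm, hxu]
      have f4 : altForm4 u y₁ = 1 := by rw [altForm4_comm, hyu]
      rcases hall₁ v hvI with rfl | rfl | rfl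
      · rw [f3, hxu, f1, D₁.x2]; ring
      · rw [f4, hyu, f2, D₁.y2]; ring
      · rw [hz₁eq, bf_add_right, bf_add_right, bf_add_left, bf_add_left, f1, f2, f3, f4, hxu, hyu,
          D₁.x2, D₁.y2]
        simp [CharTwo.add_self_eq_zero]
  · -- the affine set
    obtain ⟨b₁, b₂, D⟩ := DualPair.exists (horth x y hxI hyI)
      (Centre.notMem_span hU hyC hxC hyx) (Centre.notMem_span hU hxC hyC hyx.symm)
    set u := b₁ + b₂ with hu'
    have hone : ∀ v, InS v → altForm4 v u = 1 := by
      intro v hv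
      have hplane := D.plane (horth v x hv hxI) (horth v y hv hyI)
      rw [hu', bf_add_right]
      by_cases hvx : v = x
      · rw [hvx, D.x1, D.x2, add_zero]
      by_cases hvy : v = y
      · rw [hvy, D.y1, D.y2, zero_add]
      rcases affine_or_triangle G hU D hxC hyC hv.1 hvx hvy hplane with h | ⟨h, h'⟩
      · exact h
      · exact absurd ⟨v, hv, by rw [hplane, h, h', one_smul, one_smul]⟩ htri
    refine ⟨fun g => altForm4 (ap (g : GL (Fin 4) F) u) u, ?_, ?_⟩
    · intro g hg h hh
      simp only [Subgroup.coe_mul]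
      refine phi_mul hSS D ?_ ?_ ⟨g.2, hg⟩ ⟨h.2, hh⟩
      · rintro g ⟨hgP, hgS⟩
        have ix := hmapS ⟨g, hgP⟩ hgS x hxI
        have iy := hmapS ⟨g, hgP⟩ hgS y hyI
        exact ⟨horth _ _ ix hxI, horth _ _ ix hyI, horth _ _ iy hxI, horth _ _ iy hyI⟩
      · rintro g ⟨hgP, hgS⟩
        exact ⟨(hone _ (hmapS ⟨g, hgP⟩ hgS x hxI)).trans (hone x hxI).symm,
          (hone _ (hmapS ⟨g, hgP⟩ hgS y hyI)).trans (hone y hyI).symm⟩
    · intro v hv hvS
      have h1 := hone v ⟨hv, hvS⟩
      show altForm4 (ap (tr4 v 1) u) u = 1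
      rw [ap_tr4, bf_add_left, altForm4_self, bf_smul_left, one_mul, zero_add, altForm4_comm u v, h1,
        one_mul]

end CfsgLib.SpFourResidual
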