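import Cfsg.Agent.Lib.SpFourResidual.Setup
import Cfsg.Agent.Lib.SLThreeResidual.RootDickson

/-!
# A centre carries at most one transvection

Two transvections with one centre force the invariants of all centres into a subfield, so the
subgroup would be the whole symplectic group.
-/

set_option autoImplicit false
set_option linter.unusedSectionVars false

open Matrix
open scoped MatrixGroups
open Cfsg.Lie (altForm4)
open CfsgLib.Parabolic.SpFour
open CfsgLib.Geometric
open CfsgLib.ClassicalLinear (upS upS_coe)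
open CfsgLib.SL2.Dickson (lowS lowS_coe transl mem_transl)

namespace CfsgLib.SpFourResidual

variable {F : Type*} [Field F] [CharP F 2]

local notation "V" => (Fin 4 → F)
local notation "hF" => (isSymplecticForm (F := F))

theorem mem_isom {g : GL (Fin 4) F} (hg : g ∈ relGroup F) : g ∈ isom (altForm4 : V → V → F) :=
  mem_isom_iff.2 fun u v => altForm4_map hg u v

theorem ap_tr4_apply (a : V) (c : F) (x : V) : ap (tr4 a c) x = x + (c * altForm4 x a) • a :=
  Symp.ap_T hF a c x

section
variable {P : Subgroup (GL (Fin 4) F)} (G : Geom P)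
include G

theorem conj_mem {g : GL (Fin 4) F} (hg : g ∈ P) {a : V} {c : F} (h : tr4 a c ∈ P) :
    tr4 (ap g a) c ∈ P := by
  rw [tr4, ← Symp.conj_T hF (mem_isom (G.le hg))]
  exact mul_mem (mul_mem hg h) (inv_mem hg)

theorem ap_form {g : GL (Fin 4) F} (hg : g ∈ P) (u v : V) :
    altForm4 (ap g u) (ap g v) = altForm4 u v :=
  altForm4_map (G.le hg) u v

/-- A non-zero vector has an image not orthogonal to any given non-zero vector. -/
theorem exists_orbit_ne {a x : V} (ha : a ≠ 0) (hx : x ≠ 0) :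
    ∃ g ∈ P, altForm4 x (ap g a) ≠ 0 := by
  by_contra h
  push Not at h
  let W : Submodule F V := Submodule.span F {y | ∃ g ∈ P, ap g a = y}
  have hinv : ∀ s ∈ Cfsg.Geo.matrixSet P, W.map (Matrix.toLin' s) ≤ W := by
    rintro s ⟨g, hg, rfl⟩
    rw [Submodule.map_span, Submodule.span_le]
    rintro y ⟨z, ⟨k, hk, rfl⟩, rfl⟩
    exact Submodule.subset_span ⟨g * k, mul_mem hg hk, by rw [ap_mul, Matrix.toLin'_apply]; rfl⟩
  rcases G.absIrred.1 W hinv with hW | hW
  · exact ha (by
      have : a ∈ W := Submodule.subset_span ⟨1, one_mem P, ap_one a⟩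
      rwa [hW, Submodule.mem_bot] at this)
  · have hle : W ≤ LinearMap.ker ((Symp.fl hF).flip x) := by
      rw [Submodule.span_le]
      rintro y ⟨g, hg, rfl⟩
      simpa using h g hg
    rw [hW] at hle
    obtain ⟨y, hy⟩ := (isSymplecticForm.nondegenerate x hx).2
    exact hy (by simpa using hle (Submodule.mem_top : y ∈ (⊤ : Submodule F V)))

/-- Conjugates of a non-trivial transvection generate. -/
theorem closure_orbit {a : V} {c : F} (ht : tr4 a c ∈ P) (hne : tr4 a c ≠ 1) :
    P ≤ Subgroup.closure {t | ∃ g ∈ P, tr4 (ap g a) c = t} := by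
  set S : Set (GL (Fin 4) F) := {t | ∃ g ∈ P, tr4 (ap g a) c = t} with hS
  let K : Subgroup P := (Subgroup.closure S).subgroupOf P
  have hnorm : ∀ k ∈ P, ∀ t ∈ Subgroup.closure S, k * t * k⁻¹ ∈ Subgroup.closure S := by
    intro k hk t ht
    induction ht using Subgroup.closure_induction with
    | mem t ht =>
      obtain ⟨g, hg, rfl⟩ := ht
      refine Subgroup.subset_closure ⟨k * g, mul_mem hk hg, ?_⟩
      rw [ap_mul, tr4, tr4, Symp.conj_T hF (mem_isom (G.le hk))]
    | one => simp
    | mul x y _ _ hx hy =>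
      rw [show k * (x * y) * k⁻¹ = (k * x * k⁻¹) * (k * y * k⁻¹) by group]
      exact mul_mem hx hy
    | inv x _ hx =>
      rw [show k * x⁻¹ * k⁻¹ = (k * x * k⁻¹)⁻¹ by group]
      exact inv_mem hx
  haveI : K.Normal := ⟨fun t ht k => hnorm k k.2 t ht⟩
  have := G.simple
  rcases (inferInstance : K.Normal).eq_bot_or_eq_top with h | h
  · exfalso
    have hm : (⟨tr4 a c, ht⟩ : P) ∈ K :=
      Subgroup.mem_subgroupOf.2 (Subgroup.subset_closure ⟨1, one_mem P, by rw [ap_one]⟩)
    rw [h, Subgroup.mem_bot] at hm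
    exact hne (congrArg Subtype.val hm)
  · intro g hg
    exact Subgroup.mem_subgroupOf.1 (h ▸ Subgroup.mem_top (⟨g, hg⟩ : P))

end

/-- The matrices acting on the plane of `a`, `b` (`f a b = 1`) and trivially on its orthogonal. -/
def planeLin (a b : V) (A : Matrix (Fin 2) (Fin 2) F) : V →ₗ[F] V :=
  LinearMap.id + ((A 0 0 - 1) • Symp.fl hF b + A 0 1 • Symp.fl hF a).smulRight a +
    (A 1 0 • Symp.fl hF b + (A 1 1 - 1) • Symp.fl hF a).smulRight b

theorem planeLin_apply (a b : V) (A : Matrix (Fin 2) (Fin 2) F) (x : V) :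
    planeLin a b A x = x + ((A 0 0 - 1) * altForm4 x b + A 0 1 * altForm4 x a) • a +
      (A 1 0 * altForm4 x b + (A 1 1 - 1) * altForm4 x a) • b := by
  simp [planeLin]

theorem planeLin_mul {a b : V} (hab : altForm4 a b = 1) (A B : Matrix (Fin 2) (Fin 2) F) :
    planeLin a b (A * B) = planeLin a b A ∘ₗ planeLin a b B := by
  refine LinearMap.ext fun x => ?_
  have hba : altForm4 b a = 1 := by rw [altForm4_comm]; exact hab
  simp only [LinearMap.comp_apply, planeLin_apply, (hF).bilinear.add_left, (hF).bilinear.smul_left,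
    altForm4_self, hab, hba, Matrix.mul_apply, Fin.sum_univ_two]
  match_scalars <;> ring

/-- The homomorphism of `SL₂` given by `planeLin`. -/
noncomputable def planeHom {a b : V} (hab : altForm4 a b = 1) : SL(2, F) →* GL (Fin 4) F :=
  MonoidHom.toHomUnits
    { toFun := fun A => LinearMap.toMatrix' (planeLin a b (A : Matrix (Fin 2) (Fin 2) F))
      map_one' := by
        rw [show planeLin a b ((1 : SL(2, F)) : Matrix (Fin 2) (Fin 2) F) = LinearMap.id from
          LinearMap.ext fun x => by simp [planeLin_apply]]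
        exact LinearMap.toMatrix'_id
      map_mul' := fun A B => by
        rw [Matrix.SpecialLinearGroup.coe_mul, planeLin_mul hab, LinearMap.toMatrix'_comp] }

theorem ap_planeHom {a b : V} (hab : altForm4 a b = 1) (A : SL(2, F)) (x : V) :
    ap (planeHom hab A) x = planeLin a b (A : Matrix (Fin 2) (Fin 2) F) x := by
  rw [ap_def]
  exact LinearMap.toMatrix'_mulVec _ _

theorem planeHom_upS {a b : V} (hab : altForm4 a b = 1) (t : F) : planeHom hab (upS t) = tr4 a t := by
  refine gl_ext fun x => ?_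
  rw [ap_planeHom, ap_tr4_apply, planeLin_apply, upS_coe]
  simp

theorem planeHom_lowS {a b : V} (hab : altForm4 a b = 1) (t : F) :
    planeHom hab (lowS t) = tr4 b t := by
  refine gl_ext fun x => ?_
  rw [ap_planeHom, ap_tr4_apply, planeLin_apply, lowS_coe]
  simp

theorem sq_surjective [Finite F] (R : Subfield F) {s : F} (hs : s * s ∈ R) : s ∈ R := by
  have hinj : Function.Injective fun x : R => x * x := fun x y h => by
    have h' := congrArg (fun z : R => ((z : F))) h
    simp only [MulMemClass.coe_mul, ← sq] at h'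
    exact Subtype.ext (CharTwo.sq_injective h')
  obtain ⟨y, hy⟩ := Finite.surjective_of_injective hinj ⟨s * s, hs⟩
  have h' := congrArg (fun z : R => ((z : F))) hy
  simp only [MulMemClass.coe_mul, ← sq] at h'
  rw [← CharTwo.sq_injective h']
  exact y.2

section
variable [Finite F] {P : Subgroup (GL (Fin 4) F)} (G : Geom P)
include G

/-- With two transvections at `a` the invariants generate a proper structure: a subfield `R`. -/
theorem exists_field {a : V} {x : F} (ha : a ≠ 0) (h1 : tr4 a 1 ∈ P) (hx : tr4 a x ∈ P)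
    (hx0 : x ≠ 0) (hx1 : x ≠ 1) :
    ∃ R : Subfield F, (∀ c ∈ R, tr4 a c ∈ P) ∧
      ∀ g ∈ P, ∀ g' ∈ P, altForm4 (ap g a) (ap g' a) ∈ R := by
  classical
  let T : Set F := {c | tr4 a c ∈ P}
  have key : ∀ g ∈ P, altForm4 a (ap g a) ≠ 0 →
      ∃ R : Subfield F, (R : Set F) = T ∧ altForm4 a (ap g a) ∈ R := by
    intro g hg hs
    set s := altForm4 a (ap g a) with hsdef
    set b : V := s⁻¹ • ap g a with hb
    have hab : altForm4 a b = 1 := by
      rw [hb, (hF).bilinear.smul_right, ← hsdef, inv_mul_cancel₀ hs]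
    let G₀ : Subgroup SL(2, F) := P.comap (planeHom hab)
    have hup : (transl G₀ : Set F) = T := by
      ext c
      show planeHom hab (upS c) ∈ P ↔ _
      rw [planeHom_upS]
      rfl
    have hlow : ∀ c ∈ T, lowS (s * s * c) ∈ G₀ := by
      intro c hc
      show planeHom hab (lowS _) ∈ P
      have e : s⁻¹ * s⁻¹ * (s * s * c) = c := by field_simp
      rw [planeHom_lowS, hb, tr4, Symp.T_smul hF, e]
      exact conj_mem G hg hc
    have h1' : (1 : F) ∈ transl G₀ := by rw [← SetLike.mem_coe, hup]; exact h1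
    have hx' : x ∈ transl G₀ := by rw [← SetLike.mem_coe, hup]; exact hx
    have h4 : 4 ≤ Nat.card (transl G₀) := by
      have hsub : ({0, 1, x, 1 + x} : Finset F) ≤ (transl G₀ : Set F).toFinite.toFinset := by
        intro c hc
        simp only [Finset.mem_insert, Finset.mem_singleton] at hc
        rw [Set.Finite.mem_toFinset, SetLike.mem_coe]
        rcases hc with rfl | rfl | rfl | rfl
        exacts [zero_mem _, h1', hx', add_mem h1' hx']
      have hcard : ({0, 1, x, 1 + x} : Finset F).card = 4 := by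
        have e1 : (1 : F) + x ≠ 0 := fun e => hx1 (CharTwo.add_eq_zero.1 e).symm
        have e2 : (1 : F) + x ≠ 1 := fun e => hx0 (by simpa using e)
        have e3 : (1 : F) + x ≠ x := fun e => one_ne_zero (α := F) (by simpa using e)
        rw [Finset.card_insert_of_notMem, Finset.card_insert_of_notMem,
          Finset.card_insert_of_notMem, Finset.card_singleton]
        · simpa using e3.symm
        · simp [hx1.symm, e2.symm]
        · simp [hx0.symm, e1.symm, (one_ne_zero (α := F)).symm]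
      calc 4 = ({0, 1, x, 1 + x} : Finset F).card := hcard.symm
        _ ≤ _ := Finset.card_le_card hsub
        _ = Nat.card (transl G₀) := (Nat.card_eq_card_finite_toFinset _).symm
    obtain ⟨R, hR, hprod⟩ := CfsgLib.SLThreeResidual.exists_subfield_of_transl
      (s₀ := s * s) (mul_ne_zero hs hs) (by simpa using hlow 1 h1) h4
    have hsq : s * s ∈ R := by simpa using hprod _ 1 (by simpa using hlow 1 h1) h1'
    have hTR : T ⊆ (R : Set F) := by
      intro c hc
      have h := hprod _ c (by simpa using hlow 1 h1) (by rw [← mem_transl, ← SetLike.mem_coe, hup]; exact hc)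
      have := R.mul_mem (R.inv_mem hsq) h
      rwa [← mul_assoc, inv_mul_cancel₀ (mul_ne_zero hs hs), one_mul] at this
    refine ⟨R, (Set.eq_of_subset_of_ncard_le hTR ?_ (Set.toFinite _)).symm, sq_surjective R hsq⟩
    rw [← Nat.card_coe_set_eq, ← Nat.card_coe_set_eq, ← hup]
    exact hR.le
  obtain ⟨g₀, hg₀, hne₀⟩ := exists_orbit_ne G ha ha
  obtain ⟨R, hR, -⟩ := key g₀ hg₀ hne₀
  refine ⟨R, fun c hc => ?_, fun g hg g' hg' => ?_⟩
  · have : c ∈ T := hR ▸ (hc : c ∈ (R : Set F))
    exact this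
  have e : altForm4 (ap g a) (ap g' a) = altForm4 a (ap (g⁻¹ * g') a) := by
    rw [← ap_form G (inv_mem hg) (ap g a), ap_inv_ap, ap_mul]
  rw [e]
  by_cases h0 : altForm4 a (ap (g⁻¹ * g') a) = 0
  · rw [h0]; exact R.zero_mem
  obtain ⟨R', hR', hmem⟩ := key _ (mul_mem (inv_mem hg) hg') h0
  rwa [SetLike.coe_injective (hR.trans hR'.symm)]

/-- The subfield of the invariants is everything. -/
theorem field_eq_top {a : V} {R : Subfield F} (ha : a ≠ 0)
    (hR : ∀ g ∈ P, ∀ g' ∈ P, altForm4 (ap g a) (ap g' a) ∈ R) : R = ⊤ := by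
  classical
  by_contra hne
  let O : Set V := {y | ∃ g ∈ P, ap g a = y}
  have hO : Submodule.span F O = ⊤ := by
    by_contra hspan
    obtain ⟨φ, hφ0, hφ⟩ := Submodule.exists_le_ker_of_lt_top _ (Ne.lt_top hspan)
    obtain ⟨z, hz⟩ := Symp.exists_eq_fl hF φ
    have hz0 : z ≠ 0 := fun e => hφ0 (by rw [← hz, e, map_zero])
    obtain ⟨g, hg, hne'⟩ := exists_orbit_ne G ha hz0
    refine hne' ?_
    have := hφ (Submodule.subset_span (⟨g, hg, rfl⟩ : ap g a ∈ O))
    rw [LinearMap.mem_ker, ← hz, Symp.fl_apply] at this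
    rwa [altForm4_comm]
  obtain ⟨s, hsO, hspan, hli⟩ := exists_linearIndependent F O
  have hb : Submodule.span F (Set.range ((↑) : s → V)) = ⊤ := by
    rw [Subtype.range_coe, hspan, hO]
  let bb := Module.Basis.mk hli hb.ge
  haveI : Fintype s := Fintype.ofFinite s
  have hcard : Fintype.card s = 4 := by
    rw [← Module.finrank_eq_card_basis bb]; simp
  let e : Fin 4 ≃ s := (Fintype.equivFinOfCardEq hcard).symm
  have hgi : ∀ i, ∃ g ∈ P, ap g a = (e i : V) := fun i => hsO (e i).2
  choose gi hgP hgi using hgi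
  let B : Matrix (Fin 4) (Fin 4) F := Matrix.of fun i j => (e j : V) i
  have hcol : ∀ j, B *ᵥ Pi.single j 1 = (e j : V) := fun j => by
    rw [Matrix.mulVec_single_one]; rfl
  have hBu : IsUnit B := by
    rw [← Matrix.mulVec_injective_iff_isUnit]
    refine Matrix.mulVec_injective_iff.2 ?_
    exact hli.comp e e.injective
  obtain ⟨Bg, hBg⟩ : ∃ B' : GL (Fin 4) F, (B' : Matrix (Fin 4) (Fin 4) F) = B := ⟨hBu.unit, rfl⟩
  rw [← hBg] at hcol
  clear_value B
  clear hBu hBg B
  rename' Bg => B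
  refine G.noReal R hne ⟨B⁻¹, ?_⟩
  rintro _ ⟨g, hg, rfl⟩ i j
  set Bm : Matrix (Fin 4) (Fin 4) F := (B : Matrix (Fin 4) (Fin 4) F) with hBm
  have hgram : ∀ (k : GL (Fin 4) F), k ∈ P → ∀ i j,
      (Bmᵀ * (anti : Matrix (Fin 4) (Fin 4) F) * ((k : Matrix (Fin 4) (Fin 4) F) * Bm) :
        Matrix (Fin 4) (Fin 4) F) i j ∈ R := by
    intro k hk i j
    have e1 : (Bmᵀ * (anti : Matrix (Fin 4) (Fin 4) F) * ((k : Matrix (Fin 4) (Fin 4) F) * Bm) :
        Matrix (Fin 4) (Fin 4) F) i j
        = altForm4 (Bm *ᵥ Pi.single i 1)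
          ((k : Matrix (Fin 4) (Fin 4) F) *ᵥ (Bm *ᵥ Pi.single j 1)) := by
      rw [altForm4_eq, Matrix.mulVec_mulVec, Matrix.mulVec_mulVec, Matrix.mulVec_single_one,
        Matrix.mulVec_single_one]
      simp only [Matrix.mul_assoc]
      rfl
    rw [e1, hcol, hcol, ← hgi i, ← hgi j, ← ap_def, ← ap_mul]
    exact hR _ (hgP i) _ (mul_mem hk (hgP j))
  let Gr0 : Matrix (Fin 4) (Fin 4) R :=
    Matrix.of fun i j => ⟨(Bmᵀ * (anti : Matrix (Fin 4) (Fin 4) F) * (((1 : GL (Fin 4) F) : Matrix (Fin 4) (Fin 4) F) * Bm) : Matrix (Fin 4) (Fin 4) F) i j, hgram 1 (one_mem P) i j⟩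
  let N0 : Matrix (Fin 4) (Fin 4) R :=
    Matrix.of fun i j => ⟨(Bmᵀ * (anti : Matrix (Fin 4) (Fin 4) F) * ((g : Matrix (Fin 4) (Fin 4) F) * Bm) : Matrix (Fin 4) (Fin 4) F) i j, hgram g hg i j⟩
  have hG0 : Gr0.map R.subtype = Bmᵀ * anti * Bm := by
    ext i j; simp [Gr0]
  have hN0 : N0.map R.subtype = Bmᵀ * anti * ((g : Matrix (Fin 4) (Fin 4) F) * Bm) := by
    ext i j; simp [N0]
  have hinv : (Bmᵀ * anti * Bm) * (((B⁻¹ : GL (Fin 4) F) : Matrix (Fin 4) (Fin 4) F) *
      (g : Matrix (Fin 4) (Fin 4) F) * Bm) = Bmᵀ * anti * ((g : Matrix (Fin 4) (Fin 4) F) * Bm) := by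
    simp only [Matrix.mul_assoc, hBm]
    rw [← Matrix.mul_assoc (B : Matrix (Fin 4) (Fin 4) F) ((B⁻¹ : GL (Fin 4) F) : Matrix (Fin 4) (Fin 4) F),
      Units.mul_inv, Matrix.one_mul]
  have hdetF : IsUnit (Bmᵀ * (anti : Matrix (Fin 4) (Fin 4) F) * Bm).det := by
    rw [← Matrix.isUnit_iff_isUnit_det]
    exact (((Matrix.isUnit_transpose _).2 B.isUnit).mul
      ⟨⟨anti, anti, anti_mul_self, anti_mul_self⟩, rfl⟩).mul B.isUnit
  have hdet : IsUnit Gr0.det := by
    rw [isUnit_iff_ne_zero] at hdetF ⊢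
    intro h0
    refine hdetF ?_
    rw [← hG0, ← RingHom.mapMatrix_apply, ← RingHom.map_det, h0, map_zero]
  have hfin : ((B⁻¹ : GL (Fin 4) F) : Matrix (Fin 4) (Fin 4) F) * (g : Matrix (Fin 4) (Fin 4) F) *
      Bm = (Gr0⁻¹ * N0).map R.subtype := by
    have h1 : (Gr0⁻¹).map R.subtype * (Bmᵀ * anti * Bm) = 1 := by
      rw [← hG0, ← Matrix.map_mul, Matrix.nonsing_inv_mul _ hdet]
      simp
    rw [Matrix.map_mul, hN0, ← hinv, ← Matrix.mul_assoc, h1, Matrix.one_mul]
  rw [inv_inv, ← hBm, hfin, Matrix.map_apply]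
  exact Subtype.mem _

/-- Two transvections at one centre are equal. -/
theorem tr4_unique {a : V} {c c' : F} (ha : a ≠ 0) (hc : c ≠ 0) (hc' : c' ≠ 0)
    (h : tr4 a c ∈ P) (h' : tr4 a c' ∈ P) : c = c' := by
  classical
  by_contra hne
  obtain ⟨l, hl⟩ : ∃ l : F, l * l = c := by
    obtain ⟨l, hl⟩ := Finite.surjective_of_injective (CharTwo.sq_injective (R := F)) c
    exact ⟨l, by rw [← sq]; exact hl⟩
  have hl0 : l ≠ 0 := fun e => hc (by rw [← hl, e, zero_mul])
  set v : V := l • a with hv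
  have hv0 : v ≠ 0 := smul_ne_zero hl0 ha
  set x : F := c' / c with hx
  have hx0 : x ≠ 0 := div_ne_zero hc' hc
  have hx1 : x ≠ 1 := fun e => hne ((div_eq_one_iff_eq hc).1 e).symm
  have h1 : tr4 v 1 ∈ P := by rwa [hv, tr4, Symp.T_smul hF, mul_one, hl]
  have h1' : tr4 v x ∈ P := by
    rwa [hv, tr4, Symp.T_smul hF, hl, hx, mul_div_cancel₀ _ hc]
  obtain ⟨R, hR, hgram⟩ := exists_field G hv0 h1 h1' hx0 hx1
  have htop : R = ⊤ := field_eq_top G hv0 hgram
  let C : Set V := {y | ∀ c : F, tr4 y c ∈ P}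
  have hvC : v ∈ C := fun c => hR c (htop ▸ Subfield.mem_top c)
  have hconjC : ∀ g ∈ P, ∀ y ∈ C, ap g y ∈ C := fun g hg y hy c => conj_mem G hg (hy c)
  have hsmul : ∀ (k : F), ∀ y ∈ C, k • y ∈ C := fun k y hy c => by
    rw [tr4, Symp.T_smul hF]; exact hy _
  have hline : ∀ y ∈ C, ∀ z ∈ C, altForm4 y z ≠ 0 → y + z ∈ C := by
    intro y hy z hz hyz
    have hz' : altForm4 z y ≠ 0 := by rwa [altForm4_comm]
    have := hconjC _ (hy ((altForm4 z y)⁻¹)) z hz
    rw [ap_tr4_apply, inv_mul_cancel₀ hz', one_smul, add_comm] at this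
    exact this
  have hgen : ∀ g ∈ P, ∀ U : Submodule F V, (∀ y ∈ C, ∀ u ∈ U, ap (tr4 y 1) u ∈ U) →
      ∀ u ∈ U, ap g u ∈ U := by
    intro g hg U hU
    have hne1 : tr4 v (1 : F) ≠ 1 := by
      intro e
      obtain ⟨z, hz⟩ := (isSymplecticForm.nondegenerate v hv0).1
      have := congrArg (fun t => ap t z) e
      simp only [ap_tr4_apply, ap_one, one_mul, add_eq_left, smul_eq_zero] at this
      exact this.elim hz hv0
    have hmem := closure_orbit G h1 hne1 hg
    clear hg
    induction hmem using Subgroup.closure_induction with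
    | mem t ht =>
      obtain ⟨k, hk, rfl⟩ := ht
      exact hU _ (hconjC k hk v hvC)
    | one => intro u hu; rwa [ap_one]
    | mul p q _ _ hp hq => intro u hu; rw [ap_mul]; exact hp _ (hq u hu)
    | inv p _ hp =>
      intro u hu
      obtain ⟨⟨w, hw⟩, he⟩ := Finite.surjective_of_injective
        (f := fun z : U => (⟨ap p z, hp z z.2⟩ : U))
        (fun z z' hzz => Subtype.ext (ap_injective p (congrArg Subtype.val hzz))) ⟨u, hu⟩
      have he' : ap p w = u := congrArg Subtype.val he
      rw [← he', ap_inv_ap]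
      exact hw
  have horb : ∀ z : V, z ≠ 0 → ∃ y ∈ C, altForm4 y z ≠ 0 := by
    intro z hz
    obtain ⟨g, hg, h⟩ := exists_orbit_ne G hv0 hz
    exact ⟨_, hconjC g hg v hvC, by rwa [altForm4_comm]⟩
  -- two orthogonal centres have a common neighbour
  have hnb : ∀ u ∈ C, ∀ w ∈ C, u ≠ 0 → w ≠ 0 → altForm4 u w = 0 →
      ∃ z ∈ C, altForm4 z u ≠ 0 ∧ altForm4 z w ≠ 0 := by
    intro u hu w hw hu0 hw0 huw
    by_contra hno
    push Not at hno
    let U : Submodule F V := Submodule.span F {z | z ∈ C ∧ altForm4 z u ≠ 0}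
    have hN : ∀ z, z ∈ C → altForm4 z u ≠ 0 → z ∈ U := fun z h1 h2 => Submodule.subset_span ⟨h1, h2⟩
    have hinv : ∀ y ∈ C, ∀ x ∈ U, ap (tr4 y 1) x ∈ U := by
      intro y hy x hxU
      rw [ap_tr4_apply, one_mul]
      by_cases hperp : ∀ z, z ∈ C → altForm4 z u ≠ 0 → altForm4 z y = 0
      · have : altForm4 x y = 0 := by
          have hle : U ≤ LinearMap.ker (Symp.fl hF y) := by
            rw [Submodule.span_le]
            rintro z ⟨h1, h2⟩
            simpa using hperp z h1 h2
          simpa using hle hxU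
        rw [this, zero_smul, add_zero]; exact hxU
      · push Not at hperp
        obtain ⟨z, hz, hzu, hzy⟩ := hperp
        refine U.add_mem hxU (U.smul_mem _ ?_)
        by_cases hyu : altForm4 y u = 0
        · have hzy' : z + y ∈ U := hN _ (hline z hz y hy hzy) (by
            rw [(hF).bilinear.add_left, hyu, add_zero]; exact hzu)
          simpa using U.sub_mem hzy' (hN z hz hzu)
        · exact hN y hy hyu
    obtain ⟨y, hy, hyu⟩ := horb u hu0
    have hUtop : U = ⊤ := by
      rcases G.absIrred.1 U (by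
        rintro s ⟨g, hg, rfl⟩ _ ⟨x, hx, rfl⟩
        rw [Matrix.toLin'_apply]
        exact hgen g hg U hinv x hx) with h | h
      · have := hN y hy hyu
        rw [h, Submodule.mem_bot] at this
        exact absurd (by rw [this, Symp.zero_left hF]) hyu
      · exact h
    obtain ⟨z, hz⟩ := ((hF).nondegenerate w hw0).1
    refine hz ?_
    have hle : U ≤ LinearMap.ker (Symp.fl hF w) := by
      rw [Submodule.span_le]
      rintro x ⟨h1, h2⟩
      simpa using hno x h1 h2
    rw [hUtop] at hle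
    simpa using hle (Submodule.mem_top : z ∈ (⊤ : Submodule F V))
  -- the centres are closed under addition
  have hadd : ∀ u ∈ C, ∀ w ∈ C, u + w ∈ C := by
    intro u hu w hw
    rcases eq_or_ne u 0 with rfl | hu0
    · rwa [zero_add]
    rcases eq_or_ne w 0 with rfl | hw0
    · rwa [add_zero]
    rcases eq_or_ne (u + w) 0 with h0 | h0
    · rw [h0, ← zero_smul F u]; exact hsmul 0 u hu
    by_cases huw : altForm4 u w = 0
    swap
    · exact hline u hu w hw huw
    have fin : ∀ u ∈ C, ∀ w ∈ C, altForm4 u w = 0 → ∀ z ∈ C, altForm4 z u ≠ 0 → altForm4 z w ≠ 0 →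
        altForm4 z u ≠ altForm4 z w → u + w ∈ C := by
      intro u hu w hw huw z hz hzu hzw hd
      have h2 : u + z ∈ C := hline u hu z hz (by rwa [altForm4_comm])
      have h3 : u + z + w ∈ C := hline _ h2 w hw (by
        rw [(hF).bilinear.add_left, huw, zero_add]; exact hzw)
      have h4 := hline _ h3 z hz (by
        rw [(hF).bilinear.add_left, (hF).bilinear.add_left, altForm4_self, add_zero, altForm4_comm u,
          altForm4_comm w]
        exact fun e => hd (CharTwo.add_eq_zero.1 e))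
      convert h4 using 1
      rw [add_comm (u + z) w, add_assoc, add_assoc, CharTwo.add_self_eq_zero, add_zero, add_comm]
    obtain ⟨z, hz, hzu, hzw⟩ := hnb u hu w hw hu0 hw0 huw
    by_cases hd : altForm4 z u = altForm4 z w
    swap
    · exact fin u hu w hw huw z hz hzu hzw hd
    obtain ⟨y, hy, hys⟩ := horb _ h0
    rw [(hF).bilinear.add_right] at hys
    have hd' : altForm4 y u ≠ altForm4 y w := fun e => hys (by rw [e, CharTwo.add_self_eq_zero])
    have half : ∀ u ∈ C, ∀ w ∈ C, altForm4 u w = 0 → altForm4 z u ≠ 0 →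
        altForm4 z u = altForm4 z w → altForm4 y u = 0 → altForm4 y w ≠ 0 → u + w ∈ C := by
      intro u hu w hw huw hzu hd hyu hyw
      obtain ⟨y', hy', hy'u, hy'w, hy'z⟩ :
          ∃ y' ∈ C, altForm4 y' u = 0 ∧ altForm4 y' w ≠ 0 ∧ altForm4 y' z ≠ 0 := by
        by_cases hyz : altForm4 y z = 0
        · refine ⟨y + w, hline y hy w hw hyw, ?_, ?_, ?_⟩
          · rw [(hF).bilinear.add_left, hyu, altForm4_comm w, huw, add_zero]
          · rw [(hF).bilinear.add_left, altForm4_self, add_zero]; exact hyw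
          · rw [(hF).bilinear.add_left, hyz, zero_add, altForm4_comm, ← hd]; exact hzu
        · exact ⟨y, hy, hyu, hyw, hyz⟩
      obtain ⟨μ, hμ0, hμ1⟩ : ∃ μ : F, μ ≠ 0 ∧ μ ≠ altForm4 z u := by
        by_cases e : (1 : F) = altForm4 z u
        · exact ⟨x, hx0, fun h => hx1 (h.trans e.symm)⟩
        · exact ⟨1, one_ne_zero, e⟩
      have hk : (μ / altForm4 y' w) • y' ∈ C := hsmul _ _ hy'
      refine fin u hu w hw huw (z + (μ / altForm4 y' w) • y') (hline z hz _ hk ?_) ?_ ?_ ?_
      · rw [(hF).bilinear.smul_right, altForm4_comm z]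
        exact mul_ne_zero (div_ne_zero hμ0 hy'w) hy'z
      · rw [(hF).bilinear.add_left, (hF).bilinear.smul_left, hy'u, mul_zero, add_zero]; exact hzu
      · rw [(hF).bilinear.add_left, (hF).bilinear.smul_left, div_mul_cancel₀ _ hy'w, ← hd]
        exact fun e => hμ1 (CharTwo.add_eq_zero.1 e).symm
      · rw [(hF).bilinear.add_left, (hF).bilinear.add_left, (hF).bilinear.smul_left,
          (hF).bilinear.smul_left, hy'u, mul_zero, add_zero, div_mul_cancel₀ _ hy'w, ← hd]
        exact fun e => hμ0 (add_eq_left.1 e.symm)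
    by_cases hyu : altForm4 y u = 0
    · exact half u hu w hw huw hzu hd hyu (fun e => hd' (hyu.trans e.symm))
    by_cases hyw : altForm4 y w = 0
    · rw [add_comm]
      exact half w hw u hu (by rwa [altForm4_comm]) hzw hd.symm hyw hyu
    exact fin u hu w hw huw y hy hyu hyw hd'
  have hall : ∀ y : V, y ∈ C := by
    let U : Submodule F V :=
      { carrier := C
        zero_mem' := by rw [← zero_smul F v]; exact hsmul 0 v hvC
        add_mem' := fun hp hq => hadd _ hp _ hq
        smul_mem' := fun k _ hp => hsmul k _ hp }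
    rcases G.absIrred.1 U (by
      rintro s ⟨g, hg, rfl⟩ _ ⟨p, hp, rfl⟩
      rw [Matrix.toLin'_apply]
      exact hconjC g hg p hp) with hU | hU
    · exact absurd (by simpa [hU] using (show v ∈ U from hvC)) hv0
    · exact fun y => show y ∈ U by rw [hU]; trivial
  exact G.proper fun g hg =>
    Symp.isom_le_of_T_mem hF (fun y c => hall y c) (mem_isom hg)

end

end CfsgLib.SpFourResidual
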