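import Cfsg.Agent.Lib.SpFourResidual.Reduction
import Cfsg.Agent.Lib.SpFourResidual.UniqueT
import Cfsg.Agent.Lib.SpFourResidual.Transfer
import Cfsg.Agent.Lib.SpFourResidual.Star
import Cfsg.Agent.Lib.SpFourResidual.ExclusionSL2
import Cfsg.Agent.Lib.SpFourResidual.SuzukiCase
import Cfsg.Agent.Lib.Parabolic.SpFourGraph

/-!
# Residual subgroups of `Sp₄(2^f)` are Suzuki groups
-/

set_option autoImplicit false
set_option linter.unusedSectionVars false

open Matrix
open CfsgLib.Parabolic.SpFour (Rel anti four mem_iff_rel)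

namespace CfsgLib.SpFourResidual

variable {F : Type*} [Field F] [CharP F 2] [Fintype F]

/-- A residual core is a Suzuki group over the whole field, given the small exclusions. -/
theorem core_classify {P : Subgroup (GL (Fin 4) F)} (C : Core P)
    (hL34 : ∀ (K : Type) [Field K] [Fintype K], Fintype.card K = 4 →
      (Matrix.ProjectiveSpecialLinearGroup (Fin 3) K ≃* P) → False)
    (hprime : ∀ (K : Type) [Field K] [Fintype K], (Fintype.card K).Prime → 7 ≤ Fintype.card K →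
      (Matrix.ProjectiveSpecialLinearGroup (Fin 2) K ≃* P) → False)
    (hnine : ∀ (K : Type) [Field K] [Fintype K], Fintype.card K = 9 →
      (Matrix.ProjectiveSpecialLinearGroup (Fin 2) K ≃* P) → False) :
    ∃ m : ℕ, 1 ≤ m ∧ Fintype.card F = 2 ^ (2 * m + 1) ∧
      Nonempty (P ≃* Cfsg.Lie.Sz F (2 ^ (m + 1))) := by
  classical
  have hs : Geom (starP P) := geom_starP C
  have G : Geom P := C.toGeom
  haveI := G.simple
  have hT := no_transvection_of_unique G fun a c c' ha hc hc' h h' => tr4_unique G ha hc hc' h h'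
  have hT' := no_transvection_of_unique hs fun a c c' ha hc hc' h h' => tr4_unique hs ha hc hc' h h'
  have hcit : CfsgLib.CIT.IsCIT P := isCIT G hT hT' (fun g h2 ha => isT_starG h2 ha)
    fun g h hg hh h2 h1 hnT hnA hc => pow_four_eq_one hg hh h2 h1 hnT hnA hc
  have hne : ¬ IsMulCommutative P := fun h => by
    obtain ⟨a, b, hab⟩ := G.noncomm
    exact hab (h.is_comm.comm a b)
  rcases CfsgLib.SuzukiIdent.simple_cit G.noncomm hcit with
    ⟨K, _, _, hq, ⟨e⟩⟩ | ⟨K, _, _, hK, ⟨e⟩⟩ | ⟨K, _, _, m, hm, hK, ⟨e⟩⟩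
  · exfalso
    have h4 := four_le_of_simple hne e
    rcases hq with h9 | ⟨n, hn⟩ | ⟨hp, -⟩
    · exact hnine K h9 e.symm
    · exact not_psl2_even G hs n hn h4 e.symm
    · rcases Nat.lt_or_ge (Fintype.card K) 7 with hlt | hge
      · have h5 : Fintype.card K = 5 := by
          generalize hk : Fintype.card K = k at *
          interval_cases k <;> first | rfl | (norm_num at hp) | omega
        obtain ⟨L, _, _, hL, ⟨e'⟩⟩ := exists_four_of_five hne h5 e
        exact not_psl2_even G hs (K := L) 2 (by rw [hL]; norm_num) (by omega) e'.symm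
      · exact hprime K hp hge e.symm
  · exact (hL34 K hK e.symm).elim
  · have hcard := suzuki_field G m hm hK e.symm
    exact ⟨m, hm, hcard.trans hK,
      ⟨e.trans (szCongr (FiniteField.ringEquivOfCardEq hcard.symm) _)⟩⟩

section Symp

local notation "GL22" => GL (Fin 2 ⊕ Fin 2) F

theorem mem_spGL_iff {g : GL22} :
    g ∈ Cfsg.spGL 2 F ↔ Cfsg.Geo.glReindex four g ∈ relGroup F := by
  rw [mem_relGroup, coe_glReindex, Matrix.reindex_apply, ← mem_iff_rel,
    ← CfsgLib.Forms.spToGL_range]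
  constructor
  · rintro ⟨s, rfl⟩; exact s.2
  · exact fun h => ⟨⟨_, h⟩, Units.ext rfl⟩

theorem scalar_eq_one {g : GL22} (hg : g ∈ Cfsg.Geo.scalars (Fin 2 ⊕ Fin 2) F)
    (hs : g ∈ Cfsg.spGL 2 F) : g = 1 := by
  obtain ⟨c, hc⟩ := (Cfsg.Geo.mem_scalars_iff g).1 hg
  have h := mem_relGroup.1 (mem_spGL_iff.1 hs)
  rw [coe_glReindex, Matrix.reindex_apply, hc] at h
  simp only [Matrix.submatrix_smul, Pi.smul_apply, Matrix.submatrix_one_equiv] at h
  have h03 := h.col 0 3
  simp [anti] at h03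
  have hc1 : (c : F) = 1 := CharTwo.sq_injective (by simpa [sq] using h03)
  exact Units.ext (by rw [hc, hc1, one_smul]; rfl)

/-- The core of a maximal subgroup in the residual class, in `Fin 4` coordinates. -/
theorem exists_core {H P : Subgroup GL22} (hH : Cfsg.Geo.IsMaximalIn (Cfsg.spGL 2 F) H)
    (hP : Cfsg.Geo.IsResidualCore H P)
    (hQ : ¬ ∃ Q : (Fin 2 ⊕ Fin 2 → F) → F, Cfsg.Geo.IsNondegenerateQuadraticForm Q ∧
      Cfsg.Geo.FixesQuadForm (Cfsg.Geo.matrixSet P) Q) :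
    Core (P.map (Cfsg.Geo.glReindex four).toMonoidHom) := by
  classical
  set φ : GL22 →* GL (Fin 4) F := (Cfsg.Geo.glReindex four).toMonoidHom with hφ
  have hinj : Function.Injective φ := (Cfsg.Geo.glReindex four).injective
  have hPsp : P ≤ Cfsg.spGL 2 F := hP.le.trans hH.1.le
  have hbot : (Cfsg.Geo.scalars (Fin 2 ⊕ Fin 2) F).subgroupOf P = ⊥ :=
    (Subgroup.eq_bot_iff_forall _).2 fun x hx => Subtype.ext (scalar_eq_one hx (hPsp x.2))
  let q : P ⧸ (Cfsg.Geo.scalars (Fin 2 ⊕ Fin 2) F).subgroupOf P ≃* P :=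
    (QuotientGroup.quotientMulEquivOfEq hbot).trans QuotientGroup.quotientBot
  let e : P ≃* P.map φ := P.equivMapOfInjective φ hinj
  haveI := hP.simple
  haveI : Nontrivial P := q.symm.toEquiv.nontrivial
  haveI hsimp : IsSimpleGroup P :=
    IsSimpleGroup.isSimpleGroup_of_surjective q.toMonoidHom q.surjective
  haveI : Nontrivial (P.map φ) := e.symm.toEquiv.nontrivial
  refine ⟨⟨?_, IsSimpleGroup.isSimpleGroup_of_surjective e.toMonoidHom e.surjective, ?_,
    absIrred_map four hP.absIrred, ?_, ?_⟩, ?_⟩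
  · rintro _ ⟨g, hg, rfl⟩
    exact mem_spGL_iff.1 (hPsp hg)
  · by_contra hcom
    push Not at hcom
    refine hP.nonabelian ⟨⟨fun a b => ?_⟩⟩
    refine (q.trans e).injective ?_
    rw [map_mul, map_mul]
    exact hcom _ _
  · rintro F₀ hF₀ ⟨B, hB⟩
    refine hP.no_subfield F₀ hF₀ ⟨(Cfsg.Geo.glReindex four).symm B, ?_⟩
    rintro _ ⟨g, hg, rfl⟩ i j
    have h := hB _ ⟨φ g, ⟨g, hg, rfl⟩, rfl⟩ (four i) (four j)
    convert h using 1
    rw [← Units.val_mul, ← Units.val_mul, ← Units.val_mul, ← Units.val_mul]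
    have he : B * φ g * B⁻¹ = φ ((Cfsg.Geo.glReindex four).symm B * g *
        ((Cfsg.Geo.glReindex four).symm B)⁻¹) := by
      simp [hφ]
    rw [he, hφ, MulEquiv.coe_toMonoidHom, coe_glReindex, Matrix.reindex_apply, Matrix.submatrix_apply,
      Equiv.symm_apply_apply, Equiv.symm_apply_apply]
  · intro hle
    refine hH.1.not_ge fun g hg => ?_
    obtain ⟨g', hg', he⟩ := hle (mem_spGL_iff.1 hg)
    rw [← hinj he]
    exact hP.le hg'
  · rintro ⟨Q, ⟨hsm, hbil, hnd⟩, hfix⟩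
    let r : (Fin 2 ⊕ Fin 2 → F) → (Fin 4 → F) := fun v => v ∘ four.symm
    have hr' : ∀ w : Fin 4 → F, r (w ∘ four) = w := fun w => by
      funext i; simp [r]
    have hadd : ∀ u v, r (u + v) = r u + r v := fun u v => rfl
    have hsmul : ∀ (c : F) v, r (c • v) = c • r v := fun c v => rfl
    have hpol : ∀ u v, QuadraticMap.polar (Q ∘ r) u v = QuadraticMap.polar Q (r u) (r v) :=
      fun u v => rfl
    refine hQ ⟨Q ∘ r, ⟨fun c v => by simp only [Function.comp_apply, hsmul, hsm], ⟨?_, ?_, ?_, ?_⟩,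
      fun v hv => ?_⟩, ?_⟩
    · intro x y v; simp only [hpol, hadd]; exact hbil.add_left _ _ _
    · intro c x v; simp only [hpol, hsmul]; exact hbil.smul_left _ _ _
    · intro v x y; simp only [hpol, hadd]; exact hbil.add_right _ _ _
    · intro c v x; simp only [hpol, hsmul]; exact hbil.smul_right _ _ _
    · have hrv : r v ≠ 0 := fun h => hv (by
        funext i
        simpa [r] using congrFun h (four i))
      obtain ⟨⟨x, hx⟩, ⟨y, hy⟩⟩ := hnd _ hrv
      exact ⟨⟨x ∘ four, by rwa [hpol, hr']⟩, ⟨y ∘ four, by rwa [hpol, hr']⟩⟩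
    · rintro _ ⟨g, hg, rfl⟩ v
      have h := hfix _ ⟨φ g, ⟨g, hg, rfl⟩, rfl⟩ (r v)
      have e1 : ((φ g : GL (Fin 4) F) : Matrix (Fin 4) (Fin 4) F) *ᵥ r v
          = r ((g : Matrix (Fin 2 ⊕ Fin 2) (Fin 2 ⊕ Fin 2) F) *ᵥ v) := by
        rw [hφ, MulEquiv.coe_toMonoidHom, coe_glReindex, reindex_mulVec]
        simp [r, Function.comp_assoc]
      simp only [Function.comp_apply]
      rw [← e1]
      exact h

/-- The residual class of `Sp₄(q)`, `q ≥ 4` even. -/
theorem residual_classify {H : Subgroup GL22} (hH : Cfsg.Geo.IsMaximalIn (Cfsg.spGL 2 F) H)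
    (hS : Cfsg.Geo.InSymplecticResidualClass H)
    (hsmall : ∀ Q : Subgroup (GL (Fin 4) F), Geom Q →
      (∀ (K : Type) [Field K] [Fintype K], Fintype.card K = 4 →
        (Matrix.ProjectiveSpecialLinearGroup (Fin 3) K ≃* Q) → False) ∧
      (∀ (K : Type) [Field K] [Fintype K], (Fintype.card K).Prime → 7 ≤ Fintype.card K →
        (Matrix.ProjectiveSpecialLinearGroup (Fin 2) K ≃* Q) → False) ∧
      (∀ (K : Type) [Field K] [Fintype K], Fintype.card K = 9 →
        (Matrix.ProjectiveSpecialLinearGroup (Fin 2) K ≃* Q) → False)) :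
    ∃ (P : Subgroup GL22) (m : ℕ), Cfsg.Geo.IsResidualCore H P ∧ 1 ≤ m ∧
      Fintype.card F = 2 ^ (2 * m + 1) ∧
      Nonempty ((P ⧸ (Cfsg.Geo.scalars (Fin 2 ⊕ Fin 2) F).subgroupOf P) ≃*
        Cfsg.Lie.Sz F (2 ^ (m + 1))) := by
  obtain ⟨P, hP, hQ, -⟩ := hS
  have C := exists_core hH hP hQ
  obtain ⟨h1, h2, h3⟩ := hsmall _ C.toGeom
  obtain ⟨m, hm, hq, ⟨e⟩⟩ := core_classify C h1 h2 h3
  refine ⟨P, m, hP, hm, hq, ⟨?_⟩⟩
  have hbot : (Cfsg.Geo.scalars (Fin 2 ⊕ Fin 2) F).subgroupOf P = ⊥ :=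
    (Subgroup.eq_bot_iff_forall _).2 fun x hx =>
      Subtype.ext (scalar_eq_one hx (hH.1.le (hP.le x.2)))
  exact (((QuotientGroup.quotientMulEquivOfEq hbot).trans QuotientGroup.quotientBot).trans
    (P.equivMapOfInjective _ (Cfsg.Geo.glReindex four).injective)).trans e

end Symp

end CfsgLib.SpFourResidual
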