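import Cfsg.Agent.Lib.SpFourResidual.Setup
import Cfsg.Agent.Lib.SuzukiIdent.Classification
import Cfsg.Agent.Lib.Generators.SmallPermGroups
import Cfsg.Agent.Lib.ClassicalLinear.Card
import Cfsg.Agent.Lib.PSLKleinAut.Basic
import Cfsg.Agent.Lib.SmallGroups.Basic

/-!
# Residual subgroups of `Sp₄(2^f)`: transport of the hypotheses and case division

A residual core is carried to `Fin 4` coordinates; with no transvections in it and in its image
under `g ↦ g*` it is a simple group whose involution centralisers are `2`-groups.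
-/

set_option autoImplicit false
set_option linter.unusedSectionVars false

open Matrix
open Cfsg.Lie (star4 altForm4)
open CfsgLib.Parabolic.SpFour (Rel anti)

namespace CfsgLib.SpFourResidual

section Transport

variable {F : Type*} [Field F] {κ ι : Type} [Fintype κ] [DecidableEq κ] [Fintype ι] [DecidableEq ι]

theorem coe_glReindex (e : κ ≃ ι) (g : GL κ F) :
    (Cfsg.Geo.glReindex e g : Matrix ι ι F) = Matrix.reindex e e (g : Matrix κ κ F) := rfl

theorem reindex_mulVec (e : κ ≃ ι) (M : Matrix κ κ F) (v : ι → F) :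
    Matrix.reindex e e M *ᵥ v = (M *ᵥ (v ∘ e)) ∘ e.symm := by
  rw [Matrix.reindex_apply]
  exact Matrix.submatrix_mulVec_equiv _ v _ e.symm

theorem matrixSet_map (e : κ ≃ ι) (P : Subgroup (GL κ F)) :
    Cfsg.Geo.matrixSet (P.map (Cfsg.Geo.glReindex e).toMonoidHom)
      = (fun M => Matrix.reindex e e M) '' Cfsg.Geo.matrixSet P := by
  simp only [Cfsg.Geo.matrixSet, Subgroup.coe_map, Set.image_image]
  rfl

theorem absIrred_map (e : κ ≃ ι) {P : Subgroup (GL κ F)}
    (h : Cfsg.Geo.ActsAbsolutelyIrreducibly (Cfsg.Geo.matrixSet P)) :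
    Cfsg.Geo.ActsAbsolutelyIrreducibly
      (Cfsg.Geo.matrixSet (P.map (Cfsg.Geo.glReindex e).toMonoidHom)) := by
  rw [matrixSet_map]
  refine ⟨fun W hW => ?_, fun M hM => ?_⟩
  · let r : (κ → F) ≃ₗ[F] (ι → F) := LinearEquiv.funCongrLeft F F e.symm
    have hr : ∀ v, r v = v ∘ e.symm := fun v => rfl
    rcases h.1 (W.comap r.toLinearMap) (by
      rintro s hs _ ⟨v, hv, rfl⟩
      have h1 := hW _ (Set.mem_image_of_mem _ hs) ⟨r v, hv, rfl⟩
      rw [Matrix.toLin'_apply, reindex_mulVec, hr] at h1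
      simp only [Function.comp_assoc, Equiv.symm_comp_self, Function.comp_id] at h1
      show r (Matrix.toLin' s v) ∈ W
      rwa [hr, Matrix.toLin'_apply]) with h' | h'
    · refine Or.inl (eq_bot_iff.2 fun v hv => ?_)
      have : r.symm v ∈ W.comap r.toLinearMap := by simpa using hv
      rw [h', Submodule.mem_bot] at this
      simpa using congrArg r this
    · refine Or.inr (Submodule.eq_top_iff'.2 fun v => ?_)
      have : r.symm v ∈ W.comap r.toLinearMap := by rw [h']; trivial
      simpa using this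
  · obtain ⟨c, hc⟩ := h.2 (Matrix.reindex e.symm e.symm M) (fun s hs => by
      have h1 := hM _ (Set.mem_image_of_mem _ hs)
      have h2 := congrArg (Matrix.reindex e.symm e.symm) h1
      simp only [Matrix.reindex_apply, Equiv.symm_symm] at h2 ⊢
      rw [← Matrix.submatrix_mul_equiv _ _ _ e _, ← Matrix.submatrix_mul_equiv _ _ _ e _] at h2
      simpa using h2)
    refine ⟨c, ?_⟩
    have := congrArg (Matrix.reindex e e) hc
    simpa [Matrix.submatrix_smul] using this

end Transport

section Main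

variable {F : Type*} [Field F] [CharP F 2]

/-- With no transvections here or in the image under `g ↦ g*`, involution centralisers are
`2`-groups. -/
theorem isCIT {P : Subgroup (GL (Fin 4) F)} (G : Geom P)
    (hT : ∀ g ∈ P, ¬ IsT g) (hT' : ∀ g ∈ starP P, ¬ IsT g)
    (hA : ∀ g : relGroup F, g * g = 1 → IsTypeA (g : GL (Fin 4) F) → IsT (starG g))
    (h4 : ∀ g h : GL (Fin 4) F, g ∈ relGroup F → h ∈ relGroup F → g * g = 1 → g ≠ 1 → ¬ IsT g →
      ¬ IsTypeA g → g * h = h * g → h ^ 4 = 1) :
    CfsgLib.CIT.IsCIT P := by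
  intro t ht x
  have h2 : (t : GL (Fin 4) F) * t = 1 := by
    have := pow_orderOf_eq_one t
    rw [ht, sq] at this
    simpa using congrArg Subtype.val this
  have h1 : (t : GL (Fin 4) F) ≠ 1 := fun e => by
    rw [show t = 1 from Subtype.ext e, orderOf_one] at ht
    exact absurd ht (by norm_num)
  have hA' : ¬ IsTypeA (t : GL (Fin 4) F) := fun hA' =>
    hT' _ (Subgroup.mem_map.2 ⟨⟨t, G.le t.2⟩, t.2, rfl⟩)
      (hA ⟨t, G.le t.2⟩ (Subtype.ext h2) hA')
  have hc : (t : GL (Fin 4) F) * ((x : P) : GL (Fin 4) F) = ((x : P) : GL (Fin 4) F) * t := by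
    have := Subgroup.mem_centralizer_singleton_iff.1 x.2
    simpa using (congrArg Subtype.val this).symm
  refine ⟨2, Subtype.ext (Subtype.ext ?_)⟩
  simpa using h4 _ _ (G.le t.2) (G.le x.1.2) h2 h1 (hT _ t.2) hA' hc

/-- `PSL₂` over two or three elements is not simple. -/
theorem four_le_of_simple {G : Type*} [Group G] [Finite G] [IsSimpleGroup G]
    (hne : ¬ IsMulCommutative G) {K : Type} [Field K] [Fintype K]
    (e : G ≃* Matrix.ProjectiveSpecialLinearGroup (Fin 2) K) : 4 ≤ Fintype.card K := by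
  have key : ∀ p k, p.Prime → p ^ k ∣ Nat.card G → ¬ p ^ (k + 1) ∣ Nat.card G →
      ¬ 2 * Nat.card G ∣ (Nat.card G / p ^ k).factorial → Nat.card G ≠ p ^ k → False := by
    intro p k hp hd hnd hbad hne'
    haveI := Fact.mk hp
    obtain ⟨S⟩ : Nonempty (Sylow p G) := inferInstance
    have hS : Nat.card (S : Subgroup G) = p ^ k := by
      obtain ⟨j, hj⟩ := IsPGroup.iff_card.1 S.2
      have h1 := S.pow_dvd_card_of_pow_dvd_card hd
      have h2 := (S : Subgroup G).card_subgroup_dvd_card
      rw [hj] at h1 h2 ⊢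
      have h3 : k ≤ j := Nat.pow_dvd_pow_iff_le_right hp.one_lt |>.1 h1
      by_contra hjk
      exact hnd (dvd_trans (pow_dvd_pow p (by
        rcases Nat.lt_or_eq_of_le h3 with h | h
        · exact h
        · exact absurd (by rw [h]) hjk)) h2)
    have hSt : (S : Subgroup G) ≠ ⊤ := fun h => hne' (by rw [← hS, h, Subgroup.card_top])
    have h := CfsgLib.SmallGroups.two_mul_card_dvd_factorial_index hne hSt
    have hi := (S : Subgroup G).card_mul_index
    rw [hS] at hi
    rw [show (S : Subgroup G).index = Nat.card G / p ^ k by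
      rw [← hi, Nat.mul_div_cancel_left _ (pow_pos hp.pos k)]] at h
    exact hbad h
  by_contra hlt
  have hq := Fintype.one_lt_card (α := K)
  have hcard : ∀ q, Fintype.card K = q → Nat.gcd 2 (q - 1) * Nat.card G = q * (q ^ 2 - 1) :=
    fun q h => by rw [Nat.card_congr e.toEquiv]; exact CfsgLib.ClassicalLinear.card_PSL_two h
  rcases (show Fintype.card K = 2 ∨ Fintype.card K = 3 by omega) with h | h
  · have h6 : Nat.card G = 6 := by simpa using hcard 2 h
    refine key 3 1 Nat.prime_three ?_ ?_ ?_ ?_ <;> rw [h6] <;> norm_num [Nat.factorial]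
  · have h12 : Nat.card G = 12 := by
      have := hcard 3 h
      norm_num at this
      omega
    refine key 2 2 Nat.prime_two ?_ ?_ ?_ ?_ <;> rw [h12] <;> norm_num [Nat.factorial]

theorem noSolvNormal_of_simple {H : Type*} [Group H] [IsSimpleGroup H] (hH : ¬ IsMulCommutative H) :
    CfsgLib.Generators.SmallPermGroups.NoSolvNormal H := by
  intro N hN hs
  refine hN.eq_bot_or_eq_top.resolve_right fun hT => hH ?_
  subst hT
  haveI : Group.IsSolvable H := Group.isSolvable_of_surjective (f := (⊤ : Subgroup H).subtype)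
    fun x => ⟨⟨x, trivial⟩, rfl⟩
  exact ⟨⟨fun a b => (IsSimpleGroup.comm_iff_isSolvable.2 inferInstance) a b⟩⟩

/-- `PSL₂(5) ≅ PSL₂(4)`, in the form used. -/
theorem exists_four_of_five {G : Type*} [Group G] [Finite G] [IsSimpleGroup G]
    (hne : ¬ IsMulCommutative G) {K : Type} [Field K] [Fintype K] (h5 : Fintype.card K = 5)
    (e : G ≃* Matrix.ProjectiveSpecialLinearGroup (Fin 2) K) :
    ∃ (L : Type) (_ : Field L) (_ : Fintype L), Fintype.card L = 4 ∧
      Nonempty (G ≃* Matrix.ProjectiveSpecialLinearGroup (Fin 2) L) := by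
  classical
  haveI : Fact (Nat.Prime 2) := ⟨Nat.prime_two⟩
  letI := Fintype.ofFinite (GaloisField 2 2)
  have hL : Fintype.card (GaloisField 2 2) = 4 := by
    rw [← Nat.card_eq_fintype_card, GaloisField.card 2 2 (by norm_num)]; norm_num
  refine ⟨GaloisField 2 2, inferInstance, inferInstance, hL, ?_⟩
  have hG : Nat.card G = 60 := by
    have h := CfsgLib.ClassicalLinear.card_PSL_two h5
    rw [← Nat.card_congr e.toEquiv] at h
    norm_num at h
    omega
  have hP : Nat.card (Matrix.ProjectiveSpecialLinearGroup (Fin 2) (GaloisField 2 2)) = 60 := by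
    rw [CfsgLib.ClassicalLinear.card_PSL_two_of_even hL (by decide)]; norm_num
  haveI := CfsgLib.PSLKleinAut.isSimpleGroup_psl2 (F := GaloisField 2 2) (by omega)
  have hP' : ¬ IsMulCommutative (Matrix.ProjectiveSpecialLinearGroup (Fin 2) (GaloisField 2 2)) :=
    CfsgLib.SmallGroups.not_isMulCommutative_of_card (by rw [hP]; norm_num)
  obtain ⟨a⟩ := CfsgLib.Generators.SmallPermGroups.iso_alt_five (noSolvNormal_of_simple hne) hG
  obtain ⟨b⟩ := CfsgLib.Generators.SmallPermGroups.iso_alt_five (noSolvNormal_of_simple hP') hP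
  exact ⟨a.trans b.symm⟩

omit [CharP F 2] in
theorem map_sz_gens {K : Type*} [Field K] (σ : F →+* K) (e : ℕ) {g : GL (Fin 4) F}
    (hg : g ∈ Cfsg.Lie.Sp4 F)
    (hs : star4 (g : Matrix (Fin 4) (Fin 4) F) = (g : Matrix (Fin 4) (Fin 4) F).map (fun x => x ^ e)) :
    Matrix.GeneralLinearGroup.map σ g ∈ Cfsg.Lie.Sp4 K ∧
      star4 ((Matrix.GeneralLinearGroup.map σ g : GL (Fin 4) K) : Matrix (Fin 4) (Fin 4) K)
        = ((Matrix.GeneralLinearGroup.map σ g : GL (Fin 4) K) : Matrix (Fin 4) (Fin 4) K).map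
            (fun x => x ^ e) := by
  have hcoe : ((Matrix.GeneralLinearGroup.map σ g : GL (Fin 4) K) : Matrix (Fin 4) (Fin 4) K)
      = (g : Matrix (Fin 4) (Fin 4) F).map σ := rfl
  refine ⟨fun u v => ?_, ?_⟩
  · have hlin : ∀ i j, altForm4 (((g : Matrix (Fin 4) (Fin 4) F).map σ) *ᵥ Pi.single i 1)
        (((g : Matrix (Fin 4) (Fin 4) F).map σ) *ᵥ Pi.single j 1)
        = altForm4 (Pi.single i (1 : K)) (Pi.single j 1) := by
      intro i j
      have h0 := congrArg σ (hg (Pi.single i 1) (Pi.single j 1))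
      rw [Units.coeHom_apply, Matrix.mulVec_single_one, Matrix.mulVec_single_one] at h0
      rw [Matrix.mulVec_single_one, Matrix.mulVec_single_one]
      simp only [altForm4, map_add, map_mul, Matrix.col_apply, Matrix.map_apply] at h0 ⊢
      rw [h0]
      simp [Pi.single_apply, apply_ite σ]
    rw [Units.coeHom_apply, hcoe]
    simp only [altForm4, Matrix.mulVec, dotProduct, Fin.sum_univ_four, Matrix.map_apply]
    have h00 := hlin 0 0; have h01 := hlin 0 1; have h02 := hlin 0 2; have h03 := hlin 0 3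
    have h10 := hlin 1 0; have h11 := hlin 1 1; have h12 := hlin 1 2; have h13 := hlin 1 3
    have h20 := hlin 2 0; have h21 := hlin 2 1; have h22 := hlin 2 2; have h23 := hlin 2 3
    have h30 := hlin 3 0; have h31 := hlin 3 1; have h32 := hlin 3 2; have h33 := hlin 3 3
    simp [altForm4, Matrix.mulVec_single_one] at h00 h01 h02 h03 h10 h11 h12 h13 h20 h21 h22 h23 h30 h31 h32 h33
    linear_combination u 0 * v 0 * h00 + u 0 * v 1 * h01 + u 0 * v 2 * h02 + u 0 * v 3 * h03 +
      u 1 * v 0 * h10 + u 1 * v 1 * h11 + u 1 * v 2 * h12 + u 1 * v 3 * h13 +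
      u 2 * v 0 * h20 + u 2 * v 1 * h21 + u 2 * v 2 * h22 + u 2 * v 3 * h23 +
      u 3 * v 0 * h30 + u 3 * v 1 * h31 + u 3 * v 2 * h32 + u 3 * v 3 * h33
  · rw [hcoe]
    have h := congrArg (fun M : Matrix (Fin 4) (Fin 4) F => M.map σ) hs
    simp only [Matrix.map_map] at h
    have e1 : star4 ((g : Matrix (Fin 4) (Fin 4) F).map σ)
        = (star4 (g : Matrix (Fin 4) (Fin 4) F)).map σ := by
      ext i j; simp [star4]
    rw [e1, hs]
    ext i j
    simp

/-- Suzuki groups over isomorphic fields. -/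
noncomputable def szCongr {K : Type*} [Field K] (σ : F ≃+* K) (e : ℕ) :
    Cfsg.Lie.Sz F e ≃* Cfsg.Lie.Sz K e :=
  ((Cfsg.Lie.Sz F e).equivMapOfInjective (Matrix.GeneralLinearGroup.map σ.toRingHom) (by
    intro g h hgh
    refine Units.ext (Matrix.map_injective σ.injective ?_)
    exact congrArg Units.val hgh)).trans (MulEquiv.subgroupCongr (by
      apply le_antisymm
      · rw [Cfsg.Lie.Sz, MonoidHom.map_closure, Subgroup.closure_le]
        rintro _ ⟨g, ⟨hg, hs⟩, rfl⟩
        exact Subgroup.subset_closure (map_sz_gens σ.toRingHom e hg hs)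
      · rw [Cfsg.Lie.Sz, Cfsg.Lie.Sz, MonoidHom.map_closure, Subgroup.closure_le]
        intro g hg
        refine Subgroup.subset_closure ⟨Matrix.GeneralLinearGroup.map σ.symm.toRingHom g,
          map_sz_gens σ.symm.toRingHom e hg.1 hg.2, ?_⟩
        apply Units.ext
        ext i j
        simp))

end Main

end CfsgLib.SpFourResidual
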