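import Cfsg.Agent.Lib.Parabolic.SpFourStar
import Cfsg.Agent.Lib.Geometric.Symp
import Cfsg.Prelude.Def_GeometricClasses

/-!
# Residual subgroups of `Sp₄(2^f)`: setting

Matrices are in `Fin 4` coordinates with the antidiagonal form (`Rel`).
-/

set_option autoImplicit false
set_option linter.unusedSectionVars false

open Matrix
open Cfsg.Lie (star4 altForm4)
open CfsgLib.Parabolic.SpFour

namespace CfsgLib.SpFourResidual

variable {F : Type*} [Field F] [CharP F 2]

variable (F) in
/-- The matrices preserving the antidiagonal form. -/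
def relGroup : Subgroup (GL (Fin 4) F) where
  carrier := {g | Rel (g : Matrix (Fin 4) (Fin 4) F)}
  one_mem' := ⟨by simp, by simp⟩
  mul_mem' := fun ha hb => by simpa using ha.mul hb
  inv_mem' := fun {a} ha => by
    have h1 : ((a⁻¹ : GL (Fin 4) F) : Matrix (Fin 4) (Fin 4) F)
        = anti * (a : Matrix (Fin 4) (Fin 4) F)ᵀ * anti := by
      refine Units.inv_eq_of_mul_eq_one_left ?_
      rw [Matrix.mul_assoc, Matrix.mul_assoc, ← Matrix.mul_assoc _ anti, ha.1, anti_mul_self]
    show Rel _
    rw [h1]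
    exact (rel_anti.mul ha.transpose).mul rel_anti

theorem mem_relGroup {g : GL (Fin 4) F} : g ∈ relGroup F ↔ Rel (g : Matrix (Fin 4) (Fin 4) F) :=
  Iff.rfl

theorem altForm4_eq (u v : Fin 4 → F) : altForm4 u v = u ⬝ᵥ (anti *ᵥ v) := by
  simp [altForm4, anti, Matrix.mulVec, dotProduct, Fin.sum_univ_four, Fin.rev]

theorem altForm4_map {g : GL (Fin 4) F} (hg : g ∈ relGroup F) (u v : Fin 4 → F) :
    altForm4 ((g : Matrix (Fin 4) (Fin 4) F) *ᵥ u) ((g : Matrix (Fin 4) (Fin 4) F) *ᵥ v)
      = altForm4 u v := by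
  rw [altForm4_eq, altForm4_eq, Matrix.mulVec_mulVec, Matrix.dotProduct_mulVec, Matrix.vecMul_mulVec,
    ← Matrix.mul_assoc, mem_relGroup.1 hg |>.1, ← Matrix.dotProduct_mulVec]

theorem altForm4_self (v : Fin 4 → F) : altForm4 v v = 0 := by
  simp only [altForm4]
  linear_combination (v 0 * v 3 + v 1 * v 2) * CharTwo.two_eq_zero (R := F)

theorem altForm4_comm (u v : Fin 4 → F) : altForm4 u v = altForm4 v u := by
  simp only [altForm4]; ring

theorem isSymplecticForm : Cfsg.Geo.IsSymplecticForm (altForm4 : (Fin 4 → F) → (Fin 4 → F) → F) where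
  bilinear :=
    { add_left := fun x y v => by simp only [altForm4, Pi.add_apply]; ring
      smul_left := fun c x v => by simp only [altForm4, Pi.smul_apply, smul_eq_mul]; ring
      add_right := fun v x y => by simp only [altForm4, Pi.add_apply]; ring
      smul_right := fun c v x => by simp only [altForm4, Pi.smul_apply, smul_eq_mul]; ring }
  skew := fun v w => by rw [CharTwo.neg_eq, altForm4_comm]
  alternating := altForm4_self
  nondegenerate := fun v hv => by
    obtain ⟨i, hi⟩ := Function.ne_iff.1 hv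
    refine ⟨⟨Pi.single (Fin.rev i) 1, ?_⟩, ⟨Pi.single (Fin.rev i) 1, ?_⟩⟩ <;>
      fin_cases i <;> simpa [altForm4, Fin.rev] using hi

/-- The symplectic transvection `x ↦ x + c f(x, a) a`. -/
def tr4 (a : Fin 4 → F) (c : F) : GL (Fin 4) F :=
  CfsgLib.Geometric.Symp.T isSymplecticForm a c

/-- `g` is a symplectic transvection. -/
def IsT (g : GL (Fin 4) F) : Prop := ∃ a c, a ≠ 0 ∧ c ≠ 0 ∧ g = tr4 a c

/-- `g` moves every vector to one orthogonal to it. -/
def IsTypeA (g : GL (Fin 4) F) : Prop :=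
  g ≠ 1 ∧ ∀ v, altForm4 ((g : Matrix (Fin 4) (Fin 4) F) *ᵥ v) v = 0

/-- `g ↦ g*` on the symplectic group. -/
def starG : relGroup F →* GL (Fin 4) F :=
  MonoidHom.toHomUnits
    { toFun := fun g => star4 ((g : GL (Fin 4) F) : Matrix (Fin 4) (Fin 4) F)
      map_one' := by simp [star4_one]
      map_mul' := fun g h => by
        rw [Subgroup.coe_mul, Units.val_mul]
        exact star4_mul (mem_relGroup.1 g.2) (mem_relGroup.1 h.2) }

theorem coe_starG (g : relGroup F) :
    (starG g : Matrix (Fin 4) (Fin 4) F) = star4 ((g : GL (Fin 4) F) : Matrix (Fin 4) (Fin 4) F) :=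
  rfl

theorem starG_mem (g : relGroup F) : starG g ∈ relGroup F :=
  mem_relGroup.2 (by rw [coe_starG]; exact (mem_relGroup.1 g.2).star)

theorem starG_starG (g : relGroup F) :
    (starG ⟨starG g, starG_mem g⟩ : Matrix (Fin 4) (Fin 4) F)
      = ((g : GL (Fin 4) F) : Matrix (Fin 4) (Fin 4) F).map (fun x => x ^ 2) := by
  rw [coe_starG]
  show star4 (starG g : Matrix (Fin 4) (Fin 4) F) = _
  rw [coe_starG, star4_star4 (mem_relGroup.1 g.2)]

theorem starG_injective : Function.Injective (starG (F := F)) := fun g h e => by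
  have h1 : (starG g : Matrix (Fin 4) (Fin 4) F) = starG h := by rw [e]
  rw [coe_starG, coe_starG] at h1
  have h2 := congrArg star4 h1
  rw [star4_star4 (mem_relGroup.1 g.2), star4_star4 (mem_relGroup.1 h.2)] at h2
  exact Subtype.ext (Units.ext (Matrix.map_injective CharTwo.sq_injective h2))

/-- The image of a subgroup of the symplectic group under `g ↦ g*`. -/
def starP (P : Subgroup (GL (Fin 4) F)) : Subgroup (GL (Fin 4) F) :=
  (P.subgroupOf (relGroup F)).map starG

/-- What is used of a residual core, and is shared by a core and its image under `g ↦ g*`. -/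
structure Geom (P : Subgroup (GL (Fin 4) F)) : Prop where
  le : P ≤ relGroup F
  simple : IsSimpleGroup P
  noncomm : ∃ a b : P, a * b ≠ b * a
  absIrred : Cfsg.Geo.ActsAbsolutelyIrreducibly (Cfsg.Geo.matrixSet P)
  noReal : ∀ F₀ : Subfield F, F₀ ≠ ⊤ → ¬ Cfsg.Geo.RealisableOver F₀ (Cfsg.Geo.matrixSet P)
  proper : ¬ relGroup F ≤ P

/-- A residual core, in `Fin 4` coordinates. -/
structure Core (P : Subgroup (GL (Fin 4) F)) : Prop extends Geom P where
  noQuad : ¬ ∃ Q : (Fin 4 → F) → F,
    Cfsg.Geo.IsNondegenerateQuadraticForm Q ∧ Cfsg.Geo.FixesQuadForm (Cfsg.Geo.matrixSet P) Q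

end CfsgLib.SpFourResidual
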