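import Cfsg.Agent.Lib.SpFourResidual.Setup
import Cfsg.Agent.Lib.OrderDegrees.SuzukiModule

/-!
# Identities between `star4`, Plücker coordinates and the symplectic form
-/

set_option autoImplicit false
set_option linter.unusedSectionVars false

open Matrix
open Cfsg.Lie (star4 pairOf altForm4)
open CfsgLib.Parabolic.SpFour

namespace CfsgLib.SpFourResidual

variable {L : Type*} [Field L] [CharP L 2]

/-- The four Plücker coordinates seen by `star4`. -/
def pl (a w : Fin 4 → L) : Fin 4 → L :=
  fun p => a (pairOf p).1 * w (pairOf p).2 + a (pairOf p).2 * w (pairOf p).1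

/-- The `(0, 3)` minors of the rows seen by `star4`. -/
def nv (h : Matrix (Fin 4) (Fin 4) L) : Fin 4 → L :=
  fun p => h (pairOf p).1 0 * h (pairOf p).2 3 + h (pairOf p).1 3 * h (pairOf p).2 0

/-- The quadratic form with polar `altForm4`. -/
def f0 (v : Fin 4 → L) : L := v 0 * v 3 + v 1 * v 2

theorem two0 : (2 : L) = 0 := CharTwo.two_eq_zero

theorem four0 : (4 : L) = 0 := by linear_combination (2 : L) * two0 (L := L)

theorem pl_mulVec {h : Matrix (Fin 4) (Fin 4) L} (hh : Rel h) (a w : Fin 4 → L) :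
    pl (h *ᵥ a) (h *ᵥ w) = star4 h *ᵥ pl a w + altForm4 a w • nv h := by
  funext p
  have Rg := (hh.row (pairOf p).1 (pairOf p).2).trans (anti_pairOf p)
  simp only [pl, nv, Pi.add_apply, Pi.smul_apply, smul_eq_mul, Matrix.mulVec, dotProduct,
    Fin.sum_univ_four, star4_apply, altForm4]
  simp [pairOf] at Rg ⊢
  generalize (![((0 : Fin 4), (1 : Fin 4)), (0, 2), (1, 3), (2, 3)] p).1 = k at *
  generalize (![((0 : Fin 4), (1 : Fin 4)), (0, 2), (1, 3), (2, 3)] p).2 = l at *
  linear_combination (norm := (ring_nf; simp [two0, four0])) (a 1 * w 2 + a 2 * w 1) * Rg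

theorem pl_pl {a w w' : Fin 4 → L} (hc : altForm4 a w = 0) (hc' : altForm4 a w' = 0) :
    altForm4 (pl a w) (pl a w') = 0 := by
  simp only [altForm4] at hc hc'
  simp only [altForm4, pl]
  simp [pairOf]
  linear_combination (norm := (ring_nf; simp [two0, four0]))
    (a 0 * w 3 + a 3 * w 0) * hc' + (a 0 * w' 3 + a 3 * w' 0) * hc

theorem pl_pluecker (a w : Fin 4 → L) :
    f0 (pl a w) = (a 0 * w 3 + a 3 * w 0) * (a 1 * w 2 + a 2 * w 1) := by
  simp only [f0, pl]
  simp [pairOf]
  linear_combination (norm := (ring_nf; simp [two0, four0])) (0 : L) * (0 : L)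

theorem pl_ne_zero {a w : Fin 4 → L} (hc : altForm4 a w = 0) (ha : a ≠ 0)
    (hp : pl a w = 0) : ∃ c : L, w = c • a := by
  have h0 := congrFun hp 0
  have h1 := congrFun hp 1
  have h2 := congrFun hp 2
  have h3 := congrFun hp 3
  simp only [pl, Pi.zero_apply] at h0 h1 h2 h3
  simp [pairOf] at h0 h1 h2 h3
  have hsum : (a 0 * w 3 + a 3 * w 0) = (a 1 * w 2 + a 2 * w 1) := by
    simp only [altForm4] at hc
    linear_combination (norm := (ring_nf; simp [two0, four0])) hc
  have hprod := pl_pluecker a w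
  rw [hp, ← hsum] at hprod
  have h03 : a 0 * w 3 + a 3 * w 0 = 0 := by
    have : (a 0 * w 3 + a 3 * w 0) * (a 0 * w 3 + a 3 * w 0) = 0 := by
      rw [← hprod]; simp [f0]
    exact mul_self_eq_zero.1 this
  have h12 := hsum ▸ h03
  have key : ∀ i j, a i * w j = a j * w i := by
    intro i j
    have : a i * w j + a j * w i = 0 := by
      fin_cases i <;> fin_cases j <;>
        first
          | (simp only [Fin.reduceFinMk, Fin.isValue]; exact CharTwo.add_self_eq_zero _)
          | (simp only [Fin.reduceFinMk, Fin.isValue]; assumption)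
          | (simp only [Fin.reduceFinMk, Fin.isValue]; rw [add_comm]; assumption)
    exact CharTwo.add_eq_zero.1 this
  obtain ⟨i, hi⟩ := Function.ne_iff.1 ha
  refine ⟨w i / a i, funext fun j => ?_⟩
  rw [Pi.smul_apply, smul_eq_mul, div_mul_eq_mul_div, eq_div_iff hi]
  linear_combination key i j

theorem nv_inv {h : Matrix (Fin 4) (Fin 4) L} (r : Fin 4) :
    nv (anti * hᵀ * anti) r =
      h 0 (pairOf (Fin.rev r)).1 * h 3 (pairOf (Fin.rev r)).2 +
        h 3 (pairOf (Fin.rev r)).1 * h 0 (pairOf (Fin.rev r)).2 := by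
  simp only [nv, Matrix.mul_apply, Fin.sum_univ_four, anti_apply, Matrix.transpose_apply]
  fin_cases r <;> simp [pairOf, Fin.rev] <;> ring

theorem f0_col {h : Matrix (Fin 4) (Fin 4) L} (hh : Rel h) (r : Fin 4) :
    f0 (fun p => star4 h p r) =
      (h 0 (pairOf r).1 * h 3 (pairOf r).2 + h 3 (pairOf r).1 * h 0 (pairOf r).2) ^ 2 := by
  have Rc := (hh.col (pairOf r).1 (pairOf r).2).trans (anti_pairOf r)
  simp only [f0, star4_apply]
  generalize (pairOf r).1 = i at *
  generalize (pairOf r).2 = j at *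
  simp [pairOf]
  linear_combination (norm := (ring_nf; simp [two0, four0])) (h 0 i * h 3 j + h 3 i * h 0 j) * Rc

theorem minorSum2_eq_trace {h : Matrix (Fin 4) (Fin 4) L} (hh : Rel h) :
    CfsgLib.OrderDegrees.minorSum2 h = trace (star4 h) := by
  have c12 := hh.col 1 2
  have r03 := hh.row 0 3
  simp only [CfsgLib.OrderDegrees.minorSum2, Matrix.trace, Matrix.diag, Fin.sum_univ_four, star4_apply]
  simp [anti, Fin.rev] at c12 r03
  simp [pairOf]
  linear_combination (norm := (ring_nf; simp [two0, four0])) c12 + r03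

end CfsgLib.SpFourResidual
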