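import Cfsg.Agent.Lib.SpFourResidual.StarId

/-!
# Involutions of the symplectic group under `g ↦ g*`, and their centralisers
-/

set_option autoImplicit false
set_option linter.unusedSectionVars false

open Matrix
open Cfsg.Lie (star4 pairOf altForm4)
open CfsgLib.Parabolic.SpFour

namespace CfsgLib.SpFourResidual

variable {F : Type*} [Field F] [CharP F 2]

theorem six0 : (6 : F) = 0 := by linear_combination (3 : F) * two0 (L := F)

theorem coe_tr4 (a : Fin 4 → F) (c : F) (x : Fin 4 → F) :
    ((tr4 a c : GL (Fin 4) F) : Matrix (Fin 4) (Fin 4) F) *ᵥ x = x + (c * altForm4 x a) • a := by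
  have h := CfsgLib.Geometric.Symp.ap_T isSymplecticForm a c x
  exact h

set_option linter.unusedSimpArgs false in
set_option maxHeartbeats 1000000 in
theorem isT_starG {g : relGroup F} (h2 : g * g = 1) (ha : IsTypeA (g : GL (Fin 4) F)) :
    IsT (starG g) := by
  set M : Matrix (Fin 4) (Fin 4) F := ((g : GL (Fin 4) F) : Matrix (Fin 4) (Fin 4) F) with hM
  have hMM : M * M = 1 := by
    rw [hM, ← Units.val_mul, ← Subgroup.coe_mul, h2]
    rfl
  obtain ⟨hne, hA⟩ := ha
  have hd : ∀ i, M (Fin.rev i) i = 0 := by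
    intro i
    have h := hA (Pi.single i 1)
    rw [← hM] at h
    fin_cases i <;> simpa [altForm4, Fin.rev] using h
  have hs : ∀ i j, i ≠ j → M (Fin.rev i) j + M (Fin.rev j) i = 0 := by
    intro i j hij
    have h := hA (Pi.single i 1 + Pi.single j 1)
    rw [← hM] at h
    have hi := hd i
    have hj := hd j
    fin_cases i <;> fin_cases j <;>
      first
        | exact absurd rfl hij
        | (simp [altForm4, Matrix.mulVec, dotProduct, Fin.sum_univ_four, Fin.rev] at h hi hj ⊢
           linear_combination (norm := (ring_nf; simp [two0])) h + hi + hj)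
  have d0 := hd 0
  have d1 := hd 1
  have d2 := hd 2
  have d3 := hd 3
  have s01 := hs 0 1 (by decide)
  have s02 := hs 0 2 (by decide)
  have s03 := hs 0 3 (by decide)
  have s12 := hs 1 2 (by decide)
  have s13 := hs 1 3 (by decide)
  have s23 := hs 2 3 (by decide)
  simp [Fin.rev] at d0 d1 d2 d3 s01 s02 s03 s12 s13 s23
  have e01 := CharTwo.add_eq_zero.1 s01
  have e02 := CharTwo.add_eq_zero.1 s02
  have e03 := CharTwo.add_eq_zero.1 s03
  have e12 := CharTwo.add_eq_zero.1 s12
  have e13 := CharTwo.add_eq_zero.1 s13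
  have e23 := CharTwo.add_eq_zero.1 s23
  have m00 := congrFun (congrFun hMM 0) 0
  have m11 := congrFun (congrFun hMM 1) 1
  simp [Matrix.mul_apply, Fin.sum_univ_four, d0, d1, d2, d3, e01, e02, e03, e12, e13, e23] at m00 m11
  have hdiag : M 1 1 = M 0 0 := by
    have hsq : (M 1 1 + M 0 0) * (M 1 1 + M 0 0) = 0 := by
      linear_combination (norm := (ring_nf; simp [two0])) m00 + m11
    exact CharTwo.add_eq_zero.1 (mul_self_eq_zero.1 hsq)
  set x : Fin 4 → F := fun p => M (pairOf p).1 (Fin.rev (pairOf p).2) with hx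
  refine ⟨x, 1, ?_, one_ne_zero, ?_⟩
  · intro h0
    refine hne (Units.ext ?_)
    have x0 := congrFun h0 0
    have x1 := congrFun h0 1
    have x2 := congrFun h0 2
    have x3 := congrFun h0 3
    simp [hx, pairOf, Fin.rev] at x0 x1 x2 x3
    have hdd : (M 0 0 + 1) * (M 0 0 + 1) = 0 := by
      linear_combination (norm := (ring_nf; simp [two0])) m00 + M 1 0 * x1 + M 2 0 * x0
    have h00 : M 0 0 = 1 := CharTwo.add_eq_zero.1 (mul_self_eq_zero.1 hdd)
    rw [← hM]
    show M = 1
    ext i j
    fin_cases i <;> fin_cases j <;>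
      simp [d0, d1, d2, d3, e01, e02, e03, e12, e13, e23, hdiag, x0, x1, x2, x3, h00]
  · refine Units.ext (Matrix.ext_of_mulVec_single fun r => ?_)
    rw [coe_tr4, coe_starG, ← hM]
    funext p
    simp only [Pi.add_apply, Pi.smul_apply, smul_eq_mul, one_mul, Matrix.mulVec_single_one,
      Matrix.col_apply, star4_apply, hx]
    fin_cases p <;> fin_cases r <;>
      simp [altForm4, pairOf, Fin.rev, d0, d1, d2, d3, e01, e02, e03, e12, e13, e23, hdiag] <;>
      first
        | linear_combination (norm := (ring_nf; simp [two0, four0])) m00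
        | linear_combination (norm := (ring_nf; simp [two0, four0])) (0 : F) * m00
        | linear_combination (norm := ring_nf) (0 : F) * m00

/-- The centraliser of an involution which is neither a transvection nor of type `a` has exponent
dividing four. -/
theorem pow_four_eq_one [Finite F] {g h : GL (Fin 4) F} (hg : g ∈ relGroup F)
    (hh : h ∈ relGroup F) (h2 : g * g = 1) (h1 : g ≠ 1) (hT : ¬ IsT g) (hA : ¬ IsTypeA g)
    (hc : g * h = h * g) : h ^ 4 = 1 := by
  classical
  set M : Matrix (Fin 4) (Fin 4) F := (g : Matrix (Fin 4) (Fin 4) F) with hM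
  set H : Matrix (Fin 4) (Fin 4) F := (h : Matrix (Fin 4) (Fin 4) F) with hH
  let B := isSymplecticForm (F := F)
  have addl := B.bilinear.add_left
  have addr := B.bilinear.add_right
  have smull := B.bilinear.smul_left
  have smulr := B.bilinear.smul_right
  have hMM : ∀ v, M *ᵥ (M *ᵥ v) = v := fun v => by
    rw [Matrix.mulVec_mulVec, hM, ← Units.val_mul, h2]
    exact Matrix.one_mulVec v
  have hswap : ∀ v w, altForm4 (M *ᵥ v) w = altForm4 v (M *ᵥ w) := fun v w => by
    conv_lhs => rw [← hMM w]
    exact altForm4_map hg v _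
  have hHM : ∀ v, M *ᵥ (H *ᵥ v) = H *ᵥ (M *ᵥ v) := fun v => by
    rw [Matrix.mulVec_mulVec, Matrix.mulVec_mulVec, hM, hH, ← Units.val_mul, ← Units.val_mul, hc]
  -- the semilinear functional
  obtain ⟨s, hs⟩ : ∃ s : F → F, ∀ a, s a ^ 2 = a := by
    have hsurj : Function.Surjective fun a : F => a ^ 2 :=
      Finite.surjective_of_injective CharTwo.sq_injective
    exact ⟨fun a => (hsurj a).choose, fun a => (hsurj a).choose_spec⟩
  let lam : (Fin 4 → F) →ₗ[F] F :=
    { toFun := fun v => s (altForm4 (M *ᵥ v) v)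
      map_add' := fun v w => CharTwo.sq_injective (by
        simp only
        rw [CharTwo.add_sq, hs, hs, hs, Matrix.mulVec_add, addl, addr, addr, altForm4_comm (M *ᵥ w) v,
          ← hswap v w]
        linear_combination (altForm4 (M *ᵥ v) w) * two0 (L := F))
      map_smul' := fun c v => CharTwo.sq_injective (by
        simp only [RingHom.id_apply, smul_eq_mul]
        rw [mul_pow, hs, hs, Matrix.mulVec_smul, smull, smulr]
        ring) }
  have hlam : ∀ v, lam v ^ 2 = altForm4 (M *ᵥ v) v := fun v => hs _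
  have hlamH : ∀ v, lam (H *ᵥ v) = lam v := fun v => CharTwo.sq_injective (by
    show lam (H *ᵥ v) ^ 2 = lam v ^ 2
    rw [hlam, hlam, hHM, altForm4_map hh])
  obtain ⟨v₀, hv₀⟩ : ∃ v, lam v = 1 := by
    obtain ⟨v, hv⟩ : ∃ v, lam v ≠ 0 := by
      by_contra hall
      push Not at hall
      exact hA ⟨h1, fun v => by rw [← hM, ← hlam v, hall v]; ring⟩
    exact ⟨(lam v)⁻¹ • v, by rw [map_smul, smul_eq_mul, inv_mul_cancel₀ hv]⟩
  -- the endomorphisms `g - 1` and `h - 1`
  let N : (Fin 4 → F) →ₗ[F] (Fin 4 → F) := Matrix.toLin' (M - 1)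
  let K : (Fin 4 → F) →ₗ[F] (Fin 4 → F) := Matrix.toLin' (H - 1)
  have hN : ∀ v, N v = M *ᵥ v - v := fun v => by
    simp [N, Matrix.sub_mulVec]
  have hKv : ∀ v, K v = H *ᵥ v - v := fun v => by
    simp [K, Matrix.sub_mulVec]
  have hNN : ∀ v, N (N v) = 0 := fun v => by
    rw [hN, hN, Matrix.mulVec_sub, hMM]
    funext i
    simp only [Pi.sub_apply, Pi.zero_apply]
    linear_combination (v i - (M *ᵥ v) i) * two0 (L := F)
  have hNK : ∀ v, N (K v) = K (N v) := fun v => by
    rw [hKv, hN, hN, hKv, Matrix.mulVec_sub, Matrix.mulVec_sub, hHM]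
    abel
  have hfN : ∀ v w, altForm4 (N v) w = altForm4 (M *ᵥ v) w - altForm4 v w := fun v w => by
    rw [hN]
    simp only [altForm4, Pi.sub_apply]
    ring
  have hNswap : ∀ v w, altForm4 (N v) w = altForm4 v (N w) := fun v w => by
    rw [hfN, altForm4_comm v (N w), hfN, altForm4_comm (M *ᵥ w) v, hswap, altForm4_comm w v]
  have hNlam : ∀ v, altForm4 (N v) v = lam v ^ 2 := fun v => by
    rw [hfN, altForm4_self, sub_zero, hlam]
  have hrad : ∀ w : Fin 4 → F, (∀ y, altForm4 w y = 0) → w = 0 := fun w hw => by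
    by_contra hne
    obtain ⟨-, y, hy⟩ := B.nondegenerate w hne
    exact hy (hw y)
  -- the range of `g - 1` is its kernel
  have hle : LinearMap.range N ≤ LinearMap.ker N := by
    rintro _ ⟨v, rfl⟩
    exact hNN v
  have hker : LinearMap.range N = LinearMap.ker N := by
    refine Submodule.eq_of_le_of_finrank_le hle ?_
    have hsum := LinearMap.finrank_range_add_finrank_ker N
    rw [Module.finrank_fintype_fun_eq_card, Fintype.card_fin] at hsum
    by_contra hlt
    have hr : Module.finrank F (LinearMap.range N) ≤ 1 := by omega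
    obtain ⟨w, hw⟩ := finrank_le_one_iff.1 hr
    choose c hc' using fun v => hw ⟨N v, v, rfl⟩
    have hNv : ∀ v, N v = c v • (w : Fin 4 → F) := fun v => (congrArg Subtype.val (hc' v)).symm
    have hw0 : (w : Fin 4 → F) ≠ 0 := fun h0 => h1 (Units.ext (Matrix.ext_of_mulVec_single fun i => by
      have := hN (Pi.single i 1)
      rw [hNv, h0, smul_zero, eq_comm, sub_eq_zero] at this
      rw [← hM, this, Units.val_one, Matrix.one_mulVec]))
    obtain ⟨⟨x₀, hx₀⟩, -⟩ := B.nondegenerate (w : Fin 4 → F) hw0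
    have hkey : ∀ v, c v * altForm4 (w : Fin 4 → F) x₀ = c x₀ * altForm4 v (w : Fin 4 → F) := by
      intro v
      have e := hNswap v x₀
      rw [hNv, hNv, smull, smulr] at e
      exact e
    have hwx : altForm4 (w : Fin 4 → F) x₀ ≠ 0 := by rw [altForm4_comm]; exact hx₀
    refine hT ⟨w, c x₀ / altForm4 (w : Fin 4 → F) x₀, hw0, ?_, ?_⟩
    · intro h0
      have hc0 : c x₀ = 0 := (div_eq_zero_iff.1 h0).resolve_right hwx
      refine h1 (Units.ext (Matrix.ext_of_mulVec_single fun i => ?_))
      have := hkey (Pi.single i 1)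
      rw [hc0, zero_mul] at this
      have h' := hN (Pi.single i 1)
      rw [hNv, (mul_eq_zero.1 this).resolve_right hwx, zero_smul, eq_comm, sub_eq_zero] at h'
      rw [← hM, h', Units.val_one, Matrix.one_mulVec]
    · refine Units.ext (Matrix.ext_of_mulVec_single fun i => ?_)
      rw [coe_tr4, ← hM]
      have h' := hN (Pi.single i 1)
      rw [hNv] at h'
      rw [show c x₀ / altForm4 (w : Fin 4 → F) x₀ * altForm4 (Pi.single i 1) (w : Fin 4 → F) =
        c (Pi.single i 1) by rw [div_mul_eq_mul_div, div_eq_iff hwx, hkey], h', add_sub_cancel]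
  have hk0 : ∀ v, N v = 0 → lam v = 0 := fun v hv => by
    have h := hNlam v
    rw [hv] at h
    have h0 : altForm4 (0 : Fin 4 → F) v = 0 := by simp [altForm4]
    rw [h0] at h
    exact pow_eq_zero_iff two_ne_zero |>.1 h.symm
  -- `g - 1` maps the kernel of the functional to its orthogonal line
  have hfun : ∀ x, lam x = 0 → ∀ y, altForm4 (N x) y = altForm4 (N x) v₀ * lam y := by
    intro x hx
    have hkerlam : ∀ y, lam y = 0 → altForm4 (N x) y = 0 := by
      intro y hy
      by_cases hx0 : N x = 0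
      · rw [hx0]; simp [altForm4]
      have hfk : Module.finrank F (LinearMap.ker lam) = 3 := by
        have h' := LinearMap.finrank_range_add_finrank_ker lam
        rw [Module.finrank_fintype_fun_eq_card, Fintype.card_fin,
          LinearMap.range_eq_top.2 (fun c => ⟨c • v₀, by rw [map_smul, hv₀, smul_eq_mul, mul_one]⟩),
          finrank_top, Module.finrank_self] at h'
        omega
      have hle' : LinearMap.ker N ⊔ Submodule.span F {x} ≤ LinearMap.ker lam :=
        sup_le (fun v hv => hk0 v hv) ((Submodule.span_singleton_le_iff_mem _ _).2 hx)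
      have htwo : Module.finrank F (LinearMap.ker N) = 2 := by
        have hsum := LinearMap.finrank_range_add_finrank_ker N
        rw [hker, Module.finrank_fintype_fun_eq_card, Fintype.card_fin] at hsum
        omega
      have hlt : LinearMap.ker N < LinearMap.ker N ⊔ Submodule.span F {x} :=
        lt_of_le_of_ne le_sup_left fun he => hx0 (LinearMap.mem_ker.1 (he ▸
          Submodule.mem_sup_right (Submodule.mem_span_singleton_self x)))
      have heq := Submodule.eq_of_le_of_finrank_le hle' (by
        have := Submodule.finrank_lt_finrank_of_lt hlt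
        omega)
      have hy' : y ∈ LinearMap.ker N ⊔ Submodule.span F {x} := by rw [heq]; exact hy
      obtain ⟨a, ha, b, hb, rfl⟩ := Submodule.mem_sup.1 hy'
      obtain ⟨d, rfl⟩ := Submodule.mem_span_singleton.1 hb
      rw [addr, smulr, hNlam, hx, hNswap, LinearMap.mem_ker.1 ha]
      simp [altForm4]
    intro y
    have h := hkerlam (y - lam y • v₀) (by rw [map_sub, map_smul, hv₀, smul_eq_mul, mul_one, sub_self])
    rw [show y - lam y • v₀ = y + (-lam y) • v₀ by rw [neg_smul, sub_eq_add_neg], addr, smulr] at h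
    linear_combination h
  have hK1 : ∀ w : Fin 4 → F, (∃ c : F, ∀ y, altForm4 w y = c * lam y) → K w = 0 := by
    rintro w ⟨c, hw⟩
    refine hrad _ fun y => ?_
    obtain ⟨z, rfl⟩ : ∃ z, H *ᵥ z = y := ⟨((h⁻¹ : GL (Fin 4) F) : Matrix (Fin 4) (Fin 4) F) *ᵥ y, by
      rw [Matrix.mulVec_mulVec, hH, ← Units.val_mul, mul_inv_cancel]; exact Matrix.one_mulVec y⟩
    rw [hKv, show H *ᵥ w - w = H *ᵥ w + (-1 : F) • w by rw [neg_smul, one_smul, sub_eq_add_neg], addl,
      smull, altForm4_map hh, hw z, hw (H *ᵥ z), hlamH]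
    ring
  have hK3 : ∀ v, lam (K v) = 0 := fun v => by rw [hKv, map_sub, hlamH, sub_self]
  have hK4 : ∀ v, K (K (K (K v))) = 0 := by
    intro v
    have h2' : K (K v) ∈ LinearMap.range N := by
      rw [hker, LinearMap.mem_ker, hNK]
      exact hK1 _ ⟨_, hfun _ (hK3 v)⟩
    obtain ⟨z, hz⟩ := h2'
    rw [← hz, ← hNK]
    exact hK1 _ ⟨_, hfun _ (hK3 z)⟩
  refine Units.ext (Matrix.ext_of_mulVec_single fun i => ?_)
  have h4 := hK4 (Pi.single i 1)
  simp only [hKv, Matrix.mulVec_sub, Matrix.mulVec_mulVec] at h4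
  rw [Units.val_pow_eq_pow_val, Units.val_one, Matrix.one_mulVec, ← hH,
    show H ^ 4 = H * H * H * H by simp [pow_succ]]
  funext j
  have h5 := congrFun h4 j
  simp only [Pi.sub_apply, Pi.zero_apply, Matrix.mul_assoc] at h5 ⊢
  linear_combination (norm := (ring_nf; simp [two0, four0, six0])) h5

end CfsgLib.SpFourResidual
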